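import Cfsg.Agent.H1.KegelWielandt
import Cfsg.Agent.H1.MinNonAb
import Cfsg.Agent.H1.AbMax
import Mathlib.NumberTheory.ArithmeticFunction.Misc

/-!
# Itô's theorem and products of an abelian group and a group of class two (helper1)
-/

set_option autoImplicit false
set_option linter.all false

open Cfsg

namespace Cfsg.Agent.H1

open Subgroup
open scoped Pointwise commutatorElement

universe u v

section
variable {G : Type*} [Group G]

theorem ito_top {A B : Subgroup G} (hAc : ∀ a ∈ A, ∀ a' ∈ A, a * a' = a' * a)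
    (hBc : ∀ a ∈ B, ∀ a' ∈ B, a * a' = a' * a) (hAB : ∀ g : G, ∃ a ∈ A, ∃ b ∈ B, g = a * b) :
    ⁅⁅(⊤ : Subgroup G), (⊤ : Subgroup G)⁆, ⁅(⊤ : Subgroup G), (⊤ : Subgroup G)⁆⁆ = ⊥ := by
  have hBA := factor_comm hAB
  set D := ⁅A, B⁆ with hD
  have hDn : D.Normal := by
    apply normalizer_eq_top_iff.mp
    rw [eq_top_iff]
    intro g _
    obtain ⟨a, ha, b, hb, rfl⟩ := hAB g
    exact mul_mem (left_le_normalizer_commutator A B ha) (right_le_normalizer_commutator A B hb)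
  -- `G' ≤ [A, B]`
  have h1 : ⁅(⊤ : Subgroup G), (⊤ : Subgroup G)⁆ ≤ D := by
    set π := QuotientGroup.mk' D with hπ
    have hcomm : ∀ a ∈ A, ∀ b ∈ B, Commute (π a) (π b) := by
      intro a ha b hb
      rw [← commutatorElement_eq_one_iff_commute, ← map_commutatorElement, hπ,
        QuotientGroup.mk'_apply, QuotientGroup.eq_one_iff]
      exact Subgroup.commutator_mem_commutator ha hb
    rw [Subgroup.commutator_le]
    intro x _ y _
    rw [← QuotientGroup.eq_one_iff, ← QuotientGroup.mk'_apply, map_commutatorElement,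
      commutatorElement_eq_one_iff_commute]
    obtain ⟨a, ha, b, hb, rfl⟩ := hAB x
    obtain ⟨a', ha', b', hb', rfl⟩ := hAB y
    rw [map_mul, map_mul]
    have e1 : Commute (π a) (π a') := by
      change π a * π a' = π a' * π a
      rw [← map_mul, hAc a ha a' ha', map_mul]
    have e2 : Commute (π b) (π b') := by
      change π b * π b' = π b' * π b
      rw [← map_mul, hBc b hb b' hb', map_mul]
    exact (e1.mul_right (hcomm a ha b' hb')).mul_left ((hcomm a' ha' b hb).symm.mul_right e2)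
  -- `[A, B]` is abelian
  have key : ∀ a ∈ A, ∀ b ∈ B, ∀ a₁ ∈ A, ∀ b₁ ∈ B, ⁅a, b⁆ * ⁅b₁, a₁⁆ = ⁅b₁, a₁⁆ * ⁅a, b⁆ := by
    have main : ∀ a ∈ A, ∀ b ∈ B, ∀ a₁ ∈ A, ∀ b₁ ∈ B,
        (b₁ * a₁) * ⁅a, b⁆ * (b₁ * a₁)⁻¹ = (a₁ * b₁) * ⁅a, b⁆ * (a₁ * b₁)⁻¹ := by
      intro a ha b hb a₁ ha₁ b₁ hb₁
      obtain ⟨b₂, hb₂, a₂, ha₂, e1⟩ := hBA (a₁ * b * a₁⁻¹)
      obtain ⟨a₃, ha₃, b₃, hb₃, e2⟩ := hAB (b₁ * a * b₁⁻¹)
      have f1 : ∀ x ∈ A, a₁ * ⁅x, b⁆ * a₁⁻¹ = ⁅x, b₂⁆ := by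
        intro x hx
        have c1 := hAc a₁ ha₁ x hx
        have c2 := hAc a₂ ha₂ x⁻¹ (inv_mem hx)
        have c3 : a₁ * ⁅x, b⁆ * a₁⁻¹ = x * (a₁ * b * a₁⁻¹) * x⁻¹ * (a₁ * b * a₁⁻¹)⁻¹ := by
          rw [commutatorElement_def]
          calc a₁ * (x * b * x⁻¹ * b⁻¹) * a₁⁻¹ = (a₁ * x) * b * x⁻¹ * b⁻¹ * a₁⁻¹ := by group
            _ = (x * a₁) * b * x⁻¹ * b⁻¹ * a₁⁻¹ := by rw [c1]
            _ = x * a₁ * b * (x⁻¹ * a₁⁻¹) * a₁ * b⁻¹ * a₁⁻¹ := by group
            _ = x * a₁ * b * (a₁ * x)⁻¹ * a₁ * b⁻¹ * a₁⁻¹ := by rw [mul_inv_rev]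
            _ = x * a₁ * b * (x * a₁)⁻¹ * a₁ * b⁻¹ * a₁⁻¹ := by rw [c1]
            _ = _ := by group
        rw [c3, e1, commutatorElement_def]
        calc x * (b₂ * a₂) * x⁻¹ * (b₂ * a₂)⁻¹ = x * b₂ * (a₂ * x⁻¹) * a₂⁻¹ * b₂⁻¹ := by group
          _ = x * b₂ * (x⁻¹ * a₂) * a₂⁻¹ * b₂⁻¹ := by rw [c2]
          _ = _ := by group
      have f2 : ∀ y ∈ B, b₁ * ⁅a, y⁆ * b₁⁻¹ = ⁅a₃, y⁆ := by
        intro y hy
        have c1 := hBc b₁ hb₁ y hy
        have c2 := hBc b₃ hb₃ y hy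
        have c3 : b₁ * ⁅a, y⁆ * b₁⁻¹ = (b₁ * a * b₁⁻¹) * y * (b₁ * a * b₁⁻¹)⁻¹ * y⁻¹ := by
          have c4 : b₁ * y⁻¹ = y⁻¹ * b₁ := hBc b₁ hb₁ y⁻¹ (inv_mem hy)
          rw [commutatorElement_def]
          calc b₁ * (a * y * a⁻¹ * y⁻¹) * b₁⁻¹ = b₁ * a * b₁⁻¹ * (b₁ * y) * a⁻¹ * y⁻¹ * b₁⁻¹ := by group
            _ = b₁ * a * b₁⁻¹ * (y * b₁) * a⁻¹ * b₁⁻¹ * (b₁ * y⁻¹) * b₁⁻¹ := by rw [c1]; group
            _ = b₁ * a * b₁⁻¹ * (y * b₁) * a⁻¹ * b₁⁻¹ * (y⁻¹ * b₁) * b₁⁻¹ := by rw [c4]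
            _ = _ := by group
        rw [c3, e2, commutatorElement_def]
        calc (a₃ * b₃) * y * (a₃ * b₃)⁻¹ * y⁻¹ = a₃ * (b₃ * y) * b₃⁻¹ * a₃⁻¹ * y⁻¹ := by group
          _ = a₃ * (y * b₃) * b₃⁻¹ * a₃⁻¹ * y⁻¹ := by rw [c2]
          _ = _ := by group
      calc (b₁ * a₁) * ⁅a, b⁆ * (b₁ * a₁)⁻¹ = b₁ * (a₁ * ⁅a, b⁆ * a₁⁻¹) * b₁⁻¹ := by group
        _ = b₁ * ⁅a, b₂⁆ * b₁⁻¹ := by rw [f1 a ha]
        _ = ⁅a₃, b₂⁆ := f2 b₂ hb₂
        _ = a₁ * ⁅a₃, b⁆ * a₁⁻¹ := (f1 a₃ ha₃).symm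
        _ = a₁ * (b₁ * ⁅a, b⁆ * b₁⁻¹) * a₁⁻¹ := by rw [f2 b hb]
        _ = _ := by group
    intro a ha b hb a₁ ha₁ b₁ hb₁
    have h2 := main a ha b hb a₁⁻¹ (inv_mem ha₁) b₁⁻¹ (inv_mem hb₁)
    -- `(a₁⁻¹ b₁⁻¹)⁻¹ (b₁⁻¹ a₁⁻¹) = b₁ a₁ b₁⁻¹ a₁⁻¹`
    have h3 : ⁅b₁, a₁⁆ * ⁅a, b⁆ * ⁅b₁, a₁⁆⁻¹ = ⁅a, b⁆ := by
      calc ⁅b₁, a₁⁆ * ⁅a, b⁆ * ⁅b₁, a₁⁆⁻¹ =
          (a₁⁻¹ * b₁⁻¹)⁻¹ * ((b₁⁻¹ * a₁⁻¹) * ⁅a, b⁆ * (b₁⁻¹ * a₁⁻¹)⁻¹) * (a₁⁻¹ * b₁⁻¹) := by
            rw [commutatorElement_def b₁ a₁]; group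
        _ = (a₁⁻¹ * b₁⁻¹)⁻¹ * ((a₁⁻¹ * b₁⁻¹) * ⁅a, b⁆ * (a₁⁻¹ * b₁⁻¹)⁻¹) * (a₁⁻¹ * b₁⁻¹) := by
            rw [h2]
        _ = _ := by group
    exact (mul_inv_eq_iff_eq_mul.mp h3).symm
  have h2 : D ≤ centralizer (D : Set G) := by
    rw [hD, Subgroup.commutator_le]
    intro a ha b hb
    rw [Subgroup.mem_centralizer_iff]
    have h3 : ⁅A, B⁆ ≤ centralizer ({⁅a, b⁆} : Set G) := by
      rw [Subgroup.commutator_le]
      intro a₁ ha₁ b₁ hb₁
      rw [Subgroup.mem_centralizer_singleton_iff]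
      have h4 := key a ha b hb a₁ ha₁ b₁ hb₁
      rw [← commutatorElement_inv b₁ a₁]
      have h5 : Commute ⁅a, b⁆ ⁅b₁, a₁⁆ := h4
      exact (h5.inv_right.symm).eq
    intro y hy
    exact Subgroup.mem_centralizer_singleton_iff.mp (h3 hy)
  rw [eq_bot_iff]
  refine (Subgroup.commutator_mono h1 h1).trans ?_
  rw [(Subgroup.commutator_eq_bot_iff_le_centralizer).mpr h2]

theorem ito_ambient {A B X : Subgroup G} (hAc : ∀ a ∈ A, ∀ a' ∈ A, a * a' = a' * a)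
    (hBc : ∀ a ∈ B, ∀ a' ∈ B, a * a' = a' * a) (hA : A ≤ X) (hB : B ≤ X)
    (hAB : ∀ g ∈ X, ∃ a ∈ A, ∃ b ∈ B, g = a * b) : ⁅⁅X, X⁆, ⁅X, X⁆⁆ = ⊥ := by
  have h1 := ito_top (G := X) (A := A.subgroupOf X) (B := B.subgroupOf X)
    (fun a ha a' ha' => Subtype.ext (hAc a (Subgroup.mem_subgroupOf.mp ha) a'
      (Subgroup.mem_subgroupOf.mp ha')))
    (fun a ha a' ha' => Subtype.ext (hBc a (Subgroup.mem_subgroupOf.mp ha) a'
      (Subgroup.mem_subgroupOf.mp ha')))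
    (by
      rintro ⟨g, hg⟩
      obtain ⟨a, ha, b, hb, he⟩ := hAB g hg
      exact ⟨⟨a, hA ha⟩, Subgroup.mem_subgroupOf.mpr ha, ⟨b, hB hb⟩,
        Subgroup.mem_subgroupOf.mpr hb, Subtype.ext he⟩)
  have h2 := congrArg (Subgroup.map X.subtype) h1
  have h3 : (⊤ : Subgroup X).map X.subtype = X := by
    rw [← MonoidHom.range_eq_map, Subgroup.range_subtype]
  rw [Subgroup.map_commutator, Subgroup.map_commutator, h3, Subgroup.map_bot] at h2
  exact h2

theorem ito_derivedSeries {A B : Subgroup G} (hAc : ∀ a ∈ A, ∀ a' ∈ A, a * a' = a' * a)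
    (hBc : ∀ a ∈ B, ∀ a' ∈ B, a * a' = a' * a) (hAB : ∀ g : G, ∃ a ∈ A, ∃ b ∈ B, g = a * b) :
    derivedSeries G 2 = ⊥ := ito_top hAc hBc hAB

theorem comm_of_isMulCommutative {A : Subgroup G} (hA : IsMulCommutative A) :
    ∀ a ∈ A, ∀ a' ∈ A, a * a' = a' * a := fun a ha a' ha' =>
  congrArg Subtype.val (hA.is_comm.comm ⟨a, ha⟩ ⟨a', ha'⟩)

theorem comm_of_commutator_eq_bot {A : Subgroup G} (hA : ⁅A, A⁆ = ⊥) :
    ∀ a ∈ A, ∀ a' ∈ A, a * a' = a' * a := by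
  intro a ha a' ha'
  rw [Subgroup.commutator_eq_bot_iff_le_centralizer] at hA
  exact Subgroup.mem_centralizer_iff.mp (hA ha') a ha

/-- the factorizer of a normal subgroup -/
theorem factorizer {A B N : Subgroup G} [N.Normal] (hAB : ∀ g : G, ∃ a ∈ A, ∃ b ∈ B, g = a * b) :
    ∀ g ∈ (A ⊔ N) ⊓ (B ⊔ N), ∃ a ∈ A ⊓ (B ⊔ N), ∃ b ∈ B ⊓ (A ⊔ N), g = a * b := by
  intro g hg
  obtain ⟨hg1, hg2⟩ := Subgroup.mem_inf.mp hg
  obtain ⟨a, ha, b, hb, rfl⟩ := hAB g
  refine ⟨a, ⟨ha, ?_⟩, b, ⟨hb, ?_⟩, rfl⟩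
  · have := mul_mem hg2 (inv_mem (Subgroup.mem_sup_left hb : b ∈ B ⊔ N))
    rwa [mul_inv_cancel_right] at this
  · have := mul_mem (inv_mem (Subgroup.mem_sup_left ha : a ∈ A ⊔ N)) hg1
    rwa [inv_mul_cancel_left] at this

theorem factorizer_eq {A B N : Subgroup G} [hN : N.Normal] :
    (A ⊔ N) ⊓ (B ⊔ N) = (A ⊓ (B ⊔ N)) ⊔ N := by
  have h1 := normal_sup_inf_of_le (M := N) (X := B ⊔ N) A le_sup_right
  rw [sup_comm N A, sup_comm N (A ⊓ (B ⊔ N))] at h1
  exact h1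

end

/-- `G = AB` with `A` abelian and `B` of class at most two. -/
theorem class_two_aux (n : ℕ) : ∀ (G : Type u) [Group G] [Finite G], Nat.card G = n →
    ∀ A B : Subgroup G, (∀ a ∈ A, ∀ a' ∈ A, a * a' = a' * a) →
      ⁅B, B⁆ ≤ centralizer (B : Set G) → (∀ g : G, ∃ a ∈ A, ∃ b ∈ B, g = a * b) →
      derivedSeries G (2 * (1 + (Nat.card (⁅B, B⁆ : Subgroup G)).primeFactorsList.length)) = ⊥ := by
  induction n using Nat.strong_induction_on with
  | _ n ih =>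
    intro G _ _ hn A B hA hB hAB
    by_cases hB' : ⁅B, B⁆ = ⊥
    · rw [hB', Subgroup.card_bot]
      simp only [Nat.primeFactorsList_one, List.length_nil]
      exact ito_derivedSeries hA (comm_of_commutator_eq_bot hB') hAB
    have hAn : Group.IsNilpotent A := by
      haveI : IsMulCommutative A := ⟨⟨fun a b => Subtype.ext (hA a a.2 b b.2)⟩⟩
      open scoped IsMulCommutative in
      exact (inferInstance : Group.IsNilpotent A)
    have hBn : Group.IsNilpotent B := isNilpotent_of_commutator_le_central le_rfl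
      (Subgroup.commutator_eq_bot_iff_le_centralizer.mpr hB)
    have hs : Group.IsSolvable G := kegel_wielandt_aux _ G rfl A B hAn hBn hAB
    -- minimal normal subgroup meeting `B'`
    obtain ⟨N, hNmin⟩ := (Set.toFinite {N : Subgroup G | N.Normal ∧ N ⊓ ⁅B, B⁆ ≠ ⊥}).exists_minimal
      ⟨⊤, inferInstance, by rwa [top_inf_eq]⟩
    have hN : N.Normal := hNmin.1.1
    have hNB : N ⊓ ⁅B, B⁆ ≠ ⊥ := hNmin.1.2
    have hNmin' : ∀ M : Subgroup G, M.Normal → M < N → M ⊓ ⁅B, B⁆ = ⊥ := by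
      intro M hM hMN
      by_contra hne
      exact not_le_of_gt hMN (hNmin.2 ⟨hM, hne⟩ hMN.le)
    haveI := hN
    have hNb : N ≠ ⊥ := by
      rintro rfl
      rw [bot_inf_eq] at hNB; exact hNB rfl
    obtain ⟨M, hMmax⟩ := (Set.toFinite {M : Subgroup G | M.Normal ∧ M < N}).exists_maximal
      ⟨⊥, inferInstance, bot_lt_iff_ne_bot.mpr hNb⟩
    have hM : M.Normal := hMmax.1.1
    have hMN : M < N := hMmax.1.2
    haveI := hM
    have hMB := hNmin' M hM hMN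
    have hMmax' : ∀ K : Subgroup G, K.Normal → M < K → K ≤ N → K = N := by
      intro K hK hMK hKN
      by_contra hne
      exact not_le_of_gt hMK (hMmax.2 ⟨hK, lt_of_le_of_ne hKN hne⟩ hMK.le)
    have hNM : ⁅N, N⁆ ≤ M := (chief_factor_solvable hM hN hMN hMmax' inferInstance).1
    obtain ⟨⟨z, hz⟩, hz1⟩ := (Subgroup.ne_bot_iff_exists_ne_one).mp hNB
    obtain ⟨hzN, hzB⟩ := Subgroup.mem_inf.mp hz
    have hz1' : z ≠ 1 := fun h => hz1 (Subtype.ext h)
    have hzM : z ∉ M := by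
      intro h
      have : z ∈ M ⊓ ⁅B, B⁆ := ⟨h, hzB⟩
      rw [hMB, Subgroup.mem_bot] at this
      exact hz1' this
    set Z := Subgroup.normalClosure ({z} : Set G) with hZ
    have hZn : Z.Normal := Subgroup.normalClosure_normal
    have hZN : Z ≤ N := Subgroup.normalClosure_le_normal (by simpa using hzN)
    have hMZ : M ⊔ Z = N := by
      apply hMmax' _ inferInstance
      · refine lt_of_le_of_ne le_sup_left ?_
        intro h
        apply hzM
        rw [h]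
        exact Subgroup.mem_sup_right (Subgroup.subset_normalClosure rfl)
      · exact sup_le hMN.le hZN
    set A₁ := A ⊓ (B ⊔ N) with hA₁
    set B₁ := B ⊓ (A ⊔ N) with hB₁
    set X := (A ⊔ N) ⊓ (B ⊔ N) with hX
    have hBzc : ∀ b ∈ B, b * z = z * b := fun b hb =>
      Subgroup.mem_centralizer_iff.mp (hB hzB) b hb
    -- `A₁` centralizes `N / M`
    set π := QuotientGroup.mk' M with hπ
    have hπN : ∀ x ∈ N, ∀ y ∈ N, Commute (π x) (π y) := by
      intro x hx y hy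
      rw [← commutatorElement_eq_one_iff_commute, ← map_commutatorElement, hπ,
        QuotientGroup.mk'_apply, QuotientGroup.eq_one_iff]
      exact hNM (Subgroup.commutator_mem_commutator hx hy)
    have hcen : ∀ a ∈ A₁, ∀ x ∈ N, Commute (π x) (π a) := by
      intro a ha
      obtain ⟨haA, haBN⟩ := Subgroup.mem_inf.mp ha
      rw [Subgroup.mem_sup_of_normal_right] at haBN
      obtain ⟨b, hb, x₀, hx₀, hbx⟩ := haBN
      have hza : Commute (π z) (π a) := by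
        rw [← hbx, map_mul]
        refine Commute.mul_right ?_ (hπN z hzN x₀ hx₀)
        change π z * π b = π b * π z
        rw [← map_mul, ← map_mul, hBzc b hb]
      have hle : N ≤ (centralizer ({π a} : Set (G ⧸ M))).comap π := by
        rw [← hMZ]
        refine sup_le ?_ ?_
        · intro x hx
          rw [Subgroup.mem_comap, Subgroup.mem_centralizer_singleton_iff]
          have : π x = 1 := (QuotientGroup.eq_one_iff x).mpr hx
          rw [this, one_mul, mul_one]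
        · rw [hZ, Subgroup.normalClosure, Subgroup.closure_le]
          intro y hy
          obtain ⟨w, hw, hwy⟩ := Group.mem_conjugatesOfSet_iff.mp hy
          rw [Set.mem_singleton_iff] at hw
          subst hw
          obtain ⟨g, rfl⟩ := isConj_iff.mp hwy
          obtain ⟨a', ha', b', hb', rfl⟩ := hAB g
          have e1 : a' * b' * w * (a' * b')⁻¹ = a' * w * a'⁻¹ := by
            calc a' * b' * w * (a' * b')⁻¹ = a' * (b' * w) * b'⁻¹ * a'⁻¹ := by group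
              _ = a' * (w * b') * b'⁻¹ * a'⁻¹ := by rw [hBzc b' hb']
              _ = _ := by group
          rw [e1]
          change π (a' * w * a'⁻¹) ∈ centralizer ({π a} : Set (G ⧸ M))
          rw [Subgroup.mem_centralizer_singleton_iff]
          have e2 : Commute (π a') (π a) := by
            change π a' * π a = π a * π a'
            rw [← map_mul, ← map_mul, hA a' ha' a haA]
          rw [map_mul, map_mul, map_inv]
          exact ((e2.mul_left hza).mul_left e2.inv_left).eq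
      intro x hx
      exact Subgroup.mem_centralizer_singleton_iff.mp (Subgroup.mem_comap.mp (hle hx))
    have hXeq : X = A₁ ⊔ N := factorizer_eq
    have hXM : ⁅X, X⁆ ≤ M := by
      rw [Subgroup.commutator_le]
      intro x hx y hy
      rw [hXeq, Subgroup.mem_sup_of_normal_right] at hx hy
      obtain ⟨a, ha, x₀, hx₀, rfl⟩ := hx
      obtain ⟨a', ha', y₀, hy₀, rfl⟩ := hy
      rw [← QuotientGroup.eq_one_iff, ← QuotientGroup.mk'_apply, ← hπ, map_commutatorElement,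
        commutatorElement_eq_one_iff_commute, map_mul, map_mul]
      have e1 : Commute (π a) (π a') := by
        change π a * π a' = π a' * π a
        rw [← map_mul, ← map_mul, hA a ha.1 a' ha'.1]
      exact (e1.mul_right (hcen a ha y₀ hy₀).symm).mul_left
        ((hcen a' ha' x₀ hx₀).mul_right (hπN x₀ hx₀ y₀ hy₀))
    have hB₁X : B₁ ≤ X := le_inf inf_le_right (inf_le_left.trans le_sup_left)
    have hA₁X : A₁ ≤ X := le_inf (inf_le_left.trans le_sup_left) inf_le_right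
    have hB₁c : ⁅B₁, B₁⁆ = ⊥ := by
      rw [← le_bot_iff, ← hMB]
      exact le_inf ((Subgroup.commutator_mono hB₁X hB₁X).trans hXM)
        (Subgroup.commutator_mono inf_le_left inf_le_left)
    have hX2 : ⁅⁅X, X⁆, ⁅X, X⁆⁆ = ⊥ :=
      ito_ambient (A := A₁) (B := B₁) (fun a ha a' ha' => hA a ha.1 a' ha'.1)
        (comm_of_commutator_eq_bot hB₁c) hA₁X hB₁X (factorizer hAB)
    have hNX : N ≤ X := le_inf le_sup_right le_sup_right
    -- induction in `G / N`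
    have hmapB : ⁅B.map (QuotientGroup.mk' N), B.map (QuotientGroup.mk' N)⁆ =
        (⁅B, B⁆).map (QuotientGroup.mk' N) := (Subgroup.map_commutator _ _ _).symm
    have hIH := ih _ (hn ▸ card_quotient_lt hNb) (G ⧸ N) rfl (A.map (QuotientGroup.mk' N))
      (B.map (QuotientGroup.mk' N)) (by
        rintro _ ⟨a, ha, rfl⟩ _ ⟨a', ha', rfl⟩
        rw [← map_mul, ← map_mul, hA a ha a' ha']) (by
        rw [hmapB]
        rintro _ ⟨y, hy, rfl⟩
        rw [Subgroup.mem_centralizer_iff]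
        rintro _ ⟨b, hb, rfl⟩
        rw [← map_mul, ← map_mul, Subgroup.mem_centralizer_iff.mp (hB hy) b hb])
      (factor_map _ (QuotientGroup.mk'_surjective N) hAB)
    rw [hmapB] at hIH
    have hcard := card_map_mk'_mul N ⁅B, B⁆
    set k := (Nat.card ((⁅B, B⁆).map (QuotientGroup.mk' N))).primeFactorsList.length with hk
    set l := (Nat.card (⁅B, B⁆ : Subgroup G)).primeFactorsList.length with hl
    have hkl : k + 1 ≤ l := by
      rw [hk, hl, ← ArithmeticFunction.cardFactors_apply, ← ArithmeticFunction.cardFactors_apply,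
        ← hcard, ArithmeticFunction.cardFactors_mul Nat.card_pos.ne' Nat.card_pos.ne', add_comm]
      apply Nat.add_le_add_right
      rw [Nat.succ_le_iff, ArithmeticFunction.cardFactors_pos_iff_one_lt,
        Subgroup.one_lt_card_iff_ne_bot, inf_comm]
      exact hNB
    have hDN : derivedSeries G (2 * (1 + k)) ≤ N := by
      have h1 := derivedSeries_map_mk'_le N (2 * (1 + k))
      rw [hIH, le_bot_iff, map_mk'_eq_bot_iff] at h1
      exact h1
    have hD2 : derivedSeries G (2 * (1 + k) + 2) = ⊥ := by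
      rw [← le_bot_iff, ← hX2]
      change ⁅⁅derivedSeries G (2 * (1 + k)), derivedSeries G (2 * (1 + k))⁆,
        ⁅derivedSeries G (2 * (1 + k)), derivedSeries G (2 * (1 + k))⁆⁆ ≤ _
      have h1 := hDN.trans hNX
      exact Subgroup.commutator_mono (Subgroup.commutator_mono h1 h1) (Subgroup.commutator_mono h1 h1)
    rw [← le_bot_iff, ← hD2]
    exact derivedSeries_antitone G (by omega)

end Cfsg.Agent.H1
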