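import Cfsg.Agent.H1.Carter
import Cfsg.Agent.H1.Ito
import Cfsg.Agent.H1.Coprime2

set_option autoImplicit false

/-! S0573: a product of two abelian groups has a nontrivial normal subgroup inside a factor
(helper1). -/

namespace Cfsg.Agent.H1

open Subgroup Cfsg
open scoped Pointwise commutatorElement

universe u

section lemmas

variable {Y : Type u} [Group Y] {A B M : Subgroup Y}

/-- `C_Y(A) ≤ A` if the centre is trivial -/
theorem ab_cent_le (hB : ∀ a ∈ B, ∀ a' ∈ B, a * a' = a' * a)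
    (hA : ∀ a ∈ A, ∀ a' ∈ A, a * a' = a' * a)
    (hAB : ∀ g : Y, ∃ a ∈ A, ∃ b ∈ B, g = a * b) (hZ : center Y = ⊥) {x : Y}
    (hx : ∀ a ∈ A, a * x = x * a) : x ∈ A := by
  obtain ⟨a, ha, b, hb, rfl⟩ := hAB x
  have h1 : b ∈ center Y := by
    rw [mem_center_iff]
    intro g
    obtain ⟨c, hc, d, hd, rfl⟩ := hAB g
    have h2 : c * b = b * c := by
      have h3 := hx c hc
      have h4 : a * (c * b) = a * (b * c) := by
        rw [← mul_assoc, ← mul_assoc, ← hA c hc a ha, mul_assoc, h3]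
      exact mul_left_cancel h4
    rw [mul_assoc, hB d hd b hb, ← mul_assoc, h2, mul_assoc]
  rw [hZ, mem_bot] at h1
  rw [h1, mul_one]; exact ha

/-- if `N` is a normal subgroup centralized by `Y'` then `A ∩ N` is normal -/
theorem ab_inf_normal (hB : ∀ a ∈ B, ∀ a' ∈ B, a * a' = a' * a)
    (hA : ∀ a ∈ A, ∀ a' ∈ A, a * a' = a' * a)
    (hAB : ∀ g : Y, ∃ a ∈ A, ∃ b ∈ B, g = a * b) (hZ : center Y = ⊥) (N : Subgroup Y)
    (hN : N.Normal) (hc : ∀ n ∈ N, ∀ c ∈ _root_.commutator Y, c * n = n * c) :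
    (A ⊓ N).Normal := by
  have key : ∀ b : Y, ∀ x ∈ A ⊓ N, b * x * b⁻¹ ∈ A ⊓ N := by
    intro b x hx
    have hN' : b * x * b⁻¹ ∈ N := hN.conj_mem x hx.2 b
    refine ⟨ab_cent_le hB hA hAB hZ fun a ha => ?_, hN'⟩
    have hcm : a * b * a⁻¹ * b⁻¹ ∈ _root_.commutator Y := by
      have := commutator_mem_commutator (H₁ := (⊤ : Subgroup Y)) (H₂ := ⊤) (g₁ := a) (g₂ := b)
        trivial trivial
      exact this
    have h1 := hc _ hN' _ hcm
    have hax := hA a ha x hx.1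
    calc a * (b * x * b⁻¹) = a * b * a⁻¹ * b⁻¹ * (b * (a * x) * b⁻¹) := by group
      _ = a * b * a⁻¹ * b⁻¹ * (b * (x * a) * b⁻¹) := by rw [hax]
      _ = a * b * a⁻¹ * b⁻¹ * (b * x * b⁻¹) * (b * a * b⁻¹) := by group
      _ = b * x * b⁻¹ * (a * b * a⁻¹ * b⁻¹) * (b * a * b⁻¹) := by rw [h1]
      _ = b * x * b⁻¹ * a := by group
  exact ⟨fun x hx g => key g x hx⟩

theorem ab_carter [Finite Y] (hA : ∀ a ∈ A, ∀ a' ∈ A, a * a' = a' * a)
    (hMn : M.Normal) (hM : ∀ a ∈ M, ∀ a' ∈ M, a * a' = a' * a)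
    (hAM : ∀ g : Y, ∃ a ∈ A, ∃ m ∈ M, g = a * m) (hinf : A ⊓ M = ⊥) (hZ : center Y = ⊥) :
    IsCarterSubgroup A := by
  constructor
  · letI : CommGroup A := { (inferInstance : Group A) with
      mul_comm := fun a b => Subtype.ext (hA a a.2 b b.2) }
    infer_instance
  · refine le_antisymm ?_ le_normalizer
    intro y hy
    obtain ⟨a, ha, m, hm, rfl⟩ := hAM y
    have hmn : m ∈ normalizer (A : Set Y) := by
      have := mul_mem (inv_mem (le_normalizer ha)) hy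
      rwa [inv_mul_cancel_left] at this
    have h1 : m ∈ center Y := by
      have hma : ∀ a ∈ A, a * m = m * a := by
        intro a ha
        have h2 : m * a * m⁻¹ * a⁻¹ ∈ A ⊓ M := by
          refine Subgroup.mem_inf.2 ⟨mul_mem ((mem_normalizer_iff.1 hmn a).1 ha) (inv_mem ha), ?_⟩
          have h3 : m * a * m⁻¹ * a⁻¹ = m * (a * m⁻¹ * a⁻¹) := by group
          rw [h3]
          exact mul_mem hm (hMn.conj_mem _ (inv_mem hm) a)
        rw [hinf, mem_bot, mul_inv_eq_one, mul_inv_eq_iff_eq_mul] at h2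
        exact h2.symm
      rw [mem_center_iff]
      intro g
      obtain ⟨c, hc, d, hd, rfl⟩ := hAM g
      rw [mul_assoc, hM d hd m hm, ← mul_assoc, hma c hc, mul_assoc]
    rw [hZ, mem_bot] at h1
    rw [h1, mul_one]; exact ha

theorem ab_eq_of_carter [Finite Y] (hs : Group.IsSolvable Y) (hA : IsCarterSubgroup A)
    (hB : IsCarterSubgroup B) (hAB : ∀ g : Y, ∃ a ∈ A, ∃ b ∈ B, g = a * b) : A = B := by
  obtain ⟨g, hg⟩ := carter_conj hs hA hB
  obtain ⟨a, ha, b, hb, e⟩ := hAB g⁻¹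
  have e' : g = b⁻¹ * a⁻¹ := by rw [← inv_inv g, e, mul_inv_rev]
  rw [e', ← conj_smul_smul] at hg
  have h1 : MulAut.conj a⁻¹ • A = A := conj_smul_self_of_mem (inv_mem ha)
  rw [h1] at hg
  have h2 : MulAut.conj b • (MulAut.conj b⁻¹ • A) = MulAut.conj b • B := by rw [hg]
  rw [conj_smul_smul, mul_inv_cancel, conj_one_smul, conj_smul_self_of_mem hb] at h2
  exact h2

end lemmas

theorem normal_of_commutator_le {G : Type u} [Group G] {X : Subgroup G}
    (h : _root_.commutator G ≤ X) : X.Normal := by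
  refine ⟨fun x hx g => ?_⟩
  have h1 : g * x * g⁻¹ * x⁻¹ ∈ _root_.commutator G :=
    commutator_mem_commutator (H₁ := (⊤ : Subgroup G)) (H₂ := ⊤) (g₁ := g) (g₂ := x) trivial trivial
  have := mul_mem (h h1) hx
  rwa [inv_mul_cancel_right] at this

theorem ab_prod {G : Type u} [Group G] [Finite G] [Nontrivial G] {A B : Subgroup G}
    (hA : ∀ a ∈ A, ∀ a' ∈ A, a * a' = a' * a) (hB : ∀ a ∈ B, ∀ a' ∈ B, a * a' = a' * a)
    (hAB : ∀ g : G, ∃ a ∈ A, ∃ b ∈ B, g = a * b) :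
    ∃ N : Subgroup G, N.Normal ∧ N ≠ ⊥ ∧ (N ≤ A ∨ N ≤ B) := by
  have hBA := factor_comm hAB
  have hs : Group.IsSolvable G := by
    rw [Group.isSolvable_def]
    exact ⟨2, ito_derivedSeries hA hB hAB⟩
  by_cases hZ : center G = ⊥
  swap
  · obtain ⟨⟨z, hz⟩, hz1⟩ := (Subgroup.ne_bot_iff_exists_ne_one (H := center G)).mp hZ
    have hz1' : z ≠ 1 := fun e => hz1 (Subtype.ext e)
    obtain ⟨a, ha, b, hb, e⟩ := hAB z
    have hzc := mem_center_iff.1 hz
    have hbc : b ∈ center G := by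
      rw [mem_center_iff]
      intro g
      obtain ⟨c, hc, d, hd, rfl⟩ := hAB g
      have h2 : c * b = b * c := by
        have h3 := hzc c
        rw [e] at h3
        have h4 : a * (c * b) = a * (b * c) := by
          rw [← mul_assoc, ← mul_assoc, ← hA c hc a ha, mul_assoc, h3]
        exact mul_left_cancel h4
      rw [mul_assoc, hB d hd b hb, ← mul_assoc, h2, mul_assoc]
    by_cases hb1 : b = 1
    · rw [hb1, mul_one] at e
      refine ⟨zpowers a, ?_, ?_, Or.inl (by rwa [zpowers_le])⟩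
      · rw [← e]
        refine ⟨fun x hx g => ?_⟩
        obtain ⟨k, rfl⟩ := mem_zpowers_iff.1 hx
        have h1 := mem_center_iff.1 (zpow_mem hz k) g
        rw [h1, mul_inv_cancel_right]; exact hx
      · rw [ne_eq, zpowers_eq_bot, ← e]; exact hz1'
    · refine ⟨zpowers b, ?_, ?_, Or.inr (by rwa [zpowers_le])⟩
      · refine ⟨fun x hx g => ?_⟩
        obtain ⟨k, rfl⟩ := mem_zpowers_iff.1 hx
        have h1 := mem_center_iff.1 (zpow_mem hbc k) g
        rw [h1, mul_inv_cancel_right]; exact hx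
      · rwa [ne_eq, zpowers_eq_bot]
  set M : Subgroup G := _root_.commutator G with hMdef
  have hMn : M.Normal := by rw [hMdef]; infer_instance
  have hMM : ∀ a ∈ M, ∀ a' ∈ M, a * a' = a' * a := comm_of_commutator_eq_bot (ito_top hA hB hAB)
  have hMne : M ≠ ⊥ := by
    intro h
    have h1 : center G = ⊤ := by
      rw [eq_top_iff]
      intro x _
      rw [mem_center_iff]
      intro g
      have h2 : g * x * g⁻¹ * x⁻¹ ∈ M :=
        commutator_mem_commutator (H₁ := (⊤ : Subgroup G)) (H₂ := ⊤) (g₁ := g) (g₂ := x)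
          trivial trivial
      rw [h, mem_bot, mul_inv_eq_one, mul_inv_eq_iff_eq_mul] at h2
      exact h2
    rw [hZ] at h1
    exact bot_ne_top h1
  by_contra hcon
  push Not at hcon
  have hAN : ∀ N : Subgroup G, N.Normal → (∀ n ∈ N, ∀ c ∈ M, c * n = n * c) → A ⊓ N = ⊥ := by
    intro N hN hc
    by_contra hne
    exact (hcon _ (ab_inf_normal hB hA hAB hZ N hN hc) hne).1 inf_le_left
  have hBN : ∀ N : Subgroup G, N.Normal → (∀ n ∈ N, ∀ c ∈ M, c * n = n * c) → B ⊓ N = ⊥ := by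
    intro N hN hc
    by_contra hne
    exact (hcon _ (ab_inf_normal hA hB hBA hZ N hN hc) hne).2 inf_le_left
  have hAM := hAN M hMn fun n hn c hc => hMM c hc n hn
  have hBM := hBN M hMn fun n hn c hc => hMM c hc n hn
  set X : Subgroup G := (A ⊔ M) ⊓ (B ⊔ M) with hX
  have hMX : M ≤ X := le_inf le_sup_right le_sup_right
  have hXn : X.Normal := normal_of_commutator_le hMX
  -- factorization of `X`
  have hXAB : ∀ x ∈ X, ∀ a ∈ A, ∀ b ∈ B, x = a * b → a ∈ X ∧ b ∈ X := by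
    rintro x hx a ha b hb rfl
    obtain ⟨hx1, hx2⟩ := Subgroup.mem_inf.1 hx
    have h1 : a ∈ B ⊔ M := by
      have := mul_mem hx2 (inv_mem (mem_sup_left hb : b ∈ B ⊔ M))
      rwa [mul_inv_cancel_right] at this
    have h2 : b ∈ A ⊔ M := by
      have := mul_mem (inv_mem (mem_sup_left ha : a ∈ A ⊔ M)) hx1
      rwa [inv_mul_cancel_left] at this
    exact ⟨Subgroup.mem_inf.2 ⟨mem_sup_left ha, h1⟩, Subgroup.mem_inf.2 ⟨h2, mem_sup_left hb⟩⟩
  have hfac : ∀ y : X, ∃ a ∈ A.subgroupOf X, ∃ b ∈ B.subgroupOf X, y = a * b := by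
    intro y
    obtain ⟨a, ha, b, hb, e⟩ := hAB y
    obtain ⟨h1, h2⟩ := hXAB y y.2 a ha b hb e
    exact ⟨⟨a, h1⟩, mem_subgroupOf.2 ha, ⟨b, h2⟩, mem_subgroupOf.2 hb, Subtype.ext e⟩
  have hfacA : ∀ y : X, ∃ a ∈ A.subgroupOf X, ∃ m ∈ M.subgroupOf X, y = a * m := by
    intro y
    obtain ⟨a, ha, m, hm, e⟩ := mem_sup_of_normal_right.1 (Subgroup.mem_inf.1 y.2).1
    have h1 : a ∈ X := by
      have := mul_mem y.2 (inv_mem (hMX hm))
      rwa [← e, mul_inv_cancel_right] at this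
    exact ⟨⟨a, h1⟩, mem_subgroupOf.2 ha, ⟨m, hMX hm⟩, mem_subgroupOf.2 hm, Subtype.ext e.symm⟩
  have hfacB : ∀ y : X, ∃ a ∈ B.subgroupOf X, ∃ m ∈ M.subgroupOf X, y = a * m := by
    intro y
    obtain ⟨a, ha, m, hm, e⟩ := mem_sup_of_normal_right.1 (Subgroup.mem_inf.1 y.2).2
    have h1 : a ∈ X := by
      have := mul_mem y.2 (inv_mem (hMX hm))
      rwa [← e, mul_inv_cancel_right] at this
    exact ⟨⟨a, h1⟩, mem_subgroupOf.2 ha, ⟨m, hMX hm⟩, mem_subgroupOf.2 hm, Subtype.ext e.symm⟩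
  have hcomm : ∀ {D : Subgroup G}, (∀ a ∈ D, ∀ a' ∈ D, a * a' = a' * a) →
      ∀ a ∈ D.subgroupOf X, ∀ a' ∈ D.subgroupOf X, a * a' = a' * a := fun hD a ha a' ha' =>
    Subtype.ext (hD a (mem_subgroupOf.1 ha) a' (mem_subgroupOf.1 ha'))
  have hinf : ∀ {D : Subgroup G}, D ⊓ M = ⊥ → D.subgroupOf X ⊓ M.subgroupOf X = ⊥ := by
    intro D hD
    rw [eq_bot_iff]
    intro y hy
    have h1 : (y : G) ∈ D ⊓ M := ⟨mem_subgroupOf.1 (Subgroup.mem_inf.1 hy).1,
      mem_subgroupOf.1 (Subgroup.mem_inf.1 hy).2⟩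
    rw [hD, mem_bot] at h1
    exact mem_bot.2 (Subtype.ext h1)
  -- the centre of `X`
  set Z : Subgroup G := (center X).map X.subtype with hZdef
  have hZn : Z.Normal := ConjAct.normal_of_characteristic_of_normal
  have hmemZ : ∀ y : X, (y : G) ∈ Z ↔ y ∈ center X := by
    intro y
    constructor
    · rintro ⟨w, hw, e⟩
      have : w = y := Subtype.ext e
      rwa [← this]
    · intro h; exact ⟨y, h, rfl⟩
  have hZc : ∀ n ∈ Z, ∀ c ∈ M, c * n = n * c := by
    rintro _ ⟨n, hn, rfl⟩ c hc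
    exact congrArg Subtype.val (mem_center_iff.1 hn ⟨c, hMX hc⟩)
  have hAZ := hAN Z hZn hZc
  have hBZ := hBN Z hZn hZc
  have hcX : center X = ⊥ := by
    rw [eq_bot_iff]
    intro z hz
    obtain ⟨a, ha, b, hb, e⟩ := hfac z
    have hzc := mem_center_iff.1 hz
    have hA' := hcomm hA
    have hB' := hcomm hB
    have hbc : b ∈ center X := by
      rw [mem_center_iff]
      intro g
      obtain ⟨c, hc, d, hd, rfl⟩ := hfac g
      have h2 : c * b = b * c := by
        have h3 := hzc c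
        rw [e] at h3
        have h4 : a * (c * b) = a * (b * c) := by
          rw [← mul_assoc, ← mul_assoc, ← hA' c hc a ha, mul_assoc, h3]
        exact mul_left_cancel h4
      rw [mul_assoc, hB' d hd b hb, ← mul_assoc, h2, mul_assoc]
    have hac : a ∈ center X := by
      have h1 : a = z * b⁻¹ := by rw [e]; group
      rw [h1]; exact mul_mem hz (inv_mem hbc)
    have ha1 : (a : G) ∈ A ⊓ Z := ⟨mem_subgroupOf.1 ha, (hmemZ a).2 hac⟩
    have hb1 : (b : G) ∈ B ⊓ Z := ⟨mem_subgroupOf.1 hb, (hmemZ b).2 hbc⟩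
    rw [hAZ, mem_bot] at ha1
    rw [hBZ, mem_bot] at hb1
    rw [mem_bot, e]
    exact Subtype.ext (by rw [Subgroup.coe_mul, ha1, hb1]; simp)
  have hMn' : (M.subgroupOf X).Normal := inferInstance
  have hCA := ab_carter (hcomm hA) hMn' (hcomm hMM) hfacA (hinf hAM) hcX
  have hCB := ab_carter (hcomm hB) hMn' (hcomm hMM) hfacB (hinf hBM) hcX
  have heq := ab_eq_of_carter inferInstance hCA hCB hfac
  apply hMne
  rw [eq_bot_iff, ← hAM]
  intro m hm
  obtain ⟨a, ha, b, hb, e⟩ := hfac ⟨m, hMX hm⟩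
  rw [← heq] at hb
  have h1 := mul_mem ha hb
  rw [← e] at h1
  exact ⟨mem_subgroupOf.1 h1, hm⟩

end Cfsg.Agent.H1
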