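import Cfsg.Agent.H1.Huppert

/-!
# Groups all of whose subgroups satisfy the converse of Lagrange's theorem (helper1)
-/

set_option autoImplicit false
set_option linter.all false

open Cfsg

namespace Cfsg.Agent.H1

open Subgroup
open scoped Pointwise commutatorElement

universe u v

theorem isCoatom_of_index_prime {G : Type*} [Group G] {L : Subgroup G} (hL : L.index.Prime) :
    IsCoatom L := by
  constructor
  · intro h
    rw [h, Subgroup.index_top] at hL
    exact Nat.not_prime_one hL
  · intro K hK
    have h1 := Subgroup.relIndex_mul_index hK.le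
    rcases (Nat.dvd_prime hL).mp (Subgroup.index_dvd_of_le hK.le) with h | h
    · exact Subgroup.index_eq_one.mp h
    · exfalso
      rw [h] at h1
      have h2 : L.relIndex K = 1 := Nat.eq_of_mul_eq_mul_right hL.pos (by rw [h1, one_mul])
      exact not_le_of_gt hK (Subgroup.relIndex_eq_one.mp h2)

theorem inf_le_normalizer_of_normal {G : Type*} [Group G] {P M : Subgroup G} [hP : P.Normal] :
    M ≤ normalizer ((M ⊓ P : Subgroup G) : Set G) := by
  intro m hm
  rw [mem_normalizer_iff_conj_smul, conj_smul_inf, conj_smul_self_of_mem hm, conj_smul_normal]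

theorem inf_normal_of_coatom_nilpotent {G : Type*} [Group G] {P M : Subgroup G} [hP : P.Normal]
    (hnil : Group.IsNilpotent P) (hM : IsCoatom M) (hPM : ¬ P ≤ M) : (M ⊓ P).Normal := by
  have h1 : M ⊓ P < P := lt_of_le_of_ne inf_le_right (fun h => hPM (by rw [← h]; exact inf_le_left))
  have h2 := lt_normalizer_inf_of_nilpotent hnil h1
  have h3 : normalizer ((M ⊓ P : Subgroup G) : Set G) = ⊤ := by
    apply hM.2
    refine lt_of_le_of_ne inf_le_normalizer_of_normal ?_
    intro h
    have h4 : normalizer ((M ⊓ P : Subgroup G) : Set G) ⊓ P = M ⊓ P := by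
      rw [← h]
    rw [h4] at h2
    exact lt_irrefl _ h2
  exact normalizer_eq_top_iff.mp h3

theorem clt_coatom_prime_index {G : Type*} [Group G] [Finite G] {p : ℕ} [hp : Fact p.Prime]
    {P : Subgroup G} [hPn : P.Normal] (hPp : IsPGroup p P) (hind : ¬ p ∣ P.index)
    {L : Subgroup G} (hL : L.index = p) (hLs : IsSupersolvable L) {M : Subgroup G}
    (hM : IsCoatom M) (hPM : ¬ P ≤ M) : M.index.Prime := by
  have hnil : Group.IsNilpotent P := hPp.isNilpotent
  have hLc : IsCoatom L := isCoatom_of_index_prime (by rw [hL]; exact hp.out)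
  have hPL : ¬ P ≤ L := fun h => hind (by rw [← hL]; exact Subgroup.index_dvd_of_le h)
  have hn1 : (L ⊓ P).Normal := inf_normal_of_coatom_nilpotent hnil hLc hPL
  have hn2 : (M ⊓ P).Normal := inf_normal_of_coatom_nilpotent hnil hM hPM
  have hLP : L ⊔ P = ⊤ := hLc.2 _ (lt_of_le_of_ne le_sup_left (fun h => hPL (by
    rw [h]; exact le_sup_right)))
  have hMP : M ⊔ P = ⊤ := hM.2 _ (lt_of_le_of_ne le_sup_left (fun h => hPM (by
    rw [h]; exact le_sup_right)))
  have hLi : L.relIndex P = p := by
    rw [relIndex_eq_relIndex_sup_of_normal, hLP, Subgroup.relIndex_top_right, hL]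
  have hMi : M.relIndex P = M.index := by
    rw [relIndex_eq_relIndex_sup_of_normal, hMP, Subgroup.relIndex_top_right]
  by_cases h : L ⊓ P ≤ M
  · have h1 : L ⊓ P ≤ M ⊓ P := le_inf h inf_le_right
    have h2 : M.index ∣ p := by
      rw [← hMi, ← hLi, ← Subgroup.inf_relIndex_right M, ← Subgroup.inf_relIndex_right L]
      exact Subgroup.relIndex_dvd_of_le_left _ h1
    rcases (Nat.dvd_prime hp.out).mp h2 with h3 | h3
    · exact absurd (Subgroup.index_eq_one.mp h3) hM.1
    · rw [h3]; exact hp.out
  · haveI := hn1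
    haveI := hn2
    set P1 := L ⊓ P with hP1
    set P2 := M ⊓ P with hP2
    set K0 := P1 ⊓ P2 with hK0
    haveI hK0n : K0.Normal := inferInstance
    have hK0L : K0 ≤ L := inf_le_left.trans inf_le_left
    haveI hK0n' : (K0.subgroupOf L).Normal := inferInstance
    haveI hP1n' : (P1.subgroupOf L).Normal := inferInstance
    have hQ : IsSupersolvable (L ⧸ K0.subgroupOf L) := ss_quotient hLs _
    obtain ⟨N', hN'n, hN'p, hN'le⟩ := ss_exists_prime_le hQ
      (P := (P1.subgroupOf L).map (QuotientGroup.mk' (K0.subgroupOf L)))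
      (hP1n'.map _ (QuotientGroup.mk'_surjective _)) (by
        intro h1
        rw [map_mk'_eq_bot_iff] at h1
        apply h
        have h2 : P1 ≤ K0 := by
          intro x hx
          have h3 : (⟨x, (Subgroup.mem_inf.mp hx).1⟩ : L) ∈ K0.subgroupOf L :=
            h1 (Subgroup.mem_subgroupOf.mpr hx)
          exact Subgroup.mem_subgroupOf.mp h3
        exact h2.trans (inf_le_right.trans inf_le_left))
    set X' := N'.comap (QuotientGroup.mk' (K0.subgroupOf L)) with hX'
    haveI hX'n : X'.Normal := hN'n.comap _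
    set X := X'.map L.subtype with hX
    have hXP1 : X ≤ P1 := by
      rintro x ⟨y, hy, rfl⟩
      have h1 : QuotientGroup.mk' (K0.subgroupOf L) y ∈
          (P1.subgroupOf L).map (QuotientGroup.mk' (K0.subgroupOf L)) := hN'le hy
      have h2 : y ∈ ((P1.subgroupOf L).map (QuotientGroup.mk' (K0.subgroupOf L))).comap
        (QuotientGroup.mk' (K0.subgroupOf L)) := h1
      rw [comap_mk'_map] at h2
      · exact Subgroup.mem_subgroupOf.mp h2
      · exact Subgroup.comap_mono inf_le_left
    have hK0X : K0 ≤ X := by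
      intro x hx
      refine ⟨⟨x, hK0L hx⟩, ?_, rfl⟩
      exact le_comap_mk' _ _ (Subgroup.mem_subgroupOf.mpr hx)
    have hXcard : Nat.card X = Nat.card N' * Nat.card K0 := by
      rw [hX, card_map_subtype, hX', card_comap_mk', card_subgroupOf hK0L, mul_comm]
    have hLX : L ≤ normalizer (X : Set G) := by
      intro l hl
      rw [mem_normalizer_iff_conj_smul]
      have h1 : MulAut.conj (⟨l, hl⟩ : L) • X' = X' := conj_smul_normal _
      have h2 := map_conj_smul L.subtype ⟨l, hl⟩ X'
      rw [h1] at h2
      exact h2.symm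
    have hPPM : ⁅P, P⁆ ≤ P2 := by
      by_contra hcon
      have h1 : ¬ ⁅P, P⁆ ≤ M := fun h1 => hcon (le_inf h1 (Subgroup.commutator_le_left _ _))
      have h2 : M ⊔ ⁅P, P⁆ = ⊤ := hM.2 _ (lt_of_le_of_ne le_sup_left (fun h => h1 (by
        rw [h]; exact le_sup_right)))
      have h3 : ⁅P, P⁆ ⊔ P2 = P := by
        have h4 := normal_sup_inf_of_le (M := ⁅P, P⁆) (X := P) M (Subgroup.commutator_le_left _ _)
        rw [sup_comm, h2, top_inf_eq] at h4
        exact h4.symm
      have h5 : P.map (QuotientGroup.mk' P2) = ⊥ := by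
        refine eq_bot_of_commutator_eq_self (isNilpotent_map (QuotientGroup.mk' P2) hnil) le_rfl ?_
        rw [← Subgroup.map_commutator]
        have h6 : P.map (QuotientGroup.mk' P2) = (⁅P, P⁆ ⊔ P2).map (QuotientGroup.mk' P2) :=
          congrArg (fun Z : Subgroup G => Z.map (QuotientGroup.mk' P2)) h3.symm
        rw [h6, Subgroup.map_sup, (map_mk'_eq_bot_iff (N := P2) (H := P2)).mpr le_rfl, sup_bot_eq]
      rw [map_mk'_eq_bot_iff] at h5
      exact hPM (h5.trans inf_le_left)
    have hY : (X ⊔ P2).Normal := by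
      apply normalizer_eq_top_iff.mp
      rw [eq_top_iff, ← hLP]
      refine sup_le ?_ ?_
      · intro l hl
        rw [mem_normalizer_iff_conj_smul, conj_smul_sup,
          mem_normalizer_iff_conj_smul.mp (hLX hl), conj_smul_normal (N := P2)]
      · have h1 : ⁅P, X ⊔ P2⁆ ≤ X ⊔ P2 := by
          have h2 : X ⊔ P2 ≤ P := sup_le (hXP1.trans inf_le_right) inf_le_right
          exact (Subgroup.commutator_mono le_rfl h2).trans (hPPM.trans le_sup_right)
        intro x hx
        rw [mem_normalizer_iff]
        have h3 : ∀ z ∈ P, ∀ y ∈ X ⊔ P2, z * y * z⁻¹ ∈ X ⊔ P2 := by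
          intro z hz y hy
          have h4 := h1 (Subgroup.commutator_mem_commutator hz hy)
          have h5 := mul_mem h4 hy
          rwa [commutatorElement_def, inv_mul_cancel_right] at h5
        intro y
        refine ⟨fun hy => h3 x hx y hy, fun hy => ?_⟩
        have := h3 x⁻¹ (inv_mem hx) _ hy
        have h6 : x⁻¹ * (x * y * x⁻¹) * x⁻¹⁻¹ = y := by group
        rwa [h6] at this
    have hXM : M ⊓ X = K0 := by
      apply le_antisymm
      · refine le_inf (inf_le_right.trans hXP1) (le_inf inf_le_left ?_)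
        exact inf_le_right.trans (hXP1.trans inf_le_right)
      · exact le_inf (inf_le_right.trans inf_le_left) hK0X
    have hXnot : ¬ X ≤ M := by
      intro h1
      rw [inf_eq_right.mpr h1] at hXM
      rw [hXM] at hXcard
      have h2 : 0 < Nat.card K0 := Nat.card_pos
      have h3 := hN'p.one_lt
      nlinarith
    have hMY : M ⊔ (X ⊔ P2) = ⊤ := hM.2 _ (lt_of_le_of_ne le_sup_left (fun h => hXnot (by
      rw [h]; exact le_sup_left.trans le_sup_right)))
    haveI := hY
    have hfac : ∀ g : G, ∃ x ∈ M, ∃ y ∈ X, g = x * y := by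
      intro g
      apply factor_comm
      intro g
      have hXP2 : X ≤ normalizer (P2 : Set G) := le_normalizer_of_normal
      obtain ⟨a, ha, b, hb, rfl⟩ := exists_mul_of_sup_eq_top (by rw [sup_comm]; exact hMY) g
      obtain ⟨c, hc, d, hd, rfl⟩ := (mem_sup_iff_of_le_normalizer' (N := P2) (H := X)
        hXP2).mp (by rw [sup_comm]; exact ha)
      exact ⟨c, hc, d * b, mul_mem (inf_le_left (a := M) (b := P) hd) hb, by group⟩
    have h1 := relIndex_eq_index_of_factor hfac
    rw [← Subgroup.inf_relIndex_right, hXM] at h1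
    have h2 := card_mul_relIndex_aux hK0X
    rw [h1, hXcard, mul_comm] at h2
    have h3 : M.index = Nat.card N' := Nat.eq_of_mul_eq_mul_right Nat.card_pos h2
    rw [h3]; exact hN'p

theorem clt_ss_aux (n : ℕ) : ∀ (G : Type u) [Group G] [Finite G], Nat.card G = n →
    (∀ H : Subgroup G, HasSubgroupOfEveryOrder H) → IsSupersolvable G := by
  induction n using Nat.strong_induction_on with
  | _ n ih =>
    intro G _ _ hn h
    by_cases hnt : Nontrivial G
    swap
    · rw [not_nontrivial_iff_subsingleton] at hnt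
      exact ss_of_subsingleton
    have hprop : ∀ H : Subgroup G, H ≠ ⊤ → IsSupersolvable H := by
      intro H hH
      refine ih _ (hn ▸ card_lt_of_ne_top hH) H rfl ?_
      intro K
      exact hasEveryOrder_of_equiv (K.equivMapOfInjective _ H.subtype_injective).symm
        (h (K.map H.subtype))
    obtain ⟨p, hp, hpd, hmax⟩ := exists_max_prime (Nat.card G) Finite.one_lt_card
    haveI : Fact p.Prime := ⟨hp⟩
    obtain ⟨P⟩ : Nonempty (Sylow p G) := inferInstance
    have hPn : (P : Subgroup G).Normal := clt_sylow_normal_aux _ G rfl h p hpd hmax P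
    haveI := hPn
    have hPb : (P : Subgroup G) ≠ ⊥ := by
      intro h
      have := P.not_dvd_index
      rw [h, Subgroup.index_bot] at this
      exact this hpd
    apply huppert_aux _ G rfl
    intro M hM
    by_cases hPM : (P : Subgroup G) ≤ M
    · have hcop : (Nat.card (P : Subgroup G)).Coprime (P : Subgroup G).index := P.card_coprime_index
      obtain ⟨K, hK⟩ := Subgroup.exists_right_complement'_of_coprime hcop
      have hKtop : K ≠ ⊤ := by
        rintro rfl
        exact hPb (by
          have := hK.disjoint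
          rwa [disjoint_top] at this)
      have h1 : IsSupersolvable (G ⧸ (P : Subgroup G)) :=
        ss_of_equiv (Subgroup.IsComplement'.QuotientMulEquiv hK.symm).symm (hprop K hKtop)
      have h2 := ss_coatom_index_prime_aux _ _ rfl h1 _ (isCoatom_map_mk' hM hPM)
      rwa [index_map_mk' _ M hPM] at h2
    · have hG : HasSubgroupOfEveryOrder G := hasEveryOrder_of_equiv Subgroup.topEquiv (h ⊤)
      obtain ⟨m, hm⟩ := hpd
      obtain ⟨L, hL⟩ := hG m ⟨p, by rw [hm, mul_comm]⟩
      have hLi : L.index = p := by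
        have h1 := L.card_mul_index
        rw [hL, hm, mul_comm p m] at h1
        refine Nat.eq_of_mul_eq_mul_left ?_ h1
        rw [← hL]; exact Nat.card_pos
      refine clt_coatom_prime_index P.isPGroup' P.not_dvd_index hLi (hprop L ?_) hM hPM
      rintro rfl
      rw [Subgroup.index_top] at hLi
      exact hp.one_lt.ne hLi

end Cfsg.Agent.H1
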