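import Cfsg.Agent.H1.AbProd
import Cfsg.Agent.H1.Super

set_option autoImplicit false

/-! S0571: a product of two cyclic groups is supersolvable (helper1). -/

namespace Cfsg.Agent.H1

open Subgroup Cfsg

universe u

theorem cyc_prod_aux (n : ℕ) : ∀ (G : Type u) [Group G] [Finite G] (A B : Subgroup G),
    Nat.card G = n → IsCyclic A → IsCyclic B → (∀ g : G, ∃ a ∈ A, ∃ b ∈ B, g = a * b) →
    IsSupersolvable G := by
  induction n using Nat.strong_induction_on with
  | _ n ih =>
  intro G _ _ A B hn hA hB hAB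
  rcases subsingleton_or_nontrivial G with hs | hnt
  · exact ss_of_subsingleton
  have hc : ∀ {D : Subgroup G}, IsCyclic D → ∀ a ∈ D, ∀ a' ∈ D, a * a' = a' * a := by
    intro D hD a ha a' ha'
    letI := IsCyclic.commGroup (α := ↥D)
    exact congrArg Subtype.val (mul_comm (⟨a, ha⟩ : D) ⟨a', ha'⟩)
  obtain ⟨N, hN, hne, hle⟩ := ab_prod (hc hA) (hc hB) hAB
  have hcN : IsCyclic N := by
    rcases hle with h | h
    · exact isCyclic_of_injective (Subgroup.inclusion h) (Subgroup.inclusion_injective h)
    · exact isCyclic_of_injective (Subgroup.inclusion h) (Subgroup.inclusion_injective h)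
  refine ss_of_cyclic_extension N hcN ?_
  have hlt : Nat.card (G ⧸ N) < n := by
    rw [← hn, ← N.card_mul_index]
    have h1 : 1 < Nat.card N := by
      rw [Finite.one_lt_card_iff_nontrivial]
      exact (Subgroup.nontrivial_iff_ne_bot N).2 hne
    have h2 : 0 < N.index := Nat.pos_of_ne_zero Subgroup.index_ne_zero_of_finite
    calc Nat.card (G ⧸ N) = N.index := rfl
      _ < Nat.card N * N.index := by nlinarith
  have key : ∀ {D : Subgroup G}, IsCyclic D → IsCyclic (D.map (QuotientGroup.mk' N)) := by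
    intro D hD
    exact isCyclic_of_surjective ((QuotientGroup.mk' N).subgroupMap D)
      ((QuotientGroup.mk' N).subgroupMap_surjective D)
  refine ih _ hlt (G ⧸ N) (A.map (QuotientGroup.mk' N)) (B.map (QuotientGroup.mk' N)) rfl
    (key hA) (key hB) ?_
  intro g
  obtain ⟨g, rfl⟩ := QuotientGroup.mk'_surjective N g
  obtain ⟨a, ha, b, hb, rfl⟩ := hAB g
  exact ⟨_, Subgroup.mem_map_of_mem _ ha, _, Subgroup.mem_map_of_mem _ hb, map_mul _ _ _⟩

end Cfsg.Agent.H1
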