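import Cfsg.Agent.H1.PsG

set_option autoImplicit false
set_option linter.all false

namespace Cfsg.Agent.H1.Emb

open Cfsg Cfsg.Agent.H16 Cfsg.Agent.H5 Cfsg.Agent.H1.Pres Matrix

lemma z3b : ¬ ((-1 : ZMod 3) = 1) := by decide
lemma z3a : ∀ y : ZMod 3, y ≠ 0 → y = 1 ∨ y = -1 := by decide

/-- the relators of `Sp_4(3)` -/
def L3 : List (FreeGroup (Fin 6)) := [eU ^ 3, eH * eU * (eU * eH)⁻¹, eV ^ 3, cj eH⁻¹ eV * eV] ++ RC eU⁻¹ 2

lemma L3_iff {Γ : Type*} [Group Γ] {u h t v k s : Γ} :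
    (∀ r ∈ L3, FreeGroup.lift (gens u h t v k s) r = 1) ↔
      (u ^ 3 = 1 ∧ h * u = u * h ∧ v ^ 3 = 1 ∧ cj h⁻¹ v * v = 1 ∧ RelC u h t v k s u⁻¹ 2) := by
  have e0 : FreeGroup.lift (gens u h t v k s) eU⁻¹ = u⁻¹ := by rw [map_inv, lU6]
  have e1 := RC_iff (u := u) (h := h) (t := t) (v := v) (k := k) (s := s) (W := eU⁻¹) (q₁ := 2)
  rw [e0] at e1
  rw [← e1]
  constructor
  · intro hr
    refine ⟨?_, ?_, ?_, ?_, fun r hr' => hr r (List.mem_append.2 (Or.inr hr'))⟩
    · have := hr (eU ^ 3) (by simp [L3])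
      rwa [map_pow, lU6] at this
    · have := hr (eH * eU * (eU * eH)⁻¹) (by simp [L3])
      rwa [map_mul, map_inv, map_mul, map_mul, lU6, lH6, mul_inv_eq_one] at this
    · have := hr (eV ^ 3) (by simp [L3])
      rwa [map_pow, lV6] at this
    · have := hr (cj eH⁻¹ eV * eV) (by simp [L3])
      rwa [map_mul, map_cj, map_inv, lV6, lH6] at this
  · rintro ⟨h1, h2, h3, h4, h5⟩ r hr
    unfold L3 at hr
    rw [List.mem_append] at hr
    rcases hr with hr | hr
    · simp only [List.mem_cons, List.not_mem_nil, or_false] at hr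
      rcases hr with rfl | rfl | rfl | rfl
      · rw [map_pow, lU6, h1]
      · rw [map_mul, map_inv, map_mul, map_mul, lU6, lH6, mul_inv_eq_one, h2]
      · rw [map_pow, lV6, h3]
      · rw [map_mul, map_cj, map_inv, lV6, lH6, h4]
    · exact h5 r hr

section three

variable {K : Type*} [Field K] [Fintype K]

lemma ups_three (e : K ≃+* ZMod 3) {Γ : Type*} [Group Γ] {u h : Γ} (hu : u ^ 3 = 1) :
    (∀ x y, u ^ (e (x + y)).val = u ^ (e x).val * u ^ (e y).val) := by
  intro x y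
  rw [map_add, ZMod.val_add, ← pow_add]
  conv_rhs => rw [← Nat.mod_add_div ((e x).val + (e y).val) 3, pow_add, pow_mul, hu, one_pow, mul_one]

theorem sp43_pres (hK : Fintype.card K = 3) (h0 : (-1 : K) ≠ 0) :
    ∃ e : PresentedGroup (↑L3.toFinset : Set (FreeGroup (Fin 6))) ≃* Matrix.symplecticGroup (Fin 2) K,
      ∀ i, e (PresentedGroup.of i) = gens (p4 (1 : K)) (ph (-1) h0) pt (p1 1) (pk (-1) h0) ps i := by
  classical
  haveI : Fact (Nat.Prime 3) := ⟨by norm_num⟩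
  let e : K ≃+* ZMod 3 := (ZMod.ringEquivOfPrime K (by norm_num) hK).symm
  letI : Algebra (ZMod 3) K := (e.symm : ZMod 3 →+* K).toAlgebra
  have hz1 : (-1 : K) ^ 2 = 1 := by ring
  have hne : (-1 : K) ≠ 1 := by
    intro h
    have h1 := congrArg e h
    rw [map_neg, map_one] at h1
    exact z3b h1
  have hord : orderOf (-1 : K) = Fintype.card K - 1 := by
    rw [hK]
    show orderOf (-1 : K) = 2
    exact orderOf_eq_prime hz1 hne
  have hζ : ∀ x : K, x ≠ 0 → ∃ n : ℕ, (-1 : K) ^ n = x := by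
    intro x hx
    have hx' : e x ≠ 0 := fun h => hx ((map_eq_zero_iff e e.injective).1 h)
    rcases z3a _ hx' with h | h
    · exact ⟨0, e.injective (by rw [pow_zero, map_one, h])⟩
    · exact ⟨1, e.injective (by rw [pow_one, map_neg, map_one, h])⟩
  have hsq := full_sq (p := 3) hord
  have hfull := full_zeta (p := 3) hord
  have hq : Fintype.card K - 1 = 2 := by rw [hK]
  have U4 := p4_ups (K := K) h0
  have U1 : Ups (p1 (K := K)) (ph (-1) h0)⁻¹ (-1) := ⟨p1_add, fun y => by rw [cj_inv_of (inv_ne_zero h0) (p1_h h0), inv_inv]⟩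
  haveI : Finite (Matrix.symplecticGroup (Fin 2) K) := inferInstance
  have three : (1 + 1 + 1 : K) = 0 := by
    apply e.injective
    rw [map_add, map_add, map_one, map_zero]; rfl
  apply pres_gen (T := Matrix.symplecticGroup (Fin 2) K) L3 (gens (p4 (1 : K)) (ph (-1) h0) pt (p1 1) (pk (-1) h0) ps)
  · rw [eq_top_iff, ← p_gen (p := 3) h0 hsq hfull]
    apply Subgroup.closure_mono
    rintro x (rfl | rfl | rfl | rfl | rfl | rfl)
    · exact ⟨0, rfl⟩
    · exact ⟨1, rfl⟩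
    · exact ⟨2, rfl⟩
    · exact ⟨3, rfl⟩
    · exact ⟨4, rfl⟩
    · exact ⟨5, rfl⟩
  · rw [L3_iff]
    have R := p_relC (K := K) h0 hord
    rw [hq, U4.neg] at R
    refine ⟨?_, ?_, ?_, ?_, R⟩
    · rw [pow_succ, sq, ← p4_add, ← p4_add, three, U4.zero]
    · have := U4.act 1
      rw [hz1, one_mul] at this
      unfold cj at this
      rw [mul_assoc, inv_mul_eq_iff_eq_mul] at this
      exact this.symm
    · rw [pow_succ, sq, ← p1_add, ← p1_add, three, U1.zero]
    · rw [U1.act, mul_one, U1.neg, inv_mul_cancel]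
  · intro Γ _ x hgen hr
    obtain ⟨u, hu⟩ : ∃ u, u = x 0 := ⟨_, rfl⟩
    obtain ⟨h, hh⟩ : ∃ u, u = x 1 := ⟨_, rfl⟩
    obtain ⟨t, ht⟩ : ∃ u, u = x 2 := ⟨_, rfl⟩
    obtain ⟨v, hv⟩ : ∃ u, u = x 3 := ⟨_, rfl⟩
    obtain ⟨k, hk⟩ : ∃ u, u = x 4 := ⟨_, rfl⟩
    obtain ⟨s, hs⟩ : ∃ u, u = x 5 := ⟨_, rfl⟩
    have hx : x = gens u h t v k s := by
      ext i; fin_cases i
      · exact hu.symm
      · exact hh.symm
      · exact ht.symm
      · exact hv.symm
      · exact hk.symm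
      · exact hs.symm
    rw [hx] at hr hgen
    clear hx hu hh ht hv hk hs
    obtain ⟨g1, g2, g3, g4, g5⟩ := L3_iff.1 hr
    have V1 : (e 1).val = 1 := by rw [map_one]; rfl
    have Vn : (e (-1)).val = 2 := by rw [map_neg, map_one]; rfl
    have hu1 : u ^ (e 1).val = u := by rw [V1, pow_one]
    have hv1 : v ^ (e 1).val = v := by rw [V1, pow_one]
    have huu : u⁻¹ = u ^ 2 := inv_eq_of_mul_eq_one_right (by rw [← pow_succ', g1])
    have hvv : v⁻¹ = v ^ 2 := inv_eq_of_mul_eq_one_right (by rw [← pow_succ', g3])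
    have hun : u ^ (e (-1)).val = u⁻¹ := by rw [Vn, huu]
    have V4' : Ups (fun y : K => u ^ (e y).val) h ((-1) ^ 2) := by
      refine ⟨ups_three (h := h) e g1, ?_⟩
      intro y
      show cj h (u ^ (e y).val) = u ^ (e (_ * y)).val
      have : cj h u = u := by unfold cj; rw [mul_assoc, ← g2]; group
      rw [hz1, one_mul, cj_pow, this]
    have V1' : Ups (fun y : K => v ^ (e y).val) h⁻¹ (-1) := by
      refine ⟨ups_three (h := h) e g3, ?_⟩
      intro y
      show cj h⁻¹ (v ^ (e y).val) = v ^ (e (_ * y)).val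
      have h1 : cj h⁻¹ v = v ^ 2 := by rw [← hvv]; exact eq_inv_of_mul_eq_one_left g4
      have h2 : (e (-1 * y)).val = (2 * (e y).val) % 3 := by
        rw [map_mul, map_neg, map_one, ZMod.val_mul]; rfl
      rw [cj_pow, h1, h2, ← pow_mul]
      conv_lhs => rw [← Nat.mod_add_div (2 * (e y).val) 3, pow_add, pow_mul, g3, one_pow, mul_one]
    have g5' : RelC (u ^ (e 1).val) h t (v ^ (e 1).val) k s (u ^ (e (-1)).val) (Fintype.card K - 1) := by
      rw [hu1, hv1, hun, hq]; exact g5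
    have C := derive (υ := fun y : K => u ^ (e y).val) (ν := fun y : K => v ^ (e y).val) 3 h0 hζ hord V4' V1' g5'
    rw [← card_Sp4]
    refine C.bound h0 hζ ?_
    rw [eq_top_iff, ← hgen]
    apply Subgroup.closure_mono
    rintro _ ⟨i, rfl⟩
    show gens u h t v k s i ∈ ({u ^ (e 1).val, h, t, v ^ (e 1).val, k, s} : Set Γ)
    rw [hu1, hv1]
    fin_cases i <;> simp

theorem sp43_hom (hK : Fintype.card K = 3) (h0 : (-1 : K) ≠ 0) {Γ : Type*} [Group Γ] {u h t v k s : Γ}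
    (h1 : u ^ 3 = 1) (h2 : h * u = u * h) (h3 : v ^ 3 = 1) (h4 : cj h⁻¹ v * v = 1) (h5 : RelC u h t v k s u⁻¹ 2) :
    ∃ f : Matrix.symplecticGroup (Fin 2) K →* Γ, ∀ r, f (FreeGroup.lift (gens (p4 (1 : K)) (ph (-1) h0) pt (p1 1) (pk (-1) h0) ps) r) = FreeGroup.lift (gens u h t v k s) r := by
  classical
  obtain ⟨e, he⟩ := sp43_pres hK h0
  have hr : ∀ r ∈ (↑L3.toFinset : Set (FreeGroup (Fin 6))), FreeGroup.lift (gens u h t v k s) r = 1 := by
    intro r hr
    exact L3_iff.2 ⟨h1, h2, h3, h4, h5⟩ r (by simpa using hr)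
  let φ : PresentedGroup (↑L3.toFinset : Set (FreeGroup (Fin 6))) →* Γ := PresentedGroup.toGroup hr
  have hφ : ∀ i, φ (PresentedGroup.of i) = gens u h t v k s i := fun i => PresentedGroup.toGroup.of hr
  refine ⟨φ.comp e.symm.toMonoidHom, ?_⟩
  intro r
  have h6 : ((φ.comp e.symm.toMonoidHom).comp (FreeGroup.lift (gens (p4 (1 : K)) (ph (-1) h0) pt (p1 1) (pk (-1) h0) ps))) = FreeGroup.lift (gens u h t v k s) := by
    apply FreeGroup.ext_hom
    intro i
    rw [MonoidHom.comp_apply, FreeGroup.lift_apply_of, FreeGroup.lift_apply_of, MonoidHom.comp_apply, ← he i]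
    show φ (e.symm (e (PresentedGroup.of i))) = _
    rw [MulEquiv.symm_apply_apply, hφ]
  exact congrArg (fun g : FreeGroup (Fin 6) →* Γ => g r) h6

end three

end Cfsg.Agent.H1.Emb
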