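import Cfsg.Agent.H1.EmbA
import Cfsg.Agent.H1.EmbB

set_option autoImplicit false
set_option linter.all false

namespace Cfsg.Agent.H1.Emb

open Cfsg Cfsg.Agent.H16 Cfsg.Agent.H5 Cfsg.Agent.H1.Pres Matrix

variable {F : Type*} [Field F] [Fintype F]

omit [Fintype F] in
lemma s_det {ω : F} (hω : ω ^ 2 = ω + 1) (h2 : (2 : F) = 0) : (!![0, 0, 0, 1; 0, 0, ω, 0; 0, ω + 1, 0, 0; 1, 0, 0, 0] : Matrix (Fin 4) (Fin 4) F).det = 1 := by
  have e : (!![0, 0, 0, 1; 0, 0, ω, 0; 0, ω + 1, 0, 0; 1, 0, 0, 0] : Matrix (Fin 4) (Fin 4) F) = !![1, 0, 0, 0; 0, 0, ω, 0; 0, ω + 1, 0, 0; 0, 0, 0, 1] * !![0, 0, 0, 1; 0, 1, 0, 0; 0, 0, 1, 0; 1, 0, 0, 0] := by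
    ext a b; fin_cases a <;> fin_cases b <;> simp [Matrix.mul_apply, Fin.sum_univ_four]
  rw [e, Matrix.det_mul]
  have e1 : (!![1, 0, 0, 0; 0, 0, ω, 0; 0, ω + 1, 0, 0; 0, 0, 0, 1] : Matrix (Fin 4) (Fin 4) F).det = 1 := by
    simp [Matrix.det_succ_row_zero, Fin.sum_univ_succ] <;> grind
  have e2 : (!![0, 0, 0, 1; 0, 1, 0, 0; 0, 0, 1, 0; 1, 0, 0, 0] : Matrix (Fin 4) (Fin 4) F).det = 1 := by
    rw [Matrix.det_succ_row_zero]
    simp only [Fin.sum_univ_four]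
    simp [Matrix.det_fin_three, Fin.succAbove]
    try grind
  rw [e1, e2, one_mul]

set_option maxHeartbeats 16000000 in
theorem su42_mats {ω : F} (hω : ω ^ 2 = ω + 1) (h2 : (2 : F) = 0) {σ : F →+* F} (hσ : ∀ x, σ x = x ^ 2) :
    ∃ u t z s v y w : SU 4 F 2, u * u * u = 1 ∧ t * t = z ∧ z * z = 1 ∧ z * u = u * z ∧ u * t * (u * t) * (u * t) = z ∧ s * s = 1 ∧ s * z = z * s ∧ s * t * (s * t) = t * s * (t * s) ∧ u * s = s * w ∧ w * t = t * w ∧ v * v * v = 1 ∧ v * z * v = z ∧ v * w = w * v ∧ w * u = u * w ∧ v * s * (v * s) * (v * s) = 1 ∧ v * t = t * y ∧ y * s * y = s ∧ v * y = y * (v * w) ∧ v * u * (w * y) = u * v ∧ u * v ≠ v * u := by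
  have hσω : σ ω = ω + 1 := by rw [hσ, hω]
  obtain ⟨u, hu⟩ := exists_sM hσ !![ω, 0, 0, 0; 0, ω, 0, 0; 0, 0, ω, 0; 0, 0, 0, 1]
    (by intro a b; fin_cases a <;> fin_cases b <;> simp [hB_apply, Fin.sum_univ_four, hσω, map_add, map_one] <;> grind)
    (by simp [Matrix.det_succ_row_zero, Fin.sum_univ_succ] <;> grind)
  obtain ⟨t, ht⟩ := exists_sM hσ !![1, 0, 0, 0; 0, ω, 1, 1; 0, ω, ω, ω + 1; 0, 1, ω, 1]
    (by intro a b; fin_cases a <;> fin_cases b <;> simp [hB_apply, Fin.sum_univ_four, hσω, map_add, map_one] <;> grind)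
    (by simp [Matrix.det_succ_row_zero, Fin.sum_univ_succ] <;> grind)
  obtain ⟨z, hz⟩ := exists_sM hσ !![1, 0, 0, 0; 0, 0, ω, 0; 0, ω + 1, 0, 0; 0, 0, 0, 1]
    (by intro a b; fin_cases a <;> fin_cases b <;> simp [hB_apply, Fin.sum_univ_four, hσω, map_add, map_one] <;> grind)
    (by simp [Matrix.det_succ_row_zero, Fin.sum_univ_succ] <;> grind)
  obtain ⟨s, hs⟩ := exists_sM hσ !![0, 0, 0, 1; 0, 0, ω, 0; 0, ω + 1, 0, 0; 1, 0, 0, 0]
    (by intro a b; fin_cases a <;> fin_cases b <;> simp [hB_apply, Fin.sum_univ_four, hσω, map_add, map_one] <;> grind)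
    (s_det hω h2)
  obtain ⟨v, hv⟩ := exists_sM hσ !![1, 0, 0, 0; 0, 0, 0, 1; 0, ω + 1, 0, 0; 0, 0, ω, 0]
    (by intro a b; fin_cases a <;> fin_cases b <;> simp [hB_apply, Fin.sum_univ_four, hσω, map_add, map_one] <;> grind)
    (by simp [Matrix.det_succ_row_zero, Fin.sum_univ_succ] <;> grind)
  obtain ⟨y, hy⟩ := exists_sM hσ !![1, 0, 0, 0; 0, ω + 1, 0, 0; 0, 0, ω, 0; 0, 0, 0, 1]
    (by intro a b; fin_cases a <;> fin_cases b <;> simp [hB_apply, Fin.sum_univ_four, hσω, map_add, map_one] <;> grind)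
    (by simp [Matrix.det_succ_row_zero, Fin.sum_univ_succ] <;> grind)
  obtain ⟨w, hw⟩ := exists_sM hσ !![1, 0, 0, 0; 0, ω, 0, 0; 0, 0, ω, 0; 0, 0, 0, ω]
    (by intro a b; fin_cases a <;> fin_cases b <;> simp [hB_apply, Fin.sum_univ_four, hσω, map_add, map_one] <;> grind)
    (by simp [Matrix.det_succ_row_zero, Fin.sum_univ_succ] <;> grind)
  have m1 : sM (u * u) = !![ω + 1, 0, 0, 0; 0, ω + 1, 0, 0; 0, 0, ω + 1, 0; 0, 0, 0, 1] := by
    rw [sM_mul, hu]; ext a b; fin_cases a <;> fin_cases b <;> simp [Matrix.mul_apply, Fin.sum_univ_four] <;> grind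
  have m2 : sM (u * u * u) = !![1, 0, 0, 0; 0, 1, 0, 0; 0, 0, 1, 0; 0, 0, 0, 1] := by
    rw [sM_mul, m1, hu]; ext a b; fin_cases a <;> fin_cases b <;> simp [Matrix.mul_apply, Fin.sum_univ_four] <;> grind
  have e1 : u * u * u = 1 := by
    apply sM_inj
    rw [m2, sM_one]; ext a b; fin_cases a <;> fin_cases b <;> simp <;> grind
  have m3 : sM (t * t) = !![1, 0, 0, 0; 0, 0, ω, 0; 0, ω + 1, 0, 0; 0, 0, 0, 1] := by
    rw [sM_mul, ht]; ext a b; fin_cases a <;> fin_cases b <;> simp [Matrix.mul_apply, Fin.sum_univ_four] <;> grind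
  have e2 : t * t = z := sM_inj (m3.trans hz.symm)
  have m4 : sM (z * z) = !![1, 0, 0, 0; 0, 1, 0, 0; 0, 0, 1, 0; 0, 0, 0, 1] := by
    rw [sM_mul, hz]; ext a b; fin_cases a <;> fin_cases b <;> simp [Matrix.mul_apply, Fin.sum_univ_four] <;> grind
  have e3 : z * z = 1 := by
    apply sM_inj
    rw [m4, sM_one]; ext a b; fin_cases a <;> fin_cases b <;> simp <;> grind
  have m5 : sM (z * u) = !![ω, 0, 0, 0; 0, 0, ω + 1, 0; 0, 1, 0, 0; 0, 0, 0, 1] := by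
    rw [sM_mul, hz, hu]; ext a b; fin_cases a <;> fin_cases b <;> simp [Matrix.mul_apply, Fin.sum_univ_four] <;> grind
  have m6 : sM (u * z) = !![ω, 0, 0, 0; 0, 0, ω + 1, 0; 0, 1, 0, 0; 0, 0, 0, 1] := by
    rw [sM_mul, hu, hz]; ext a b; fin_cases a <;> fin_cases b <;> simp [Matrix.mul_apply, Fin.sum_univ_four] <;> grind
  have e4 : z * u = u * z := sM_inj (m5.trans m6.symm)
  have m7 : sM (u * t) = !![ω, 0, 0, 0; 0, ω + 1, ω, ω; 0, ω + 1, ω + 1, 1; 0, 1, ω, 1] := by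
    rw [sM_mul, hu, ht]; ext a b; fin_cases a <;> fin_cases b <;> simp [Matrix.mul_apply, Fin.sum_univ_four] <;> grind
  have m8 : sM (u * t * (u * t)) = !![ω + 1, 0, 0, 0; 0, 1, ω + 1, 1; 0, 1, 1, ω + 1; 0, ω + 1, 1, 1] := by
    rw [sM_mul, m7]; ext a b; fin_cases a <;> fin_cases b <;> simp [Matrix.mul_apply, Fin.sum_univ_four] <;> grind
  have m9 : sM (u * t * (u * t) * (u * t)) = !![1, 0, 0, 0; 0, 0, ω, 0; 0, ω + 1, 0, 0; 0, 0, 0, 1] := by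
    rw [sM_mul, m8, m7]; ext a b; fin_cases a <;> fin_cases b <;> simp [Matrix.mul_apply, Fin.sum_univ_four] <;> grind
  have e5 : u * t * (u * t) * (u * t) = z := sM_inj (m9.trans hz.symm)
  have m10 : sM (s * s) = !![1, 0, 0, 0; 0, 1, 0, 0; 0, 0, 1, 0; 0, 0, 0, 1] := by
    rw [sM_mul, hs]; ext a b; fin_cases a <;> fin_cases b <;> simp [Matrix.mul_apply, Fin.sum_univ_four] <;> grind
  have e6 : s * s = 1 := by
    apply sM_inj
    rw [m10, sM_one]; ext a b; fin_cases a <;> fin_cases b <;> simp <;> grind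
  have m11 : sM (s * z) = !![0, 0, 0, 1; 0, 1, 0, 0; 0, 0, 1, 0; 1, 0, 0, 0] := by
    rw [sM_mul, hs, hz]; ext a b; fin_cases a <;> fin_cases b <;> simp [Matrix.mul_apply, Fin.sum_univ_four] <;> grind
  have m12 : sM (z * s) = !![0, 0, 0, 1; 0, 1, 0, 0; 0, 0, 1, 0; 1, 0, 0, 0] := by
    rw [sM_mul, hz, hs]; ext a b; fin_cases a <;> fin_cases b <;> simp [Matrix.mul_apply, Fin.sum_univ_four] <;> grind
  have e7 : s * z = z * s := sM_inj (m11.trans m12.symm)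
  have m13 : sM (s * t) = !![0, 1, ω, 1; 0, ω + 1, ω + 1, 1; 0, 1, ω + 1, ω + 1; 1, 0, 0, 0] := by
    rw [sM_mul, hs, ht]; ext a b; fin_cases a <;> fin_cases b <;> simp [Matrix.mul_apply, Fin.sum_univ_four] <;> grind
  have m14 : sM (s * t * (s * t)) = !![1, 1, ω, 0; 1, 1, 0, 1; ω + 1, 0, 1, ω + 1; 0, 1, ω, 1] := by
    rw [sM_mul, m13]; ext a b; fin_cases a <;> fin_cases b <;> simp [Matrix.mul_apply, Fin.sum_univ_four] <;> grind
  have m15 : sM (t * s) = !![0, 0, 0, 1; 1, ω + 1, ω + 1, 0; ω + 1, 1, ω + 1, 0; 1, 1, ω, 0] := by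
    rw [sM_mul, ht, hs]; ext a b; fin_cases a <;> fin_cases b <;> simp [Matrix.mul_apply, Fin.sum_univ_four] <;> grind
  have m16 : sM (t * s * (t * s)) = !![1, 1, ω, 0; 1, 1, 0, 1; ω + 1, 0, 1, ω + 1; 0, 1, ω, 1] := by
    rw [sM_mul, m15]; ext a b; fin_cases a <;> fin_cases b <;> simp [Matrix.mul_apply, Fin.sum_univ_four] <;> grind
  have e8 : s * t * (s * t) = t * s * (t * s) := sM_inj (m14.trans m16.symm)
  have m17 : sM (u * s) = !![0, 0, 0, ω; 0, 0, ω + 1, 0; 0, 1, 0, 0; 1, 0, 0, 0] := by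
    rw [sM_mul, hu, hs]; ext a b; fin_cases a <;> fin_cases b <;> simp [Matrix.mul_apply, Fin.sum_univ_four] <;> grind
  have m18 : sM (s * w) = !![0, 0, 0, ω; 0, 0, ω + 1, 0; 0, 1, 0, 0; 1, 0, 0, 0] := by
    rw [sM_mul, hs, hw]; ext a b; fin_cases a <;> fin_cases b <;> simp [Matrix.mul_apply, Fin.sum_univ_four] <;> grind
  have e9 : u * s = s * w := sM_inj (m17.trans m18.symm)
  have m19 : sM (w * t) = !![1, 0, 0, 0; 0, ω + 1, ω, ω; 0, ω + 1, ω + 1, 1; 0, ω, ω + 1, ω] := by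
    rw [sM_mul, hw, ht]; ext a b; fin_cases a <;> fin_cases b <;> simp [Matrix.mul_apply, Fin.sum_univ_four] <;> grind
  have m20 : sM (t * w) = !![1, 0, 0, 0; 0, ω + 1, ω, ω; 0, ω + 1, ω + 1, 1; 0, ω, ω + 1, ω] := by
    rw [sM_mul, ht, hw]; ext a b; fin_cases a <;> fin_cases b <;> simp [Matrix.mul_apply, Fin.sum_univ_four] <;> grind
  have e10 : w * t = t * w := sM_inj (m19.trans m20.symm)
  have m21 : sM (v * v) = !![1, 0, 0, 0; 0, 0, ω, 0; 0, 0, 0, ω + 1; 0, 1, 0, 0] := by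
    rw [sM_mul, hv]; ext a b; fin_cases a <;> fin_cases b <;> simp [Matrix.mul_apply, Fin.sum_univ_four] <;> grind
  have m22 : sM (v * v * v) = !![1, 0, 0, 0; 0, 1, 0, 0; 0, 0, 1, 0; 0, 0, 0, 1] := by
    rw [sM_mul, m21, hv]; ext a b; fin_cases a <;> fin_cases b <;> simp [Matrix.mul_apply, Fin.sum_univ_four] <;> grind
  have e11 : v * v * v = 1 := by
    apply sM_inj
    rw [m22, sM_one]; ext a b; fin_cases a <;> fin_cases b <;> simp <;> grind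
  have m23 : sM (v * z) = !![1, 0, 0, 0; 0, 0, 0, 1; 0, 0, 1, 0; 0, 1, 0, 0] := by
    rw [sM_mul, hv, hz]; ext a b; fin_cases a <;> fin_cases b <;> simp [Matrix.mul_apply, Fin.sum_univ_four] <;> grind
  have m24 : sM (v * z * v) = !![1, 0, 0, 0; 0, 0, ω, 0; 0, ω + 1, 0, 0; 0, 0, 0, 1] := by
    rw [sM_mul, m23, hv]; ext a b; fin_cases a <;> fin_cases b <;> simp [Matrix.mul_apply, Fin.sum_univ_four] <;> grind
  have e12 : v * z * v = z := sM_inj (m24.trans hz.symm)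
  have m25 : sM (v * w) = !![1, 0, 0, 0; 0, 0, 0, ω; 0, 1, 0, 0; 0, 0, ω + 1, 0] := by
    rw [sM_mul, hv, hw]; ext a b; fin_cases a <;> fin_cases b <;> simp [Matrix.mul_apply, Fin.sum_univ_four] <;> grind
  have m26 : sM (w * v) = !![1, 0, 0, 0; 0, 0, 0, ω; 0, 1, 0, 0; 0, 0, ω + 1, 0] := by
    rw [sM_mul, hw, hv]; ext a b; fin_cases a <;> fin_cases b <;> simp [Matrix.mul_apply, Fin.sum_univ_four] <;> grind
  have e13 : v * w = w * v := sM_inj (m25.trans m26.symm)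
  have m27 : sM (w * u) = !![ω, 0, 0, 0; 0, ω + 1, 0, 0; 0, 0, ω + 1, 0; 0, 0, 0, ω] := by
    rw [sM_mul, hw, hu]; ext a b; fin_cases a <;> fin_cases b <;> simp [Matrix.mul_apply, Fin.sum_univ_four] <;> grind
  have m28 : sM (u * w) = !![ω, 0, 0, 0; 0, ω + 1, 0, 0; 0, 0, ω + 1, 0; 0, 0, 0, ω] := by
    rw [sM_mul, hu, hw]; ext a b; fin_cases a <;> fin_cases b <;> simp [Matrix.mul_apply, Fin.sum_univ_four] <;> grind
  have e14 : w * u = u * w := sM_inj (m27.trans m28.symm)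
  have m29 : sM (v * s) = !![0, 0, 0, 1; 1, 0, 0, 0; 0, 0, 1, 0; 0, 1, 0, 0] := by
    rw [sM_mul, hv, hs]; ext a b; fin_cases a <;> fin_cases b <;> simp [Matrix.mul_apply, Fin.sum_univ_four] <;> grind
  have m30 : sM (v * s * (v * s)) = !![0, 1, 0, 0; 0, 0, 0, 1; 0, 0, 1, 0; 1, 0, 0, 0] := by
    rw [sM_mul, m29]; ext a b; fin_cases a <;> fin_cases b <;> simp [Matrix.mul_apply, Fin.sum_univ_four] <;> grind
  have m31 : sM (v * s * (v * s) * (v * s)) = !![1, 0, 0, 0; 0, 1, 0, 0; 0, 0, 1, 0; 0, 0, 0, 1] := by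
    rw [sM_mul, m30, m29]; ext a b; fin_cases a <;> fin_cases b <;> simp [Matrix.mul_apply, Fin.sum_univ_four] <;> grind
  have e15 : v * s * (v * s) * (v * s) = 1 := by
    apply sM_inj
    rw [m31, sM_one]; ext a b; fin_cases a <;> fin_cases b <;> simp <;> grind
  have m32 : sM (v * t) = !![1, 0, 0, 0; 0, 1, ω, 1; 0, 1, ω + 1, ω + 1; 0, ω + 1, ω + 1, 1] := by
    rw [sM_mul, hv, ht]; ext a b; fin_cases a <;> fin_cases b <;> simp [Matrix.mul_apply, Fin.sum_univ_four] <;> grind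
  have m33 : sM (t * y) = !![1, 0, 0, 0; 0, 1, ω, 1; 0, 1, ω + 1, ω + 1; 0, ω + 1, ω + 1, 1] := by
    rw [sM_mul, ht, hy]; ext a b; fin_cases a <;> fin_cases b <;> simp [Matrix.mul_apply, Fin.sum_univ_four] <;> grind
  have e16 : v * t = t * y := sM_inj (m32.trans m33.symm)
  have m34 : sM (y * s) = !![0, 0, 0, 1; 0, 0, 1, 0; 0, 1, 0, 0; 1, 0, 0, 0] := by
    rw [sM_mul, hy, hs]; ext a b; fin_cases a <;> fin_cases b <;> simp [Matrix.mul_apply, Fin.sum_univ_four] <;> grind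
  have m35 : sM (y * s * y) = !![0, 0, 0, 1; 0, 0, ω, 0; 0, ω + 1, 0, 0; 1, 0, 0, 0] := by
    rw [sM_mul, m34, hy]; ext a b; fin_cases a <;> fin_cases b <;> simp [Matrix.mul_apply, Fin.sum_univ_four] <;> grind
  have e17 : y * s * y = s := sM_inj (m35.trans hs.symm)
  have m36 : sM (v * y) = !![1, 0, 0, 0; 0, 0, 0, 1; 0, ω, 0, 0; 0, 0, ω + 1, 0] := by
    rw [sM_mul, hv, hy]; ext a b; fin_cases a <;> fin_cases b <;> simp [Matrix.mul_apply, Fin.sum_univ_four] <;> grind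
  have m37 : sM (y * (v * w)) = !![1, 0, 0, 0; 0, 0, 0, 1; 0, ω, 0, 0; 0, 0, ω + 1, 0] := by
    rw [sM_mul, hy, m25]; ext a b; fin_cases a <;> fin_cases b <;> simp [Matrix.mul_apply, Fin.sum_univ_four] <;> grind
  have e18 : v * y = y * (v * w) := sM_inj (m36.trans m37.symm)
  have m38 : sM (v * u) = !![ω, 0, 0, 0; 0, 0, 0, 1; 0, 1, 0, 0; 0, 0, ω + 1, 0] := by
    rw [sM_mul, hv, hu]; ext a b; fin_cases a <;> fin_cases b <;> simp [Matrix.mul_apply, Fin.sum_univ_four] <;> grind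
  have m39 : sM (w * y) = !![1, 0, 0, 0; 0, 1, 0, 0; 0, 0, ω + 1, 0; 0, 0, 0, ω] := by
    rw [sM_mul, hw, hy]; ext a b; fin_cases a <;> fin_cases b <;> simp [Matrix.mul_apply, Fin.sum_univ_four] <;> grind
  have m40 : sM (v * u * (w * y)) = !![ω, 0, 0, 0; 0, 0, 0, ω; 0, 1, 0, 0; 0, 0, ω, 0] := by
    rw [sM_mul, m38, m39]; ext a b; fin_cases a <;> fin_cases b <;> simp [Matrix.mul_apply, Fin.sum_univ_four] <;> grind
  have m41 : sM (u * v) = !![ω, 0, 0, 0; 0, 0, 0, ω; 0, 1, 0, 0; 0, 0, ω, 0] := by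
    rw [sM_mul, hu, hv]; ext a b; fin_cases a <;> fin_cases b <;> simp [Matrix.mul_apply, Fin.sum_univ_four] <;> grind
  have e19 : v * u * (w * y) = u * v := sM_inj (m40.trans m41.symm)
  refine ⟨u, t, z, s, v, y, w, e1, e2, e3, e4, e5, e6, e7, e8, e9, e10, e11, e12, e13, e14, e15, e16, e17, e18, e19, ?_⟩
  intro hc
  have h4 := congrArg (fun x => sM x 1 3) hc
  simp only [m41, m38] at h4
  have h5 : ω = 1 := by simpa using h4
  rw [h5] at hω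
  apply one_ne_zero (α := F)
  linear_combination -hω

end Cfsg.Agent.H1.Emb
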