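import Cfsg.Agent.H1.EmbB
import Cfsg.Agent.H5.UnitCenter
import Cfsg.Agent.H5.SpPrim

set_option autoImplicit false
set_option linter.all false

namespace Cfsg.Agent.H1.Emb

open Cfsg Cfsg.Agent.H16 Cfsg.Agent.H5 Cfsg.Agent.H1.Pres Matrix

theorem relC_of {G : Type*} [Group G] {u t z s v y w : G}
    (e1 : u * u * u = 1) (e2 : t * t = z) (e3 : z * z = 1) (e4 : z * u = u * z) (e5 : u * t * (u * t) * (u * t) = z) (e6 : s * s = 1) (e7 : s * z = z * s)
    (e8 : s * t * (s * t) = t * s * (t * s)) (e9 : u * s = s * w) (e10 : w * t = t * w) (e11 : v * v * v = 1) (e12 : v * z * v = z)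
    (e13 : v * w = w * v) (e14 : w * u = u * w) (e15 : v * s * (v * s) * (v * s) = 1) (e16 : v * t = t * y) (e17 : y * s * y = s)
    (e18 : v * y = y * (v * w)) (e19 : v * u * (w * y) = u * v) :
    u ^ 3 = 1 ∧ z * u = u * z ∧ v ^ 3 = 1 ∧ cj z⁻¹ v * v = 1 ∧ RelC u z t v 1 s u⁻¹ 2 := by
  have hz : z⁻¹ = z := inv_eq_of_mul_eq_one_right e3
  have cs : cj s u = w := cj_eq e9
  have ct : cj t v = y := cj_eq e16
  have hu2 : u⁻¹ ^ 2 = u := by
    rw [sq, inv_mul_eq_iff_eq_mul, eq_comm, ← mul_eq_one_iff_eq_inv, e1]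
  have c1 : ∀ x : G, cj 1 x = x := fun x => by unfold cj; rw [inv_one, one_mul, mul_one]
  have tz : t * z = t⁻¹ := by
    rw [eq_inv_iff_mul_eq_one, ← e2, ← e3, ← e2]; simp only [mul_assoc]
  refine ⟨by rw [pow_succ, sq, e1], e4, by rw [pow_succ, sq, e11], ?_, ⟨?_, ?_, ?_, ?_, ?_, ?_⟩, ?_, ?_, ?_, ?_, ?_, ?_, ?_, ?_, ?_, ?_, ?_, ?_, ?_⟩
  · unfold cj
    rw [hz, hz, mul_assoc, mul_assoc, ← mul_assoc v z v, e12, e3]
  · rw [mul_one, one_mul]
  · rw [mul_assoc, tz, ← e2, mul_assoc, mul_inv_cancel, mul_one]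
  · rw [one_mul, mul_one]
  · rw [mul_one]; exact cj_eq e7.symm
  · rw [one_mul, sq, e3]; unfold cj; rw [mul_one, inv_mul_cancel]
  · have := e8
    simp only [← mul_assoc] at this
    exact this
  · rw [pow_succ, sq, e5, sq, e2]
  · have h1 : t * u * (t * u) * (t * u) = z := by
      have : t * u * (t * u) * (t * u) = t * (u * t * (u * t) * (u * t)) * t⁻¹ := by group
      rw [this, e5, ← e2]; group
    rw [mul_assoc, tz, ← _root_.mul_inv_rev, inv_pow, pow_succ, sq, h1, hz, sq, e2]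
  · rw [sq, e3]
  · rw [one_pow]
  · rw [hz, sq, e3]
  · rw [pow_succ, sq, e15, sq, e6]
  · rw [c1, hz]; exact (cj_eq e4.symm).symm
  · rw [cj_inv, ct]
    apply cj_eq
    rw [eq_mul_inv_iff_mul_eq, e17]
  · rw [cs]; exact cj_eq e10
  · rw [cs, e13]
  · rw [cs, e14]
  · rw [ct, hu2, cs, e18, mul_assoc]
  · rw [cj_inv, cj_inv, ct, cs, ← _root_.mul_inv_rev, eq_mul_inv_iff_mul_eq, e19]

theorem card_PSp43 {K : Type*} [Field K] [Fintype K] (hK : Fintype.card K = 3) : Nat.card (PSp 2 K) = 25920 := by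
  have h1 := Subgroup.card_eq_card_quotient_mul_card_subgroup (Subgroup.center (Matrix.symplecticGroup (Fin 2) K))
  rw [card_center_Sp hK (by norm_num), ← card_Sp4, hK] at h1
  have h2 : Nat.card (Matrix.symplecticGroup (Fin 2) K ⧸ Subgroup.center (Matrix.symplecticGroup (Fin 2) K)) = Nat.card (PSp 2 K) := rfl
  rw [h2] at h1
  norm_num at h1
  omega

theorem card_PSU42 {F : Type*} [Field F] [Fintype F] (hF : Fintype.card F = 4) : Nat.card (PSU 4 F 2) = 25920 := by
  have h1 := card_PSU_mul (F := F) (q := 2) (n := 4) (by rw [hF]; norm_num) (by norm_num)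
  have h2 : ordU 2 4 = 77760 := by decide
  rw [h2] at h1
  norm_num at h1
  omega

theorem iso_of {K : Type*} [Field K] [Fintype K] (hK : Fintype.card K = 3) {G : Type*} [Group G] (hG : Nat.card G = 25920) {u t z s v y w : G}
    (e1 : u * u * u = 1) (e2 : t * t = z) (e3 : z * z = 1) (e4 : z * u = u * z) (e5 : u * t * (u * t) * (u * t) = z) (e6 : s * s = 1) (e7 : s * z = z * s)
    (e8 : s * t * (s * t) = t * s * (t * s)) (e9 : u * s = s * w) (e10 : w * t = t * w) (e11 : v * v * v = 1) (e12 : v * z * v = z)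
    (e13 : v * w = w * v) (e14 : w * u = u * w) (e15 : v * s * (v * s) * (v * s) = 1) (e16 : v * t = t * y) (e17 : y * s * y = s)
    (e18 : v * y = y * (v * w)) (e19 : v * u * (w * y) = u * v) (hu : u ≠ 1) : Nonempty (G ≃* PSp 2 K) := by
  obtain ⟨r1, r2, r3, r4, r5⟩ := relC_of e1 e2 e3 e4 e5 e6 e7 e8 e9 e10 e11 e12 e13 e14 e15 e16 e17 e18 e19
  have h0 : (-1 : K) ≠ 0 := neg_ne_zero.2 one_ne_zero
  obtain ⟨f, hf⟩ := sp43_hom hK h0 r1 r2 r3 r4 r5
  have hz : z⁻¹ = z := inv_eq_of_mul_eq_one_right e3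
  have hZ : FreeGroup.lift (gens u z t v 1 s) Zw = 1 := by
    unfold Zw
    rw [map_mul, map_cj, map_pow, lT6, lS6, sq, e2, cj_eq e7.symm, e3]
  have hcen : ∀ x ∈ Subgroup.center (Matrix.symplecticGroup (Fin 2) K), f x = 1 := by
    intro x hx
    obtain ⟨c, hc, hcx⟩ := Cfsg.Agent.H5.sp_center_scalar (m := 2) (by norm_num) hx
    have hc' : (c - 1) * (c + 1) = 0 := by linear_combination hc
    rcases mul_eq_zero.1 hc' with h | h
    · have : x = 1 := by
        apply Subtype.ext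
        rw [hcx, sub_eq_zero.1 h, one_smul]; rfl
      rw [this, map_one]
    · have : x = FreeGroup.lift (gens (p4 (1 : K)) (ph (-1) h0) pt (p1 1) (pk (-1) h0) ps) Zw := by
        apply Subtype.ext
        rw [p_Zw, hcx, eq_neg_of_add_eq_zero_left h, neg_one_smul]
      rw [this, hf, hZ]
  let f' : PSp 2 K →* G := QuotientGroup.lift (Subgroup.center (Matrix.symplecticGroup (Fin 2) K)) f hcen
  haveI hs : IsSimpleGroup (PSp 2 K) := PSp_isSimple (F := K) (m := 2) (by norm_num) (Or.inr (Or.inl ⟨rfl, by rw [hK]⟩))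
  have hinj : Function.Injective f' := by
    rw [← MonoidHom.ker_eq_bot_iff]
    rcases hs.eq_bot_or_eq_top_of_normal f'.ker inferInstance with h | h
    · exact h
    · exfalso
      apply hu
      have h1 : (QuotientGroup.mk (FreeGroup.lift (gens (p4 (1 : K)) (ph (-1) h0) pt (p1 1) (pk (-1) h0) ps) eU) : PSp 2 K) ∈ f'.ker := by rw [h]; trivial
      rw [MonoidHom.mem_ker] at h1
      have h2 : f (FreeGroup.lift (gens (p4 (1 : K)) (ph (-1) h0) pt (p1 1) (pk (-1) h0) ps) eU) = 1 := h1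
      rw [hf, lU6] at h2
      exact h2
  haveI : Finite G := Nat.finite_of_card_ne_zero (by rw [hG]; norm_num)
  have hbij : Function.Bijective f' := by
    exact (Nat.bijective_iff_injective_and_card f').2 ⟨hinj, by rw [card_PSp43 hK, hG]⟩
  exact ⟨(MulEquiv.ofBijective f' hbij).symm⟩

end Cfsg.Agent.H1.Emb
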