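import Cfsg.Agent.H1.EmbC
import Cfsg.Agent.H1.EmbD

set_option autoImplicit false
set_option linter.all false

namespace Cfsg.Agent.H1.Emb

open Cfsg Cfsg.Agent.H16 Cfsg.Agent.H5 Cfsg.Agent.H1.Pres Matrix

theorem psu42 {F K : Type*} [Field F] [Fintype F] [Field K] [Fintype K] (hF : Fintype.card F = 4) (hK : Fintype.card K = 3) :
    Nonempty (Cfsg.PSU 4 F 2 ≃* Cfsg.PSp 2 K) := by
  classical
  have hF2 : Fintype.card F = 2 ^ 2 := by rw [hF]; norm_num
  obtain ⟨σ, hσ, hσ2, hσ1⟩ := exists_frob hF2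
  have h2 : (2 : F) = 0 := by
    have h9 : ((4 : ℕ) : F) = 0 := by rw [← hF]; exact Nat.cast_card_eq_zero F
    have : (2 : F) * 2 = 0 := by
      rw [← h9]; norm_num
    exact mul_self_eq_zero.1 this
  obtain ⟨ω, hω⟩ : ∃ ω : F, ω ^ 2 = ω + 1 := by
    obtain ⟨ω, h1, h3⟩ : ∃ ω : F, ω ≠ 0 ∧ ω ≠ 1 := by
      by_contra hcon
      push Not at hcon
      have : Fintype.card F ≤ 2 := by
        have h4 : (Finset.univ : Finset F) ⊆ {0, 1} := by
          intro x _
          by_cases hx : x = 0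
          · simp [hx]
          · simp [hcon x hx]
        exact (Finset.card_le_card h4).trans Finset.card_le_two
      omega
    refine ⟨ω, ?_⟩
    have h4 : ω ^ 4 = ω := by
      have := FiniteField.pow_card ω
      rwa [hF] at this
    have h5 : ω * (ω - 1) * (ω ^ 2 + ω + 1) = 0 := by linear_combination h4
    rcases mul_eq_zero.1 h5 with h6 | h6
    · rcases mul_eq_zero.1 h6 with h7 | h7
      · exact absurd h7 h1
      · exact absurd (sub_eq_zero.1 h7) h3
    · linear_combination h6 - (ω + 1) * h2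
  obtain ⟨u, t, z, s, v, y, w, e1, e2, e3, e4, e5, e6, e7, e8, e9, e10, e11, e12, e13, e14, e15, e16, e17, e18, e19, hne⟩ := su42_mats hω h2 hσ
  obtain ⟨π, hπ⟩ : ∃ π : SU 4 F 2 →* Cfsg.PSU 4 F 2, π = QuotientGroup.mk' (Subgroup.center (SU 4 F 2)) := ⟨_, rfl⟩
  have hu : π u ≠ 1 := by
    intro h
    rw [hπ] at h
    apply hne
    have h3 : u ∈ Subgroup.center (SU 4 F 2) := by
      rw [← QuotientGroup.eq_one_iff]; exact h
    exact ((Subgroup.mem_center_iff.1 h3) v).symm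
  refine iso_of hK (card_PSU42 hF) (u := π u) (t := π t) (z := π z) (s := π s) (v := π v) (y := π y) (w := π w)
    ?_ ?_ ?_ ?_ ?_ ?_ ?_ ?_ ?_ ?_ ?_ ?_ ?_ ?_ ?_ ?_ ?_ ?_ ?_ hu
  all_goals simp only [← map_mul]
  · rw [e1, map_one]
  · rw [e2]
  · rw [e3, map_one]
  · rw [e4]
  · rw [e5]
  · rw [e6, map_one]
  · rw [e7]
  · rw [e8]
  · rw [e9]
  · rw [e10]
  · rw [e11, map_one]
  · rw [e12]
  · rw [e13]
  · rw [e14]
  · rw [e15, map_one]
  · rw [e16]
  · rw [e17]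
  · rw [e18]
  · rw [e19]

end Cfsg.Agent.H1.Emb
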