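import Cfsg.Agent.H16.SL2Ext

set_option autoImplicit false
set_option linter.all false

namespace Cfsg.Agent.H1.Emb

open Cfsg Cfsg.Agent.H16
open scoped Pointwise

abbrev S5 := Matrix.SpecialLinearGroup (Fin 5) (ZMod 2)

def xs (a b : Fin 5) (h : a ≠ b) : S5 := ⟨Matrix.transvection a b 1, Matrix.det_transvection_of_ne a b h 1⟩

def s01 : S5 := xs 0 1 (by decide)

lemma comm_entries {a b : Fin 5} {h : a ≠ b} {x : S5} (hc : xs a b h * x = x * xs a b h) :
    (∀ k, k ≠ a → x.1 k a = 0) ∧ (∀ l, l ≠ b → x.1 b l = 0) ∧ x.1 a a = x.1 b b := by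
  have h1 : Matrix.transvection a b 1 * x.1 = x.1 * Matrix.transvection a b 1 := congrArg Subtype.val hc
  unfold Matrix.transvection at h1
  rw [Matrix.add_mul, Matrix.mul_add, Matrix.one_mul, Matrix.mul_one, add_right_inj] at h1
  refine ⟨?_, ?_, ?_⟩
  · intro k hk
    have h2 := congrFun (congrFun h1 k) b
    rw [Matrix.single_mul_apply_of_ne (h := hk), Matrix.mul_single_apply_same, mul_one] at h2
    exact h2.symm
  · intro l hl
    have h2 := congrFun (congrFun h1 a) l
    rw [Matrix.single_mul_apply_same, Matrix.mul_single_apply_of_ne (hbj := hl), one_mul] at h2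
    exact h2
  · have h2 := congrFun (congrFun h1 a) b
    rw [Matrix.single_mul_apply_same, Matrix.mul_single_apply_same, mul_one, one_mul] at h2
    exact h2.symm

lemma z2a : ∀ a : ZMod 2, a = 0 ∨ a = 1 := by decide

theorem cent_eq {x : S5} (h1 : xs 0 2 (by decide) * x = x * xs 0 2 (by decide)) (h2 : xs 2 3 (by decide) * x = x * xs 2 3 (by decide))
    (h3 : xs 3 4 (by decide) * x = x * xs 3 4 (by decide)) (h4 : xs 4 1 (by decide) * x = x * xs 4 1 (by decide)) :
    x = 1 ∨ x = s01 := by
  obtain ⟨a1, a2, a3⟩ := comm_entries h1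
  obtain ⟨b1, b2, b3⟩ := comm_entries h2
  obtain ⟨c1, c2, c3⟩ := comm_entries h3
  obtain ⟨d1, d2, d3⟩ := comm_entries h4
  have hdiag : x.1 1 1 = 1 := by
    rcases z2a (x.1 1 1) with h | h
    · exfalso
      have h5 : x.1.det = 0 := Matrix.det_eq_zero_of_row_eq_zero 1 (fun l => by
        by_cases hl : l = 1
        · rw [hl, h]
        · exact d2 l hl)
      rw [x.2] at h5
      exact one_ne_zero h5
    · exact h
  have e4 : x.1 4 4 = 1 := by rw [d3, hdiag]
  have e3 : x.1 3 3 = 1 := by rw [c3, e4]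
  have e2 : x.1 2 2 = 1 := by rw [b3, e3]
  have e0 : x.1 0 0 = 1 := by rw [a3, e2]
  have f1 := a1 1 (by decide); have f2 := a1 2 (by decide); have f3 := a1 3 (by decide); have f4 := a1 4 (by decide)
  have g0 := b1 0 (by decide); have g1 := b1 1 (by decide); have g3 := b1 3 (by decide); have g4 := b1 4 (by decide)
  have i0 := c1 0 (by decide); have i1 := c1 1 (by decide); have i2 := c1 2 (by decide); have i4 := c1 4 (by decide)
  have j0 := d1 0 (by decide); have j1 := d1 1 (by decide); have j2 := d1 2 (by decide); have j3 := d1 3 (by decide)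
  have k2 := a2 1 (by decide); have k3 := b2 1 (by decide); have k4 := c2 1 (by decide)
  rcases z2a (x.1 0 1) with h | h
  · left
    apply Subtype.ext
    ext i j
    fin_cases i <;> fin_cases j
    all_goals first
      | exact e0 | exact hdiag | exact e2 | exact e3 | exact e4 | exact f1 | exact f2 | exact f3 | exact f4
      | exact g0 | exact g1 | exact g3 | exact g4 | exact i0 | exact i1 | exact i2 | exact i4 | exact j0 | exact j1 | exact j2 | exact j3
      | exact k2 | exact k3 | exact k4 | exact h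
  · right
    apply Subtype.ext
    have ex : (s01).1 = !![1, 1, 0, 0, 0; 0, 1, 0, 0, 0; 0, 0, 1, 0, 0; 0, 0, 0, 1, 0; 0, 0, 0, 0, 1] := by
      show Matrix.transvection 0 1 1 = _
      decide
    rw [ex]
    ext i j
    fin_cases i <;> fin_cases j
    all_goals first
      | exact e0 | exact hdiag | exact e2 | exact e3 | exact e4 | exact f1 | exact f2 | exact f3 | exact f4
      | exact g0 | exact g1 | exact g3 | exact g4 | exact i0 | exact i1 | exact i2 | exact i4 | exact j0 | exact j1 | exact j2 | exact j3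
      | exact k2 | exact k3 | exact k4 | exact h

def τ5 : Fin 5 ≃ Fin 5 where
  toFun := ![0, 4, 1, 2, 3]
  invFun := ![0, 2, 3, 4, 1]
  left_inv := by decide
  right_inv := by decide

def φ5 : S5 →* GL (Fin 5) (ZMod 2) :=
  (Units.map (Matrix.reindexAlgEquiv (ZMod 2) (ZMod 2) τ5 : Matrix (Fin 5) (Fin 5) (ZMod 2) →* Matrix (Fin 5) (Fin 5) (ZMod 2))).comp Matrix.SpecialLinearGroup.toGL

lemma φ5_inj : Function.Injective φ5 := by
  intro x y h
  apply Subtype.ext
  have h1 : Matrix.reindexAlgEquiv (ZMod 2) (ZMod 2) τ5 x.1 = Matrix.reindexAlgEquiv (ZMod 2) (ZMod 2) τ5 y.1 := congrArg Units.val h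
  exact (Matrix.reindexAlgEquiv (ZMod 2) (ZMod 2) τ5).injective h1

def V5 : Subgroup S5 := Subgroup.closure {xs 0 2 (by decide), xs 2 3 (by decide), xs 3 4 (by decide), xs 4 1 (by decide)}

lemma V5_p : IsPGroup 2 V5 := by
  have h1 : V5 ≤ (upperTriangularGL 5 (ZMod 2)).comap φ5 := by
    unfold V5
    rw [Subgroup.closure_le]
    rintro x (rfl | rfl | rfl | rfl)
    · show ∀ i j : Fin 5, j < i → (Matrix.transvection 0 2 1 : Matrix (Fin 5) (Fin 5) (ZMod 2)) (τ5.symm i) (τ5.symm j) = 0
      decide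
    · show ∀ i j : Fin 5, j < i → (Matrix.transvection 2 3 1 : Matrix (Fin 5) (Fin 5) (ZMod 2)) (τ5.symm i) (τ5.symm j) = 0
      decide
    · show ∀ i j : Fin 5, j < i → (Matrix.transvection 3 4 1 : Matrix (Fin 5) (Fin 5) (ZMod 2)) (τ5.symm i) (τ5.symm j) = 0
      decide
    · show ∀ i j : Fin 5, j < i → (Matrix.transvection 4 1 1 : Matrix (Fin 5) (Fin 5) (ZMod 2)) (τ5.symm i) (τ5.symm j) = 0
      decide
  exact ((SL2Ext.isP 5).comap_of_injective φ5 φ5_inj).to_le h1

lemma V5_le : V5 ≤ Subgroup.centralizer ({s01} : Set S5) := by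
  unfold V5
  rw [Subgroup.closure_le]
  rintro x (rfl | rfl | rfl | rfl) <;>
  · show _ ∈ Subgroup.centralizer _
    rw [Subgroup.mem_centralizer_singleton_iff]
    apply Subtype.ext
    show Matrix.transvection _ _ 1 * Matrix.transvection _ _ 1 = Matrix.transvection _ _ 1 * Matrix.transvection _ _ 1
    decide

/-- the centre of a Sylow 2-subgroup of the centraliser of a transvection -/
theorem sylow_center (P : Sylow 2 (Subgroup.centralizer ({s01} : Set S5))) (x : Subgroup.centralizer ({s01} : Set S5))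
    (hx : ∀ y ∈ P, x * y = y * x) : (x : S5) = 1 ∨ (x : S5) = s01 := by
  haveI : Fact (Nat.Prime 2) := ⟨Nat.prime_two⟩
  obtain ⟨C, hC⟩ : ∃ C, C = Subgroup.centralizer ({s01} : Set S5) := ⟨_, rfl⟩
  have hV : IsPGroup 2 (V5.subgroupOf (Subgroup.centralizer ({s01} : Set S5))) :=
    V5_p.comap_of_injective _ (Subgroup.subtype_injective _)
  obtain ⟨Q, hQ⟩ := hV.exists_le_sylow
  obtain ⟨g, hg⟩ := MulAction.exists_smul_eq (Subgroup.centralizer ({s01} : Set S5)) P Q
  -- `x' = g x g⁻¹` centralises `Q`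
  have key : ∀ y ∈ Q, (g * x * g⁻¹) * y = y * (g * x * g⁻¹) := by
    intro y hy
    have h1 : g⁻¹ * y * g ∈ P := by
      rw [← hg] at hy
      have h2 : y ∈ (MulAut.conj g • (P : Subgroup _)) := hy
      rw [Subgroup.mem_pointwise_smul_iff_inv_smul_mem] at h2
      rw [← map_inv, MulAut.smul_def, MulAut.conj_apply, inv_inv] at h2
      exact h2
    have h3 := hx _ h1
    calc (g * x * g⁻¹) * y = g * (x * (g⁻¹ * y * g)) * g⁻¹ := by group
      _ = g * ((g⁻¹ * y * g) * x) * g⁻¹ := by rw [h3]
      _ = y * (g * x * g⁻¹) := by group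
  have hmem : ∀ y (hy : y ∈ V5), y * ((g * x * g⁻¹ : Subgroup.centralizer ({s01} : Set S5)) : S5) = (g * x * g⁻¹ : Subgroup.centralizer ({s01} : Set S5)) * y := by
    intro y hy
    have := key ⟨y, V5_le hy⟩ (hQ hy)
    exact (congrArg Subtype.val this).symm
  have h5 := cent_eq (hmem _ (Subgroup.subset_closure (by simp))) (hmem _ (Subgroup.subset_closure (by simp)))
    (hmem _ (Subgroup.subset_closure (by simp))) (hmem _ (Subgroup.subset_closure (by simp)))
  have h6 : (x : S5) = (g : S5)⁻¹ * ((g * x * g⁻¹ : Subgroup.centralizer ({s01} : Set S5)) : S5) * g := by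
    push_cast; group
  rcases h5 with h5 | h5
  · left
    rw [h6, h5]; group
  · right
    rw [h6, h5]
    have h7 := (Subgroup.mem_centralizer_singleton_iff.1 g.2)
    rw [mul_assoc, ← h7]; group

/-- a 2-subgroup whose normalizer is in the centraliser of `z`, of odd index there, is Sylow -/
theorem odd_index {G : Type*} [Group G] [Finite G] {p : ℕ} [Fact p.Prime] {T C : Subgroup G} (hT : IsPGroup p T) (hTC : T ≤ C) (hN : Subgroup.normalizer (T : Set G) ≤ C)
    (hodd : ¬ p ∣ T.relIndex C) : ¬ p ∣ T.index := by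
  intro hp
  obtain ⟨n, hn⟩ := IsPGroup.iff_card.1 hT
  have h1 : p ^ (n + 1) ∣ Nat.card G := by
    rw [← T.card_mul_index, hn, pow_succ]
    exact Nat.mul_dvd_mul_left _ hp
  have h2 := Sylow.prime_dvd_card_quotient_normalizer h1 hn
  have h3 : Nat.card (Subgroup.normalizer (T : Set G) ⧸ T.comap (Subgroup.normalizer (T : Set G)).subtype) = T.relIndex (Subgroup.normalizer (T : Set G)) := rfl
  rw [h3] at h2
  apply hodd
  rw [← Subgroup.relIndex_mul_relIndex T (Subgroup.normalizer (T : Set G)) C T.le_normalizer hN]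
  exact h2.mul_right _

theorem l52 {G : Type*} [Group G] [Finite G] (s : S5) (hs : (s : Matrix (Fin 5) (Fin 5) (ZMod 2)) = Matrix.transvection 0 1 1) (z : G) (hz : orderOf z = 2)
    (e : (Subgroup.centralizer ({z} : Set G)) ≃* Subgroup.centralizer ({s} : Set S5)) (T : Sylow 2 (Subgroup.centralizer ({z} : Set G))) :
    ¬ 2 ∣ ((T : Subgroup (Subgroup.centralizer ({z} : Set G))).map (Subgroup.subtype (Subgroup.centralizer ({z} : Set G)))).index := by
  haveI : Fact (Nat.Prime 2) := ⟨Nat.prime_two⟩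
  obtain rfl : s = s01 := Subtype.ext hs
  have hz1 : z ≠ 1 := by
    rintro rfl
    rw [orderOf_one] at hz
    exact absurd hz (by norm_num)
  obtain ⟨C, hC⟩ : ∃ C, C = Subgroup.centralizer ({z} : Set G) := ⟨_, rfl⟩
  have hzC : z ∈ Subgroup.centralizer ({z} : Set G) := by rw [Subgroup.mem_centralizer_singleton_iff]
  -- elements of `T` centralising `T`
  have key : ∀ x : Subgroup.centralizer ({z} : Set G), (∀ y ∈ T, x * y = y * x) → x = 1 ∨ e x = ⟨s01, by rw [Subgroup.mem_centralizer_singleton_iff]⟩ := by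
    intro x hx
    have h1 := sylow_center (T.mapSurjective (f := e.toMonoidHom) e.surjective) (e x) (by
      intro y hy
      obtain ⟨w, hw, rfl⟩ : ∃ w ∈ T, e w = y := hy
      rw [← map_mul, ← map_mul, hx w hw])
    rcases h1 with h1 | h1
    · left
      have h2 : e x = 1 := Subtype.ext h1
      exact (map_eq_one_iff e e.injective).1 h2
    · right
      exact Subtype.ext h1
  have hzc : ∀ y : Subgroup.centralizer ({z} : Set G), (⟨z, hzC⟩ : Subgroup.centralizer ({z} : Set G)) * y = y * ⟨z, hzC⟩ := by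
    intro y
    apply Subtype.ext
    have := Subgroup.mem_centralizer_singleton_iff.1 y.2
    exact this.symm
  have hze : e ⟨z, hzC⟩ = ⟨s01, by rw [Subgroup.mem_centralizer_singleton_iff]⟩ := by
    rcases key ⟨z, hzC⟩ (fun y _ => hzc y) with h | h
    · exact absurd (congrArg Subtype.val h) hz1
    · exact h
  have key2 : ∀ x : Subgroup.centralizer ({z} : Set G), (∀ y ∈ T, x * y = y * x) → x ≠ 1 → (x : G) = z := by
    intro x hx hx1
    rcases key x hx with h | h
    · exact absurd h hx1
    · rw [← hze] at h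
      exact congrArg Subtype.val (e.injective h)
  obtain ⟨T', hT'⟩ : ∃ T', T' = (T : Subgroup (Subgroup.centralizer ({z} : Set G))).map (Subgroup.subtype (Subgroup.centralizer ({z} : Set G))) := ⟨_, rfl⟩
  rw [← hT']
  have hTC : T' ≤ Subgroup.centralizer ({z} : Set G) := by
    rw [hT']; exact Subgroup.map_subtype_le _
  -- `z ∈ T'`
  have hzT : z ∈ T' := by
    have h1 : IsPGroup 2 (Subgroup.zpowers (⟨z, hzC⟩ : Subgroup.centralizer ({z} : Set G))) := by
      apply IsPGroup.of_card (n := 1)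
      rw [Nat.card_zpowers, pow_one, ← hz]
      exact Subgroup.orderOf_mk _ _
    haveI : (Subgroup.zpowers (⟨z, hzC⟩ : Subgroup.centralizer ({z} : Set G))).Normal := by
      constructor
      rintro n ⟨k, rfl⟩ g
      refine ⟨k, ?_⟩
      have h5 : Commute (⟨z, hzC⟩ : Subgroup.centralizer ({z} : Set G)) g := hzc g
      show _ ^ k = g * _ ^ k * g⁻¹
      rw [← (h5.zpow_left k).eq, mul_inv_cancel_right]
    have h2 := T.3 (IsPGroup.to_sup_of_normal_left h1 T.2) le_sup_right
    rw [hT']
    refine ⟨⟨z, hzC⟩, ?_, rfl⟩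
    have h3 : (⟨z, hzC⟩ : Subgroup.centralizer ({z} : Set G)) ∈ Subgroup.zpowers (⟨z, hzC⟩ : Subgroup.centralizer ({z} : Set G)) ⊔ (T : Subgroup _) :=
      Subgroup.mem_sup_left (Subgroup.mem_zpowers _)
    rw [h2] at h3
    exact h3
  refine odd_index (p := 2) (C := Subgroup.centralizer ({z} : Set G)) ?_ hTC ?_ ?_
  · rw [hT']; exact T.2.map _
  · intro g hg
    -- `g z g⁻¹` is in `T'` and centralises it
    have h1 : g * z * g⁻¹ ∈ T' := (Subgroup.mem_normalizer_iff.1 hg z).1 hzT
    have h2 : ∀ y ∈ T', (g * z * g⁻¹) * y = y * (g * z * g⁻¹) := by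
      intro y hy
      have h3 : g⁻¹ * y * g ∈ T' := by
        have := (Subgroup.mem_normalizer_iff.1 (Subgroup.inv_mem _ hg) y).1 hy
        rwa [inv_inv] at this
      have h4 := Subgroup.mem_centralizer_singleton_iff.1 (hTC h3)
      calc (g * z * g⁻¹) * y = g * (z * (g⁻¹ * y * g)) * g⁻¹ := by group
        _ = g * ((g⁻¹ * y * g) * z) * g⁻¹ := by rw [h4]
        _ = y * (g * z * g⁻¹) := by group
    have h3 := key2 ⟨g * z * g⁻¹, hTC h1⟩ (by
      intro y hy
      apply Subtype.ext
      exact h2 y (by rw [hT']; exact ⟨y, hy, rfl⟩)) (by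
      intro h
      have h4 := congrArg Subtype.val h
      apply hz1
      have h5 : g * z * g⁻¹ = 1 := h4
      rw [mul_inv_eq_one] at h5
      exact mul_eq_left.1 h5)
    have h5 : g * z * g⁻¹ = z := h3
    rw [Subgroup.mem_centralizer_singleton_iff]
    rw [mul_inv_eq_iff_eq_mul] at h5
    exact h5
  · have h1 : T'.relIndex (Subgroup.centralizer ({z} : Set G)) = (T : Subgroup (Subgroup.centralizer ({z} : Set G))).index := by
      rw [hT']
      unfold Subgroup.relIndex
      congr 1
      exact Subgroup.comap_map_eq_self_of_injective (Subgroup.subtype_injective _) _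
    rw [h1]
    exact T.not_dvd_index

end Cfsg.Agent.H1.Emb
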