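import Cfsg.Agent.H18.FrattiniP

set_option autoImplicit false
set_option linter.all false

namespace Cfsg.Agent.H1.Heis

open Cfsg Matrix
open scoped commutatorElement

variable {n : ℕ} {F : Type} [Field F]

/-- the Heisenberg group -/
@[ext] structure Hs (n : ℕ) (F : Type) where
  a : Fin n → F
  b : Fin n → F
  c : F

instance : Mul (Hs n F) := ⟨fun x y => ⟨x.a + y.a, x.b + y.b, x.c + y.c + x.a ⬝ᵥ y.b⟩⟩
instance : One (Hs n F) := ⟨⟨0, 0, 0⟩⟩
instance : Inv (Hs n F) := ⟨fun x => ⟨-x.a, -x.b, -x.c + x.a ⬝ᵥ x.b⟩⟩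

lemma mul_a (x y : Hs n F) : (x * y).a = x.a + y.a := rfl
lemma mul_b (x y : Hs n F) : (x * y).b = x.b + y.b := rfl
lemma mul_c (x y : Hs n F) : (x * y).c = x.c + y.c + x.a ⬝ᵥ y.b := rfl
lemma one_a : (1 : Hs n F).a = 0 := rfl
lemma one_b : (1 : Hs n F).b = 0 := rfl
lemma one_c : (1 : Hs n F).c = 0 := rfl
lemma inv_a (x : Hs n F) : (x⁻¹).a = -x.a := rfl
lemma inv_b (x : Hs n F) : (x⁻¹).b = -x.b := rfl
lemma inv_c (x : Hs n F) : (x⁻¹).c = -x.c + x.a ⬝ᵥ x.b := rfl

instance : Group (Hs n F) := Group.ofLeftAxioms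
  (by
    intro x y z
    apply Hs.ext
    · simp only [mul_a, add_assoc]
    · simp only [mul_b, add_assoc]
    · simp only [mul_a, mul_b, mul_c, add_dotProduct, dotProduct_add]; ring)
  (by
    intro x
    apply Hs.ext
    · simp only [mul_a, one_a, zero_add]
    · simp only [mul_b, one_b, zero_add]
    · simp only [mul_c, one_c, one_a, zero_add, zero_dotProduct, add_zero])
  (by
    intro x
    apply Hs.ext
    · simp only [mul_a, inv_a, one_a, neg_add_cancel]
    · simp only [mul_b, inv_b, one_b, neg_add_cancel]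
    · simp only [mul_c, inv_c, one_c, inv_a, neg_dotProduct]; ring)

lemma pow_eq (x : Hs n F) (k : ℕ) : (x ^ k).a = (k : F) • x.a ∧ (x ^ k).b = (k : F) • x.b ∧ (x ^ k).c = k * x.c + (k.choose 2 : F) * (x.a ⬝ᵥ x.b) := by
  induction k with
  | zero =>
    refine ⟨?_, ?_, ?_⟩
    · rw [pow_zero, Nat.cast_zero, zero_smul]; rfl
    · rw [pow_zero, Nat.cast_zero, zero_smul]; rfl
    · rw [pow_zero]; simp [one_c]
  | succ k ih =>
    obtain ⟨h1, h2, h3⟩ := ih
    refine ⟨?_, ?_, ?_⟩
    · rw [pow_succ, mul_a, h1, Nat.cast_succ, add_smul, one_smul]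
    · rw [pow_succ, mul_b, h2, Nat.cast_succ, add_smul, one_smul]
    · rw [pow_succ, mul_c, h1, h3, smul_dotProduct, Nat.choose_succ_succ' k 1, Nat.choose_one_right, smul_eq_mul]
      push_cast; ring

lemma pow_p {p : ℕ} [Fact p.Prime] [CharP F p] (hp : p ≠ 2) (x : Hs n F) : x ^ p = 1 := by
  obtain ⟨h1, h2, h3⟩ := pow_eq x p
  have hp2 : 2 < p := lt_of_le_of_ne (Fact.out : p.Prime).two_le (Ne.symm hp)
  have h4 : ((p.choose 2 : ℕ) : F) = 0 := by
    rw [CharP.cast_eq_zero_iff F p]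
    exact (Fact.out : p.Prime).dvd_choose_self (by norm_num) hp2
  apply Hs.ext
  · rw [h1, CharP.cast_eq_zero, zero_smul]; rfl
  · rw [h2, CharP.cast_eq_zero, zero_smul]; rfl
  · rw [h3, CharP.cast_eq_zero, h4, zero_mul, zero_mul, add_zero]; rfl

lemma comm_eq (x y : Hs n F) : ⁅x, y⁆ = ⟨0, 0, x.a ⬝ᵥ y.b - y.a ⬝ᵥ x.b⟩ := by
  rw [commutatorElement_def]
  have h1 : x * y = ⟨0, 0, x.a ⬝ᵥ y.b - y.a ⬝ᵥ x.b⟩ * (y * x) := by
    apply Hs.ext
    · simp only [mul_a, zero_add]; rw [add_comm]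
    · simp only [mul_b, zero_add]; rw [add_comm]
    · simp only [mul_c, zero_add, zero_dotProduct, add_zero]; ring
  rw [h1]; group

lemma mem_center {x : Hs n F} : x ∈ Subgroup.center (Hs n F) ↔ x.a = 0 ∧ x.b = 0 := by
  classical
  rw [Subgroup.mem_center_iff]
  constructor
  · intro h
    constructor
    · funext i
      have h1 := congrArg Hs.c (h ⟨0, Pi.single i 1, 0⟩)
      simp only [mul_c, zero_add, zero_dotProduct, add_zero, dotProduct_single, mul_one] at h1
      have : x.c + 0 = x.c + x.a i := by rw [add_zero]; exact h1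
      exact (add_left_cancel this).symm
    · funext i
      have h1 := congrArg Hs.c (h ⟨Pi.single i 1, 0, 0⟩)
      simp only [mul_c, zero_add, dotProduct_zero, add_zero, single_dotProduct, one_mul] at h1
      have : x.c + x.b i = x.c + 0 := by rw [add_zero]; exact h1
      exact add_left_cancel this
  · rintro ⟨h1, h2⟩ g
    apply Hs.ext
    · simp only [mul_a, h1, zero_add, add_zero]
    · simp only [mul_b, h2, zero_add, add_zero]
    · simp only [mul_c, h1, h2, zero_dotProduct, dotProduct_zero]; ring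

def eqv : Hs n F ≃ (Fin n → F) × (Fin n → F) × F where
  toFun x := (x.a, x.b, x.c)
  invFun y := ⟨y.1, y.2.1, y.2.2⟩
  left_inv _ := rfl
  right_inv _ := rfl

def ceqv : Subgroup.center (Hs n F) ≃ F where
  toFun x := x.1.c
  invFun c := ⟨⟨0, 0, c⟩, mem_center.2 ⟨rfl, rfl⟩⟩
  left_inv x := by
    apply Subtype.ext
    obtain ⟨h1, h2⟩ := mem_center.1 x.2
    apply Hs.ext
    · exact h1.symm
    · exact h2.symm
    · rfl
  right_inv _ := rfl

lemma comm_center (hn : 1 ≤ n) : commutator (Hs n F) = Subgroup.center (Hs n F) := by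
  classical
  apply le_antisymm
  · rw [commutator_def, Subgroup.commutator_le]
    intro x _ y _
    rw [comm_eq, mem_center]
    exact ⟨rfl, rfl⟩
  · intro x hx
    obtain ⟨h1, h2⟩ := mem_center.1 hx
    have h3 : x = ⁅(⟨Pi.single ⟨0, hn⟩ x.c, 0, 0⟩ : Hs n F), ⟨0, Pi.single ⟨0, hn⟩ 1, 0⟩⁆ := by
      rw [comm_eq]
      apply Hs.ext
      · exact h1
      · exact h2
      · simp
    rw [h3]
    exact Subgroup.commutator_mem_commutator trivial trivial

theorem extra {p : ℕ} [Fact p.Prime] (hp : p ≠ 2) (hn : 1 ≤ n) : IsExtraspecial p (Hs n (ZMod p)) := by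
  haveI : Finite (Hs n (ZMod p)) := Finite.of_equiv _ eqv.symm
  have h1 : IsPGroup p (Hs n (ZMod p)) := fun x => ⟨1, by rw [pow_one]; exact pow_p hp x⟩
  refine ⟨⟨h1, ?_, comm_center hn⟩, ?_⟩
  · rw [← comm_center hn]
    apply le_antisymm
    · exact Cfsg.Agent.H18.frattini_le_of_elementary _ le_rfl (fun x => by rw [pow_p hp]; exact one_mem _)
    · exact Cfsg.Agent.H2.commutator_le_frattini h1
  · rw [Nat.card_congr ceqv, Nat.card_zmod]

lemma card_Hs {p : ℕ} [Fact p.Prime] : Nat.card (Hs n (ZMod p)) = p ^ (1 + 2 * n) := by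
  rw [Nat.card_congr eqv, Nat.card_prod, Nat.card_prod, Nat.card_fun, Nat.card_zmod, Nat.card_fin]
  ring

/-- extension by zeros -/
def ex (v : Fin n → F) : Fin (n + 2) → F := Fin.cons 0 (Fin.snoc v 0)

lemma ex_add (v w : Fin n → F) : ex (v + w) = ex v + ex w := by
  funext i
  refine Fin.cases ?_ (fun j => ?_) i
  · simp [ex]
  · refine Fin.lastCases ?_ (fun k => ?_) j
    · simp [ex]
    · simp [ex]

lemma ex_dot (v w : Fin n → F) : ex v ⬝ᵥ ex w = v ⬝ᵥ w := by
  unfold dotProduct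
  rw [Fin.sum_univ_succ, Fin.sum_univ_castSucc]
  simp [ex]

def e0 : Fin (n + 2) → F := Pi.single 0 1
def el : Fin (n + 2) → F := Pi.single (Fin.last _) 1

lemma ex_e0 (v : Fin n → F) : ex v ⬝ᵥ (e0 : Fin (n + 2) → F) = 0 := by simp [e0, ex]
lemma el_ex (v : Fin n → F) : (el : Fin (n + 2) → F) ⬝ᵥ ex v = 0 := by
  unfold el
  rw [single_dotProduct, one_mul]
  show ex v (Fin.succ (Fin.last n)) = 0
  simp [ex]
lemma el_e0 : (el : Fin (n + 2) → F) ⬝ᵥ e0 = 0 := by
  unfold el e0
  rw [single_dotProduct, one_mul, Pi.single_eq_of_ne]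
  exact (Fin.last_pos).ne'

def fm (x : Hs n F) : Matrix (Fin (n + 2)) (Fin (n + 2)) F := 1 + vecMulVec e0 (ex x.a) + vecMulVec (ex x.b) el + x.c • vecMulVec e0 el

lemma vadd (u v w : Fin (n + 2) → F) : vecMulVec u (v + w) = vecMulVec u v + vecMulVec u w := by
  ext i j; simp [vecMulVec_apply, mul_add]
lemma addv (u v w : Fin (n + 2) → F) : vecMulVec (u + v) w = vecMulVec u w + vecMulVec v w := by
  ext i j; simp [vecMulVec_apply, add_mul]

lemma vz (u : Fin (n + 2) → F) : vecMulVec u (0 : Fin (n + 2) → F) = 0 := by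
  ext i j; simp [vecMulVec_apply]
lemma vsm (u v : Fin (n + 2) → F) (c : F) : vecMulVec u (c • v) = c • vecMulVec u v := by
  ext i j; simp [vecMulVec_apply]; ring

lemma fm_mul (x y : Hs n F) : fm (x * y) = fm x * fm y := by
  unfold fm
  rw [mul_a, mul_b, mul_c, ex_add, ex_add, vadd, addv]
  simp only [Matrix.mul_add, Matrix.add_mul, Matrix.one_mul, Matrix.mul_one, Matrix.smul_mul, Matrix.mul_smul, vecMulVec_mul_vecMulVec, ex_e0, el_ex, el_e0, ex_dot,
    zero_smul, smul_zero, add_zero, zero_add, add_smul, vz, vsm]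
  have h1 : (ex x.a : Fin (n + 2) → F) ⬝ᵥ ex y.b = x.a ⬝ᵥ y.b := ex_dot _ _
  abel

lemma fm_one : fm (1 : Hs n F) = 1 := by
  unfold fm
  have h1 : ex (0 : Fin n → F) = 0 := by
    funext i
    refine Fin.cases ?_ (fun j => ?_) i
    · simp [ex]
    · refine Fin.lastCases ?_ (fun k => ?_) j
      · simp [ex]
      · simp [ex]
  rw [one_a, one_b, one_c, h1, zero_smul]
  ext i j; simp [vecMulVec_apply]

def fh : Hs n F →* Matrix (Fin (n + 2)) (Fin (n + 2)) F where
  toFun := fm
  map_one' := fm_one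
  map_mul' := fm_mul

lemma fm_inj : Function.Injective (fm (n := n) (F := F)) := by
  intro x y h
  have hl : Fin.last (n + 1) ≠ 0 := (Fin.last_pos).ne'
  apply Hs.ext
  · funext i
    have h1 := congrFun (congrFun h 0) (Fin.succ (Fin.castSucc i))
    have h2 : Fin.succ (Fin.castSucc i) ≠ Fin.last (n + 1) := by
      rw [← Fin.succ_last]; exact fun h => (Fin.castSucc_lt_last i).ne (Fin.succ_injective _ h)
    simpa [fm, vecMulVec_apply, e0, el, ex, h2, Matrix.one_apply, (Fin.succ_ne_zero _).symm] using h1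
  · funext i
    have h1 := congrFun (congrFun h (Fin.succ (Fin.castSucc i))) (Fin.last (n + 1))
    have h2 : Fin.succ (Fin.castSucc i) ≠ Fin.last (n + 1) := by
      rw [← Fin.succ_last]; exact fun h => (Fin.castSucc_lt_last i).ne (Fin.succ_injective _ h)
    simpa [fm, vecMulVec_apply, e0, el, ex, h2, Matrix.one_apply] using h1
  · have h1 := congrFun (congrFun h 0) (Fin.last (n + 1))
    have h3 : ∀ v : Fin n → F, ex v (Fin.last (n + 1)) = 0 := by
      intro v
      rw [← Fin.succ_last]; simp [ex]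
    have h4 : ∀ v : Fin n → F, ex v 0 = 0 := fun v => by simp [ex]
    simpa [fm, vecMulVec_apply, e0, el, h3, h4, Matrix.one_apply, hl.symm] using h1

theorem extra_of_equiv {p : ℕ} {P Q : Type} [Group P] [Group Q] (f : P ≃* Q) (h : IsExtraspecial p P) :
    IsExtraspecial p Q := by
  obtain ⟨⟨h1, h2, h3⟩, h4⟩ := h
  have hc : (Subgroup.center P).map f.toMonoidHom = Subgroup.center Q := by
    ext y
    constructor
    · rintro ⟨x, hx, rfl⟩
      rw [Subgroup.mem_center_iff]
      intro g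
      obtain ⟨g, rfl⟩ := f.surjective g
      show f g * f x = f x * f g
      rw [← map_mul, ← map_mul, Subgroup.mem_center_iff.mp hx]
    · intro hy
      refine ⟨f.symm y, ?_, f.apply_symm_apply y⟩
      rw [SetLike.mem_coe, Subgroup.mem_center_iff]
      intro g
      apply f.injective
      rw [map_mul, map_mul, f.apply_symm_apply]
      exact Subgroup.mem_center_iff.mp hy _
  refine ⟨⟨h1.of_equiv f, ?_, ?_⟩, ?_⟩
  · rw [← hc, ← h2]
    exact (OrderIso.map_radical f.mapSubgroup).symm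
  · rw [← hc, ← h3, commutator_def, commutator_def, Subgroup.map_commutator]
    have : (⊤ : Subgroup P).map f.toMonoidHom = ⊤ := Subgroup.map_top_of_surjective _ f.surjective
    rw [this]
  · rw [← hc, Subgroup.card_map_of_injective f.injective, h4]

theorem main (p : ℕ) [Fact p.Prime] (hp : p ≠ 2) (n : ℕ) (hn : 1 ≤ n) : ∃ E : Subgroup (Matrix.GeneralLinearGroup (Fin (n + 2)) (ZMod p)),
    Cfsg.IsExtraspecial p ↥E ∧ Nat.card E = p ^ (1 + 2 * n) ∧ ∀ x ∈ E, x ^ p = 1 := by
  let g : Hs n (ZMod p) →* Matrix.GeneralLinearGroup (Fin (n + 2)) (ZMod p) := (fh (n := n) (F := ZMod p)).toHomUnits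
  have hg : Function.Injective g := by
    intro x y h
    exact fm_inj (congrArg Units.val h)
  have e := MonoidHom.ofInjective hg
  refine ⟨g.range, ?_, ?_, ?_⟩
  · exact extra_of_equiv e (extra hp hn)
  · rw [← Nat.card_congr e.toEquiv, card_Hs]
  · rintro _ ⟨x, rfl⟩
    rw [← map_pow, pow_p hp, map_one]

end Cfsg.Agent.H1.Heis
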