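import Cfsg.Agent.H29.XS4
import Mathlib

set_option autoImplicit false
set_option linter.all false

namespace Cfsg.Agent.H1.ExC

open Cfsg Matrix Cfsg.Agent.H29

abbrev F2 := ZMod 2

lemma f2_add : ∀ x : F2, x + x = 0 := by decide
lemma f2_or : ∀ x : F2, x = 0 ∨ x = 1 := by decide
lemma f2_ne : ∀ x : F2, x ≠ 0 → x = 1 := by decide

/-- no normal 2-subgroup in `GL_n(2)` -/
theorem gl_core {n : ℕ} (N : Subgroup (GL (Fin n) F2)) [N.Normal] (hN : IsPGroup 2 N) : N = ⊥ := by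
  haveI : Fact (Nat.Prime 2) := ⟨Nat.prime_two⟩
  letI : MulAction N (Fin n → F2) :=
    { smul := fun g v => (g : GL (Fin n) F2).val *ᵥ v
      one_smul := fun v => Matrix.one_mulVec v
      mul_smul := fun g h v => (Matrix.mulVec_mulVec v _ _).symm }
  have hsm : ∀ (g : N) (v : Fin n → F2), g • v = (g : GL (Fin n) F2).val *ᵥ v := fun _ _ => rfl
  rcases Nat.eq_zero_or_pos n with rfl | hn
  · rw [eq_bot_iff]
    intro x _
    rw [Subgroup.mem_bot]
    apply Units.ext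
    exact Subsingleton.elim _ _
  have h1 := hN.card_modEq_card_fixedPoints (Fin n → F2)
  have h2 : 2 ∣ Nat.card (Fin n → F2) := by
    rw [Nat.card_fun, Nat.card_zmod, Nat.card_fin]
    exact dvd_pow_self 2 hn.ne'
  have h3 : 2 ∣ Nat.card (MulAction.fixedPoints N (Fin n → F2)) := (Nat.modEq_zero_iff_dvd.1 (h1.symm.trans (Nat.modEq_zero_iff_dvd.2 h2)))
  have h0 : (0 : Fin n → F2) ∈ MulAction.fixedPoints N (Fin n → F2) := fun g => by rw [hsm, Matrix.mulVec_zero]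
  obtain ⟨v, hv, hv0⟩ : ∃ v ∈ MulAction.fixedPoints N (Fin n → F2), v ≠ 0 := by
    haveI : Nonempty (MulAction.fixedPoints N (Fin n → F2)) := ⟨⟨0, h0⟩⟩
    have h4 : 1 < Nat.card (MulAction.fixedPoints N (Fin n → F2)) := by
      have := Nat.le_of_dvd Nat.card_pos h3
      omega
    haveI := Finite.one_lt_card_iff_nontrivial.1 h4
    obtain ⟨w, hw⟩ := exists_ne (⟨0, h0⟩ : MulAction.fixedPoints N (Fin n → F2))
    exact ⟨w.1, w.2, fun h => hw (Subtype.ext h)⟩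
  -- the fixed space is invariant
  have hfix : ∀ w, w ∈ MulAction.fixedPoints N (Fin n → F2) ↔ ∀ g ∈ N, (g : GL (Fin n) F2).val *ᵥ w = w :=
    fun w => ⟨fun h g hg => h ⟨g, hg⟩, fun h g => h g.1 g.2⟩
  rw [hfix] at hv
  have hinv : ∀ (x : GL (Fin n) F2) (w : Fin n → F2), (∀ g ∈ N, (g : GL (Fin n) F2).val *ᵥ w = w) → ∀ g ∈ N, (g : GL (Fin n) F2).val *ᵥ (x.val *ᵥ w) = x.val *ᵥ w := by
    intro x w hw g hg
    have h5 := hw (x⁻¹ * g * x) (by
      have := (inferInstance : N.Normal).conj_mem g hg x⁻¹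
      rwa [inv_inv] at this)
    have h6 := congrArg (fun u => x.val *ᵥ u) h5
    simp only [Matrix.mulVec_mulVec, ← Units.val_mul] at h6
    rw [Matrix.mulVec_mulVec, ← Units.val_mul]
    have h7 : x * (x⁻¹ * g * x) = g * x := by group
    rw [h7] at h6
    exact h6
  obtain ⟨j, hj⟩ : ∃ j, v j ≠ 0 := by
    by_contra hcon
    push Not at hcon
    exact hv0 (funext hcon)
  have hj1 := f2_ne _ hj
  have hi : ∀ i, i ≠ j → ∀ g ∈ N, (g : GL (Fin n) F2).val *ᵥ (Pi.single i 1) = Pi.single i 1 := by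
    intro i hij g hg
    let x : GL (Fin n) F2 := Matrix.SpecialLinearGroup.toGL ⟨Matrix.transvection i j 1, Matrix.det_transvection_of_ne i j hij 1⟩
    have hx : x.val *ᵥ v = v + Pi.single i 1 := by
      show Matrix.transvection i j 1 *ᵥ v = _
      unfold Matrix.transvection
      rw [Matrix.add_mulVec, Matrix.one_mulVec]
      congr 1
      funext k
      by_cases hk : k = i
      · subst hk
        simp [Matrix.mulVec, dotProduct, Matrix.single_apply, hj1]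
      · simp [Matrix.mulVec, dotProduct, Matrix.single_apply, hk, Ne.symm hk]
    have h8 := hinv x v hv g hg
    rw [hx, Matrix.mulVec_add, hv g hg] at h8
    exact add_left_cancel h8
  have hall : ∀ w, (w j = 0) → ∀ g ∈ N, (g : GL (Fin n) F2).val *ᵥ w = w := by
    intro w hw g hg
    have h9 : w = ∑ i, w i • (Pi.single i 1 : Fin n → F2) := by
      funext k
      simp [Finset.sum_apply, Pi.single_apply]
    rw [h9, Matrix.mulVec_sum]
    apply Finset.sum_congr rfl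
    intro i _
    rw [Matrix.mulVec_smul]
    by_cases hij : i = j
    · rw [hij, hw, zero_smul, zero_smul]
    · rw [hi i hij g hg]
  rw [eq_bot_iff]
  intro g hg
  rw [Subgroup.mem_bot]
  apply Units.ext
  apply Matrix.mulVec_injective
  funext w
  show g.val *ᵥ w = (1 : Matrix (Fin n) (Fin n) F2) *ᵥ w
  rw [Matrix.one_mulVec]
  rcases f2_or (w j) with h | h
  · exact hall w h g hg
  · have h10 := hall (w + v) (by rw [Pi.add_apply, h, hj1]; rfl) g hg
    rw [Matrix.mulVec_add, hv g hg] at h10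
    exact add_right_cancel h10

@[ext] structure Gm (n : ℕ) where
  a : Fin n → F2
  b : Fin n → F2
  c : F2
  h : GL (Fin n) F2

variable {n : ℕ}

instance : Mul (Gm n) := ⟨fun x y => ⟨y.a + x.a ᵥ* y.h.val, x.b + x.h.val *ᵥ y.b, x.c + y.c + x.a ⬝ᵥ y.b, x.h * y.h⟩⟩
instance : One (Gm n) := ⟨⟨0, 0, 0, 1⟩⟩
instance : Inv (Gm n) := ⟨fun x => ⟨-(x.a ᵥ* (x.h⁻¹).val), -((x.h⁻¹).val *ᵥ x.b), -x.c + (x.a ᵥ* (x.h⁻¹).val) ⬝ᵥ x.b, x.h⁻¹⟩⟩

lemma mul_a (x y : Gm n) : (x * y).a = y.a + x.a ᵥ* y.h.val := rfl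
lemma mul_b (x y : Gm n) : (x * y).b = x.b + x.h.val *ᵥ y.b := rfl
lemma mul_c (x y : Gm n) : (x * y).c = x.c + y.c + x.a ⬝ᵥ y.b := rfl
lemma mul_h (x y : Gm n) : (x * y).h = x.h * y.h := rfl
lemma one_a : (1 : Gm n).a = 0 := rfl
lemma one_b : (1 : Gm n).b = 0 := rfl
lemma one_c : (1 : Gm n).c = 0 := rfl
lemma one_h : (1 : Gm n).h = 1 := rfl

instance : Group (Gm n) := Group.ofLeftAxioms
  (by
    intro x y z
    apply Gm.ext
    · simp only [mul_a, mul_h, Matrix.add_vecMul, Matrix.vecMul_vecMul, Units.val_mul, add_assoc]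
    · simp only [mul_b, mul_h, Matrix.mulVec_add, Matrix.mulVec_mulVec, Units.val_mul, add_assoc]
    · simp only [mul_a, mul_b, mul_c, add_dotProduct, dotProduct_add, Matrix.dotProduct_mulVec]; ring
    · simp only [mul_h, mul_assoc])
  (by
    intro x
    apply Gm.ext
    · simp only [mul_a, one_a, Matrix.zero_vecMul, add_zero]
    · simp only [mul_b, one_b, one_h, Units.val_one, Matrix.one_mulVec, zero_add]
    · simp only [mul_c, one_c, one_a, zero_dotProduct, zero_add, add_zero]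
    · simp only [mul_h, one_h, one_mul])
  (by
    intro x
    apply Gm.ext
    · show x.a + (-(x.a ᵥ* (x.h⁻¹).val)) ᵥ* x.h.val = 0
      rw [Matrix.neg_vecMul, Matrix.vecMul_vecMul, ← Units.val_mul, inv_mul_cancel, Units.val_one, Matrix.vecMul_one, add_neg_cancel]
    · show -((x.h⁻¹).val *ᵥ x.b) + (x.h⁻¹).val *ᵥ x.b = 0
      rw [neg_add_cancel]
    · show (-x.c + (x.a ᵥ* (x.h⁻¹).val) ⬝ᵥ x.b) + x.c + (-(x.a ᵥ* (x.h⁻¹).val)) ⬝ᵥ x.b = 0
      rw [neg_dotProduct]; ring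
    · show x.h⁻¹ * x.h = 1
      rw [inv_mul_cancel])

def pr (n : ℕ) : Gm n →* GL (Fin n) F2 where
  toFun := Gm.h
  map_one' := rfl
  map_mul' _ _ := rfl

abbrev Qg (n : ℕ) : Subgroup (Gm n) := (pr n).ker

lemma mem_Qg {x : Gm n} : x ∈ Qg n ↔ x.h = 1 := Iff.rfl

def zg : Gm n := ⟨0, 0, 1, 1⟩

lemma inv_h (x : Gm n) : (x⁻¹).h = x.h⁻¹ := rfl

def gEq (n : ℕ) : Gm n ≃ ((Fin n → F2) × (Fin n → F2) × F2) × GL (Fin n) F2 where
  toFun x := ((x.a, x.b, x.c), x.h)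
  invFun y := ⟨y.1.1, y.1.2.1, y.1.2.2, y.2⟩
  left_inv _ := rfl
  right_inv _ := rfl

instance : Finite (Gm n) := Finite.of_equiv _ (gEq n).symm

def qEq (n : ℕ) : Qg n ≃ ((Fin n → F2) × (Fin n → F2) × F2) where
  toFun x := (x.1.a, x.1.b, x.1.c)
  invFun y := ⟨⟨y.1, y.2.1, y.2.2, 1⟩, rfl⟩
  left_inv x := by
    apply Subtype.ext
    exact Gm.ext rfl rfl rfl (mem_Qg.1 x.2).symm
  right_inv _ := rfl

lemma card_Qg : Nat.card (Qg n) = 2 ^ (2 * n + 1) := by
  rw [Nat.card_congr (qEq n), Nat.card_prod, Nat.card_prod, Nat.card_fun, Nat.card_zmod, Nat.card_fin]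
  ring

/-- products of elements of `Q` -/
lemma q_mul {x y : Gm n} (hx : x.h = 1) (hy : y.h = 1) : x * y = ⟨x.a + y.a, x.b + y.b, x.c + y.c + x.a ⬝ᵥ y.b, 1⟩ := by
  apply Gm.ext
  · rw [mul_a, hy, Units.val_one, Matrix.vecMul_one, add_comm]
  · rw [mul_b, hx, Units.val_one, Matrix.one_mulVec]
  · rw [mul_c]
  · rw [mul_h, hx, hy, mul_one]

lemma v2 (v : Fin n → F2) : v + v = 0 := funext fun i => f2_add _

/-- an element centralising `Q` is central in `Q` -/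
lemma cent_Q {x : Gm n} (hx : ∀ y ∈ Qg n, x * y = y * x) : x = 1 ∨ x = zg := by
  have hb : ∀ b : Fin n → F2, x.h.val *ᵥ b = b ∧ x.a ⬝ᵥ b = 0 := by
    intro b
    have h1 := hx ⟨0, b, 0, 1⟩ rfl
    have h2 := congrArg Gm.b h1
    have h3 := congrArg Gm.c h1
    rw [mul_b, mul_b] at h2
    rw [mul_c, mul_c] at h3
    constructor
    · have : x.b + x.h.val *ᵥ b = b + (1 : Matrix (Fin n) (Fin n) F2) *ᵥ x.b := h2
      rw [Matrix.one_mulVec, add_comm b] at this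
      exact add_left_cancel this
    · have : x.c + 0 + x.a ⬝ᵥ b = 0 + x.c + 0 ⬝ᵥ x.b := h3
      rw [zero_dotProduct, add_zero, zero_add, add_zero] at this
      exact add_eq_left.1 this
  have hh : x.h = 1 := by
    apply Units.ext
    apply Matrix.mulVec_injective
    funext b
    show x.h.val *ᵥ b = (1 : Matrix (Fin n) (Fin n) F2) *ᵥ b
    rw [Matrix.one_mulVec]; exact (hb b).1
  have ha : x.a = 0 := by
    funext i
    have := (hb (Pi.single i 1)).2
    rwa [dotProduct_single, mul_one] at this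
  have hbb : x.b = 0 := by
    funext i
    have h1 := hx ⟨Pi.single i 1, 0, 0, 1⟩ rfl
    have h3 := congrArg Gm.c h1
    rw [mul_c, mul_c] at h3
    have : x.c + 0 + x.a ⬝ᵥ 0 = 0 + x.c + (Pi.single i 1 : Fin n → F2) ⬝ᵥ x.b := h3
    rw [dotProduct_zero, add_zero, add_zero, zero_add, single_dotProduct, one_mul] at this
    exact left_eq_add.1 this
  rcases f2_or x.c with h | h
  · left; exact Gm.ext ha hbb h hh
  · right; exact Gm.ext ha hbb h hh

lemma zg_comm (x : Gm n) : x * zg = zg * x := by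
  apply Gm.ext
  · rw [mul_a, mul_a]
    show 0 + x.a ᵥ* (1 : Matrix (Fin n) (Fin n) F2) = x.a + 0 ᵥ* x.h.val
    rw [Matrix.vecMul_one, Matrix.zero_vecMul, zero_add, add_zero]
  · rw [mul_b, mul_b]
    show x.b + x.h.val *ᵥ 0 = 0 + (1 : Matrix (Fin n) (Fin n) F2) *ᵥ x.b
    rw [Matrix.one_mulVec, Matrix.mulVec_zero, zero_add, add_zero]
  · rw [mul_c, mul_c]
    show x.c + 1 + x.a ⬝ᵥ 0 = 1 + x.c + 0 ⬝ᵥ x.b
    rw [zero_dotProduct, dotProduct_zero]; ring
  · show x.h * 1 = 1 * x.h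
    rw [mul_one, one_mul]

theorem xsQ (hn : 1 ≤ n) : XS (Qg n) (zg : Gm n) := by
  apply XS.mk'
  · exact IsPGroup.of_card (n := 2 * n + 1) card_Qg
  · intro h
    have := congrArg Gm.c h
    exact absurd this (by decide : ¬ ((1 : F2) = 0))
  · rw [q_mul rfl rfl]
    apply Gm.ext
    · exact v2 0
    · exact v2 0
    · show (1 : F2) + 1 + (0 : Fin n → F2) ⬝ᵥ 0 = 0
      rw [zero_dotProduct]; decide
    · rfl
  · rfl
  · intro x _; exact zg_comm x
  · intro x _ hx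
    exact cent_Q hx
  · intro x hx y hy
    rw [q_mul hx hy, q_mul hy hx, q_mul rfl rfl]
    rcases f2_or (x.c + y.c + x.a ⬝ᵥ y.b + (y.c + x.c + y.a ⬝ᵥ x.b)) with h | h
    · left
      apply Gm.ext
      · exact add_comm _ _
      · exact add_comm _ _
      · show x.c + y.c + x.a ⬝ᵥ y.b = y.c + x.c + y.a ⬝ᵥ x.b
        have := f2_add (y.c + x.c + y.a ⬝ᵥ x.b)
        exact add_right_cancel (h.trans this.symm)
      · rfl
    · right
      apply Gm.ext
      · show x.a + y.a = 0 + (y.a + x.a)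
        rw [zero_add, add_comm]
      · show x.b + y.b = 0 + (y.b + x.b)
        rw [zero_add, add_comm]
      · show x.c + y.c + x.a ⬝ᵥ y.b = 1 + (y.c + x.c + y.a ⬝ᵥ x.b) + 0 ⬝ᵥ (y.b + x.b)
        rw [zero_dotProduct, add_zero]
        have := f2_add (y.c + x.c + y.a ⬝ᵥ x.b)
        linear_combination h - this
      · rfl
  · intro x hx
    rw [q_mul hx hx]
    rcases f2_or (x.c + x.c + x.a ⬝ᵥ x.b) with h | h
    · left; exact Gm.ext (v2 _) (v2 _) h rfl
    · right; exact Gm.ext (v2 _) (v2 _) h rfl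
  · refine ⟨⟨Pi.single ⟨0, hn⟩ 1, 0, 0, 1⟩, rfl, ⟨0, Pi.single ⟨0, hn⟩ 1, 0, 1⟩, rfl, ?_⟩
    rw [q_mul rfl rfl, q_mul rfl rfl]
    intro h
    have := congrArg Gm.c h
    simp at this

/-- the complement -/
def inK (n : ℕ) : GL (Fin n) F2 →* Gm n where
  toFun h := ⟨0, 0, 0, h⟩
  map_one' := rfl
  map_mul' x y := by
    apply Gm.ext
    · show (0 : Fin n → F2) = 0 + 0 ᵥ* y.val
      rw [Matrix.zero_vecMul, add_zero]
    · show (0 : Fin n → F2) = 0 + x.val *ᵥ 0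
      rw [Matrix.mulVec_zero, add_zero]
    · show (0 : F2) = 0 + 0 + 0 ⬝ᵥ 0
      rw [zero_dotProduct]; rfl
    · rfl

lemma inK_inj : Function.Injective (inK n) := fun x y h => congrArg Gm.h h

lemma QK_inf : Qg n ⊓ (inK n).range = ⊥ := by
  rw [eq_bot_iff]
  rintro x ⟨hx, h, rfl⟩
  have : h = 1 := hx
  rw [Subgroup.mem_bot, this, map_one]

lemma QK_sup : Qg n ⊔ (inK n).range = ⊤ := by
  rw [eq_top_iff]
  intro x _
  have h1 : x * (inK n x.h)⁻¹ ∈ Qg n := by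
    rw [mem_Qg, mul_h, inv_h]
    show x.h * x.h⁻¹ = 1
    rw [mul_inv_cancel]
  have h2 : x = (x * (inK n x.h)⁻¹) * inK n x.h := by group
  rw [h2]
  exact Subgroup.mul_mem_sup h1 ⟨_, rfl⟩

/-- `O_2` -/
theorem core_eq : pCore 2 (Gm n) = Qg n := by
  haveI : Fact (Nat.Prime 2) := ⟨Nat.prime_two⟩
  apply le_antisymm
  · apply sSup_le
    rintro N ⟨hN, hNp⟩
    haveI : N.Normal := hN
    haveI : (N.map (pr n)).Normal := Subgroup.Normal.map hN _ (fun h => ⟨inK n h, rfl⟩)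
    have h1 := gl_core (N.map (pr n)) (hNp.map _)
    intro x hx
    have h2 : pr n x ∈ N.map (pr n) := ⟨x, hx, rfl⟩
    rw [h1, Subgroup.mem_bot] at h2
    exact h2
  · exact le_sSup ⟨inferInstance, IsPGroup.of_card (n := 2 * n + 1) card_Qg⟩

/-- an elementary abelian subgroup -/
def Eg (n : ℕ) : Subgroup (Gm n) where
  carrier := {x | x.h = 1 ∧ x.b = 0}
  one_mem' := ⟨rfl, rfl⟩
  mul_mem' := by
    rintro x y ⟨h1, h2⟩ ⟨h3, h4⟩
    refine ⟨?_, ?_⟩
    · show x.h * y.h = 1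
      rw [h1, h3, mul_one]
    · show x.b + x.h.val *ᵥ y.b = 0
      rw [h2, h4, Matrix.mulVec_zero, add_zero]
  inv_mem' := by
    rintro x ⟨h1, h2⟩
    refine ⟨?_, ?_⟩
    · show x.h⁻¹ = 1
      rw [h1, inv_one]
    · show -((x.h⁻¹).val *ᵥ x.b) = 0
      rw [h2, Matrix.mulVec_zero, neg_zero]

def eEq (n : ℕ) : Eg n ≃ ((Fin n → F2) × F2) where
  toFun x := (x.1.a, x.1.c)
  invFun y := ⟨⟨y.1, 0, y.2, 1⟩, rfl, rfl⟩
  left_inv x := by
    apply Subtype.ext
    exact Gm.ext rfl x.2.2.symm rfl x.2.1.symm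
  right_inv _ := rfl

lemma card_Eg : Nat.card (Eg n) = 2 ^ (n + 1) := by
  rw [Nat.card_congr (eEq n), Nat.card_prod, Nat.card_fun, Nat.card_zmod, Nat.card_fin]
  ring

lemma Eg_le : Eg n ≤ Qg n := fun x hx => hx.1

lemma Eg_el : (∀ x ∈ Eg n, ∀ y ∈ Eg n, x * y = y * x) ∧ ∀ x ∈ Eg n, x ^ 2 = 1 := by
  constructor
  · rintro x ⟨h1, h2⟩ y ⟨h3, h4⟩
    rw [q_mul h1 h3, q_mul h3 h1, h2, h4, dotProduct_zero, dotProduct_zero, add_comm x.a, add_comm x.c]
  · rintro x ⟨h1, h2⟩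
    rw [sq, q_mul h1 h1, h2, dotProduct_zero]
    exact Gm.ext (v2 _) (v2 _) (by show x.c + x.c + 0 = 0; rw [f2_add, add_zero]) rfl

end Cfsg.Agent.H1.ExC
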