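import Cfsg.Agent.H1.ExC
import Cfsg.Agent.H18.PCore
import Cfsg.Prelude.Def_MonsterType

set_option autoImplicit false
set_option linter.all false

namespace Cfsg.Agent.H1.ExC

open Cfsg Matrix Cfsg.Agent.H29

lemma core_map {A B : Type*} [Group A] [Group B] (f : A ≃* B) : (pCore 2 A).map f.toMonoidHom = pCore 2 B := by
  apply le_antisymm
  · exact Cfsg.Agent.H18.le_pCore (Subgroup.Normal.map inferInstance _ f.surjective) ((Cfsg.Agent.H18.isPGroup_pCore 2 A).map _)
  · intro x hx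
    refine ⟨f.symm x, ?_, f.apply_symm_apply x⟩
    have h1 : (pCore 2 B).map f.symm.toMonoidHom ≤ pCore 2 A :=
      Cfsg.Agent.H18.le_pCore (Subgroup.Normal.map inferInstance _ f.symm.surjective) ((Cfsg.Agent.H18.isPGroup_pCore 2 B).map _)
    exact h1 ⟨x, hx, rfl⟩

structure Conc {G : Type*} [Group G] (n : ℕ) (z : G) (Q : Subgroup G) : Prop where
  xs : XS Q z
  card : Nat.card Q = 2 ^ (2 * n + 1)
  el : ∃ E : Subgroup G, E ≤ Q ∧ Cfsg.IsElementaryAbelian 2 E ∧ Nat.card ↥E = 2 ^ (n + 1)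
  cen : Subgroup.centralizer (Q : Set G) = (Subgroup.center Q).map Q.subtype
  nor : Subgroup.centralizer (((Subgroup.center Q).map Q.subtype : Subgroup G) : Set G) ≤ Subgroup.normalizer (Q : Set G)
  comp : ∃ K : Subgroup G, K ≤ Subgroup.centralizer ({z} : Set G) ∧ Q ⊓ K = ⊥ ∧ Q ⊔ K = Subgroup.centralizer ({z} : Set G) ∧ Nonempty (↥K ≃* GL (Fin n) F2)
  odd : ∀ K : Subgroup G, Odd (Nat.card K) → Q ≤ Subgroup.normalizer (K : Set G) → ∀ x ∈ K, x * z = z * x → x = 1

theorem transfer {G : Type*} [Group G] [Finite G] {z : G} {n : ℕ} (hn : 1 ≤ n)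
    (θ : Gm n →* G) (hθ : Function.Injective θ) (hr : θ.range = Subgroup.centralizer ({z} : Set G)) (hz : θ zg = z)
    (Q : Subgroup G) (hQ : Q = (Cfsg.pCore 2 ↥(Subgroup.centralizer ({z} : Set G))).map (Subgroup.centralizer ({z} : Set G)).subtype) :
    Conc n z Q := by
  have hQ' : Q = (Qg n).map θ := by
    let e : Gm n ≃* Subgroup.centralizer ({z} : Set G) := (MonoidHom.ofInjective hθ).trans (MulEquiv.subgroupCongr hr)
    have he : ∀ x, ((e x : Subgroup.centralizer ({z} : Set G)) : G) = θ x := fun x => rfl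
    rw [hQ, ← core_map e, core_eq, Subgroup.map_map]
    rfl
  have hx := xsQ hn
  have hmem : ∀ q, q ∈ Q ↔ ∃ x ∈ Qg n, θ x = q := by intro q; rw [hQ']; rfl
  have hC : ∀ g : G, g * z = z * g → ∃ x, θ x = g := by
    intro g hg
    have : g ∈ θ.range := by rw [hr, Subgroup.mem_centralizer_singleton_iff]; exact hg
    exact this
  have hθc : ∀ x, θ x * z = z * θ x := by
    intro x
    have : θ x ∈ Subgroup.centralizer ({z} : Set G) := by rw [← hr]; exact ⟨x, rfl⟩
    exact Subgroup.mem_centralizer_singleton_iff.1 this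
  have hz1 : z ≠ 1 := by
    intro h
    rw [← hz, ← map_one θ] at h
    exact hx.z_ne (hθ h)
  have hzz : z * z = 1 := by rw [← hz, ← map_mul, hx.z_sq, map_one]
  have hcard : Nat.card Q = 2 ^ (2 * n + 1) := by
    rw [hQ', Subgroup.card_map_of_injective hθ, card_Qg]
  have hcent : ∀ g : G, (∀ q ∈ Q, g * q = q * g) → g = 1 ∨ g = z := by
    intro g hg
    obtain ⟨x, rfl⟩ := hC g (hg z ((hmem z).2 ⟨zg, hx.z_mem, hz⟩))
    have h1 : x = 1 ∨ x = zg := cent_Q (fun y hy => by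
      apply hθ
      rw [map_mul, map_mul]
      exact hg _ ((hmem _).2 ⟨y, hy, rfl⟩))
    rcases h1 with rfl | rfl
    · left; exact map_one θ
    · right; exact hz
  have X : XS Q z := by
    apply XS.mk'
    · exact IsPGroup.of_card hcard
    · exact hz1
    · exact hzz
    · exact (hmem z).2 ⟨zg, hx.z_mem, hz⟩
    · intro q hq
      obtain ⟨x, -, rfl⟩ := (hmem q).1 hq
      exact hθc x
    · intro q hq hc
      exact hcent q hc
    · intro q hq r hr'
      obtain ⟨x, hx1, rfl⟩ := (hmem q).1 hq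
      obtain ⟨y, hy1, rfl⟩ := (hmem r).1 hr'
      rcases hx.comm x hx1 y hy1 with h | h
      · left; rw [← map_mul, h, map_mul]
      · right; rw [← map_mul, h, map_mul, map_mul, hz]
    · intro q hq
      obtain ⟨x, hx1, rfl⟩ := (hmem q).1 hq
      rcases hx.sq x hx1 with h | h
      · left; rw [← map_mul, h, map_one]
      · right; rw [← map_mul, h, hz]
    · obtain ⟨x, hx1, y, hy1, h⟩ := hx.nonab
      refine ⟨θ x, (hmem _).2 ⟨x, hx1, rfl⟩, θ y, (hmem _).2 ⟨y, hy1, rfl⟩, fun h1 => h ?_⟩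
      apply hθ
      rw [map_mul, map_mul, h1]
  have hnorm : ∀ x : Gm n, ∀ q ∈ Q, θ x * q * (θ x)⁻¹ ∈ Q := by
    intro x q hq
    obtain ⟨y, hy, rfl⟩ := (hmem q).1 hq
    rw [← map_mul, ← map_inv, ← map_mul]
    exact (hmem _).2 ⟨_, (inferInstance : (Qg n).Normal).conj_mem y hy x, rfl⟩
  have hnor : ∀ g : G, g * z = z * g → g ∈ Subgroup.normalizer (Q : Set G) := by
    intro g hg
    obtain ⟨x, rfl⟩ := hC g hg
    rw [Subgroup.mem_normalizer_iff]
    intro q
    constructor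
    · intro hq; exact hnorm x q hq
    · intro hq
      have h1 := hnorm x⁻¹ _ hq
      have h2 : θ x⁻¹ * (θ x * q * (θ x)⁻¹) * (θ x⁻¹)⁻¹ = q := by rw [map_inv]; group
      rwa [h2] at h1
  refine ⟨X, hcard, ?_, ?_, ?_, ?_, ?_⟩
  · refine ⟨(Eg n).map θ, ?_, ⟨⟨⟨?_⟩⟩, ?_⟩, ?_⟩
    · rw [hQ']; exact Subgroup.map_mono Eg_le
    · rintro ⟨_, x, hx1, rfl⟩ ⟨_, y, hy1, rfl⟩
      apply Subtype.ext
      show θ x * θ y = θ y * θ x
      rw [← map_mul, ← map_mul, Eg_el.1 x hx1 y hy1]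
    · rintro _ ⟨x, hx1, rfl⟩
      rw [← map_pow, Eg_el.2 x hx1, map_one]
    · rw [Subgroup.card_map_of_injective hθ, card_Eg]
  · rw [X.center_eq]
    apply le_antisymm
    · intro g hg
      rw [mem_zpowers_of_sq hzz]
      apply hcent
      intro q hq
      exact (Subgroup.mem_centralizer_iff.1 hg q hq).symm
    · rw [Subgroup.zpowers_le, Subgroup.mem_centralizer_iff]
      intro q hq
      exact X.z_comm q hq
  · rw [X.center_eq]
    intro g hg
    apply hnor
    exact (Subgroup.mem_centralizer_iff.1 hg z (Subgroup.mem_zpowers z)).symm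
  · refine ⟨(inK n).range.map θ, ?_, ?_, ?_, ?_⟩
    · rw [← hr]; rintro _ ⟨x, -, rfl⟩; exact ⟨x, rfl⟩
    · rw [hQ', ← Subgroup.map_inf _ _ _ hθ, QK_inf, Subgroup.map_bot]
    · rw [hQ', ← Subgroup.map_sup, QK_sup, ← hr, MonoidHom.range_eq_map]
    · exact ⟨((MonoidHom.ofInjective (inK_inj (n := n))).trans ((inK n).range.equivMapOfInjective θ hθ)).symm⟩
  · intro K hK hQK x hxK hxz
    have hdis : ∀ g, g ∈ K → g ∈ Q → g = 1 := by
      intro g h1 h2
      have h3 : orderOf g ∣ Nat.card K := Subgroup.orderOf_dvd_natCard _ h1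
      have h4 : orderOf g ∣ 2 ^ (2 * n + 1) := by rw [← hcard]; exact Subgroup.orderOf_dvd_natCard _ h2
      have h5 : Nat.Coprime (Nat.card K) (2 ^ (2 * n + 1)) := (Nat.Coprime.pow_right _ hK.coprime_two_right)
      exact orderOf_eq_one_iff.1 (Nat.dvd_one.1 (h5 ▸ Nat.dvd_gcd h3 h4))
    have h1 : ∀ q ∈ Q, x * q = q * x := by
      intro q hq
      have h2 : q * x⁻¹ * q⁻¹ ∈ K := (Subgroup.mem_normalizer_iff.1 (hQK hq) _).1 (inv_mem hxK)
      have h3 : x * q * x⁻¹ * q⁻¹ ∈ K := by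
        have : x * q * x⁻¹ * q⁻¹ = x * (q * x⁻¹ * q⁻¹) := by group
        rw [this]; exact mul_mem hxK h2
      have h4 : x * q * x⁻¹ * q⁻¹ ∈ Q := mul_mem ((Subgroup.mem_normalizer_iff.1 (hnor x hxz) q).1 hq) (inv_mem hq)
      have h5 := hdis _ h3 h4
      rw [mul_inv_eq_one, mul_inv_eq_iff_eq_mul] at h5
      exact h5
    rcases hcent x h1 with h | h
    · exact h
    · exact hdis x hxK (by rw [h]; exact X.z_mem)

end Cfsg.Agent.H1.ExC
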