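import Cfsg.Agent.H1.ExD

set_option autoImplicit false
set_option linter.all false

namespace Cfsg.Agent.H1.ExC

open Cfsg Matrix Cfsg.Agent.H29

variable {n : ℕ}

lemma ind2 {P : Fin (n + 2) → Prop} (h0 : P 0) (h1 : P 1) (h2 : ∀ i : Fin n, P i.succ.succ) (i : Fin (n + 2)) : P i :=
  Fin.cases h0 (fun j => Fin.cases h1 h2 j) i

lemma sum2 {M : Type*} [AddCommMonoid M] (f : Fin (n + 2) → M) : ∑ i, f i = f 0 + (f 1 + ∑ i : Fin n, f i.succ.succ) := by
  rw [Fin.sum_univ_succ, Fin.sum_univ_succ]; rfl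

def Mm (x : Gm n) : Matrix (Fin (n + 2)) (Fin (n + 2)) F2 := fun i j =>
  Fin.cases (Fin.cases 1 (fun j => Fin.cases x.c x.a j) j)
    (fun i => Fin.cases (Fin.cases 0 (fun j => Fin.cases 1 (fun _ => 0) j) j)
      (fun i => Fin.cases 0 (fun j => Fin.cases (x.b i) (fun j => x.h.val i j) j) j) i) i

lemma M00 (x : Gm n) : Mm x 0 0 = 1 := rfl
lemma M01 (x : Gm n) : Mm x 0 1 = x.c := rfl
lemma M0s (x : Gm n) (j : Fin n) : Mm x 0 j.succ.succ = x.a j := rfl
lemma M10 (x : Gm n) : Mm x 1 0 = 0 := rfl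
lemma M11 (x : Gm n) : Mm x 1 1 = 1 := rfl
lemma M1s (x : Gm n) (j : Fin n) : Mm x 1 j.succ.succ = 0 := rfl
lemma Ms0 (x : Gm n) (i : Fin n) : Mm x i.succ.succ 0 = 0 := rfl
lemma Ms1 (x : Gm n) (i : Fin n) : Mm x i.succ.succ 1 = x.b i := rfl
lemma Mss (x : Gm n) (i j : Fin n) : Mm x i.succ.succ j.succ.succ = x.h.val i j := rfl

lemma ext2 {A B : Matrix (Fin (n + 2)) (Fin (n + 2)) F2} (h00 : A 0 0 = B 0 0) (h01 : A 0 1 = B 0 1) (h0s : ∀ j : Fin n, A 0 j.succ.succ = B 0 j.succ.succ)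
    (h10 : A 1 0 = B 1 0) (h11 : A 1 1 = B 1 1) (h1s : ∀ j : Fin n, A 1 j.succ.succ = B 1 j.succ.succ)
    (hs0 : ∀ i : Fin n, A i.succ.succ 0 = B i.succ.succ 0) (hs1 : ∀ i : Fin n, A i.succ.succ 1 = B i.succ.succ 1)
    (hss : ∀ i j : Fin n, A i.succ.succ j.succ.succ = B i.succ.succ j.succ.succ) : A = B := by
  ext i j
  revert i
  refine ind2 ?_ ?_ ?_
  · revert j; exact ind2 h00 h01 h0s
  · revert j; exact ind2 h10 h11 h1s
  · intro i; revert j; exact ind2 (hs0 i) (hs1 i) (hss i)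

lemma Mm_mul (x y : Gm n) : Mm (x * y) = Mm x * Mm y := by
  apply ext2
  · rw [Matrix.mul_apply, sum2]; simp [M00, M01, M0s, M10, M11, M1s, Ms0, Ms1, Mss]
  · rw [Matrix.mul_apply, sum2]; simp [M00, M01, M0s, M10, M11, M1s, Ms0, Ms1, Mss, mul_c, dotProduct]; ring
  · intro j; rw [Matrix.mul_apply, sum2]; simp [M00, M01, M0s, M10, M11, M1s, Ms0, Ms1, Mss, mul_a, Matrix.vecMul, dotProduct]
  · rw [Matrix.mul_apply, sum2]; simp [M00, M01, M0s, M10, M11, M1s, Ms0, Ms1, Mss]
  · rw [Matrix.mul_apply, sum2]; simp [M00, M01, M0s, M10, M11, M1s, Ms0, Ms1, Mss]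
  · intro j; rw [Matrix.mul_apply, sum2]; simp [M00, M01, M0s, M10, M11, M1s, Ms0, Ms1, Mss]
  · intro i; rw [Matrix.mul_apply, sum2]; simp [M00, M01, M0s, M10, M11, M1s, Ms0, Ms1, Mss]
  · intro i; rw [Matrix.mul_apply, sum2]; simp [M00, M01, M0s, M10, M11, M1s, Ms0, Ms1, Mss, mul_b, Matrix.mulVec, dotProduct]
  · intro i j; rw [Matrix.mul_apply, sum2]; simp [M00, M01, M0s, M10, M11, M1s, Ms0, Ms1, Mss, mul_h, Matrix.mul_apply]

lemma one_ne1 (j : Fin n) : (1 : Fin (n + 2)) ≠ j.succ.succ := by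
  intro h
  have := Fin.succ_injective _ (show Fin.succ 0 = Fin.succ j.succ from h)
  exact (Fin.succ_ne_zero j) this.symm

lemma zero_ne1 : (0 : Fin (n + 2)) ≠ 1 := fun h => (Fin.succ_ne_zero (0 : Fin (n + 1))) h.symm

lemma Mm_one : Mm (1 : Gm n) = 1 := by
  apply ext2
  · rfl
  · rw [Matrix.one_apply_ne zero_ne1]; rfl
  · intro j; rw [Matrix.one_apply_ne (Fin.succ_ne_zero _).symm]; rfl
  · rw [Matrix.one_apply_ne zero_ne1.symm]; rfl
  · rw [Matrix.one_apply_eq]; rfl
  · intro j; rw [Matrix.one_apply_ne (one_ne1 j)]; rfl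
  · intro i; rw [Matrix.one_apply_ne (Fin.succ_ne_zero _)]; rfl
  · intro i; rw [Matrix.one_apply_ne (one_ne1 i).symm]; rfl
  · intro i j
    show (1 : Matrix (Fin n) (Fin n) F2) i j = _
    simp [Matrix.one_apply, Fin.succ_inj]

lemma f2_unit {x y : F2} (h : x * y = 1) : x = 1 := by
  revert x y; decide

lemma Mm_det (x : Gm n) : (Mm x).det = 1 := by
  have h : (Mm x).det * (Mm x⁻¹).det = 1 := by
    rw [← Matrix.det_mul, ← Mm_mul, mul_inv_cancel, Mm_one, Matrix.det_one]
  exact f2_unit h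

def th (n : ℕ) : Gm n →* SpecialLinearGroup (Fin (n + 2)) F2 where
  toFun x := ⟨Mm x, Mm_det x⟩
  map_one' := Subtype.ext Mm_one
  map_mul' x y := Subtype.ext (Mm_mul x y)

lemma th_val (x : Gm n) : (th n x).1 = Mm x := rfl

lemma th_inj : Function.Injective (th n) := by
  intro x y h
  have h1 : Mm x = Mm y := congrArg Subtype.val h
  apply Gm.ext
  · funext j; exact congrFun (congrFun h1 0) j.succ.succ
  · funext i; exact congrFun (congrFun h1 i.succ.succ) 1
  · exact congrFun (congrFun h1 0) 1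
  · apply Units.ext
    ext i j
    exact congrFun (congrFun h1 i.succ.succ) j.succ.succ

lemma th_zg : Mm (zg : Gm n) = Matrix.transvection 0 1 1 := by
  unfold Matrix.transvection
  apply ext2
  · rw [Matrix.add_apply, Matrix.single_apply_of_ne]; rfl
    simp
  · rw [Matrix.add_apply, Matrix.single_apply_same, Matrix.one_apply_ne zero_ne1]; rfl
  · intro j; rw [Matrix.add_apply, Matrix.single_apply_of_ne, Matrix.one_apply_ne (Fin.succ_ne_zero _).symm]; rfl
    simp [one_ne1]
  · rw [Matrix.add_apply, Matrix.single_apply_of_ne, Matrix.one_apply_ne zero_ne1.symm]; rfl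
    simp
  · rw [Matrix.add_apply, Matrix.single_apply_of_ne, Matrix.one_apply_eq]; rfl
    simp
  · intro j; rw [Matrix.add_apply, Matrix.single_apply_of_ne, Matrix.one_apply_ne (one_ne1 j)]; rfl
    simp
  · intro i; rw [Matrix.add_apply, Matrix.single_apply_of_ne, Matrix.one_apply_ne (Fin.succ_ne_zero _)]; rfl
    simp
  · intro i; rw [Matrix.add_apply, Matrix.single_apply_of_ne, Matrix.one_apply_ne (one_ne1 i).symm]; rfl
    simp [(Fin.succ_ne_zero _).symm]
  · intro i j
    rw [Matrix.add_apply, Matrix.single_apply_of_ne, add_zero]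
    · show (1 : Matrix (Fin n) (Fin n) F2) i j = _
      simp [Matrix.one_apply, Fin.succ_inj]
    · simp [(Fin.succ_ne_zero _).symm]

/-- entries of a matrix commuting with `1 + e₀ φ` -/
lemma comm_e0 {m : ℕ} {X : Matrix (Fin m) (Fin m) F2} {a l : Fin m} {φ : Fin m → F2} (hφ : φ l = 1)
    (hc : X * (Matrix.of fun i j => if i = a then φ j else 0) = (Matrix.of fun i j => if i = a then φ j else 0) * X) :
    ∀ j, j ≠ a → X j a = 0 := by
  intro j hj
  have h := congrFun (congrFun hc j) l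
  rw [Matrix.mul_apply, Matrix.mul_apply, Finset.sum_eq_single a, Finset.sum_eq_zero] at h
  · simpa [hφ] using h
  · intro k _
    simp [hj]
  · intro k _ hk
    simp [hk]
  · intro h; exact absurd (Finset.mem_univ a) h

lemma comm_tr {m : ℕ} {a b : Fin m} {X : Matrix (Fin m) (Fin m) F2} (hc : Matrix.transvection a b 1 * X = X * Matrix.transvection a b 1) :
    (∀ k, k ≠ a → X k a = 0) ∧ (∀ l, l ≠ b → X b l = 0) ∧ X a a = X b b := by
  unfold Matrix.transvection at hc
  rw [Matrix.add_mul, Matrix.mul_add, Matrix.one_mul, Matrix.mul_one, add_right_inj] at hc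
  refine ⟨?_, ?_, ?_⟩
  · intro k hk
    have h2 := congrFun (congrFun hc k) b
    rw [Matrix.single_mul_apply_of_ne (h := hk), Matrix.mul_single_apply_same, mul_one] at h2
    exact h2.symm
  · intro l hl
    have h2 := congrFun (congrFun hc a) l
    rw [Matrix.single_mul_apply_same, Matrix.mul_single_apply_of_ne (hbj := hl), one_mul] at h2
    exact h2
  · have h2 := congrFun (congrFun hc a) b
    rw [Matrix.single_mul_apply_same, Matrix.mul_single_apply_same, mul_one, one_mul] at h2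
    exact h2.symm

theorem th_range (z : SpecialLinearGroup (Fin (n + 2)) F2) (hz : z.1 = Matrix.transvection 0 1 1) :
    (th n).range = Subgroup.centralizer ({z} : Set (SpecialLinearGroup (Fin (n + 2)) F2)) := by
  have hz' : z = th n zg := Subtype.ext (hz.trans th_zg.symm)
  apply le_antisymm
  · rintro _ ⟨x, rfl⟩
    rw [Subgroup.mem_centralizer_singleton_iff, hz', ← map_mul, ← map_mul, zg_comm]
  · have key : ∀ g ∈ Subgroup.centralizer ({z} : Set (SpecialLinearGroup (Fin (n + 2)) F2)),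
        (∀ k, k ≠ 0 → g.1 k 0 = 0) ∧ (∀ l, l ≠ 1 → g.1 1 l = 0) ∧ g.1 0 0 = g.1 1 1 := by
      intro g hg
      have h1 := (Subgroup.mem_centralizer_singleton_iff.1 hg)
      apply comm_tr
      rw [← hz]
      exact (congrArg Subtype.val h1).symm
    have hblk : ∀ g h : SpecialLinearGroup (Fin (n + 2)) F2, g ∈ Subgroup.centralizer ({z} : Set (SpecialLinearGroup (Fin (n + 2)) F2)) →
        h ∈ Subgroup.centralizer ({z} : Set (SpecialLinearGroup (Fin (n + 2)) F2)) → g * h = 1 →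
        (Matrix.of fun i j : Fin n => g.1 i.succ.succ j.succ.succ) * (Matrix.of fun i j : Fin n => h.1 i.succ.succ j.succ.succ) = 1 := by
      intro g h hg hh hgh
      ext i j
      have h1 : (g.1 * h.1) i.succ.succ j.succ.succ = (1 : Matrix (Fin (n + 2)) (Fin (n + 2)) F2) i.succ.succ j.succ.succ := by
        have : g.1 * h.1 = 1 := congrArg Subtype.val hgh
        rw [this]
      rw [Matrix.mul_apply, sum2, (key g hg).1 _ (Fin.succ_ne_zero _), zero_mul, zero_add, (key h hh).2.1 _ (one_ne1 j).symm, mul_zero, zero_add] at h1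
      rw [Matrix.mul_apply]
      refine Eq.trans h1 ?_
      simp [Matrix.one_apply, Fin.succ_inj]
    intro g hg
    obtain ⟨k1, k2, k3⟩ := key g hg
    have hg' := inv_mem hg
    have h11 : g.1 1 1 = 1 := by
      rcases f2_or (g.1 1 1) with h | h
      · exfalso
        have h5 : g.1.det = 0 := Matrix.det_eq_zero_of_row_eq_zero 1 (fun l => by
          by_cases hl : l = 1
          · rw [hl, h]
          · exact k2 l hl)
        rw [g.2] at h5
        exact one_ne_zero h5
      · exact h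
    refine ⟨⟨fun j => g.1 0 j.succ.succ, fun i => g.1 i.succ.succ 1, g.1 0 1,
      ⟨Matrix.of fun i j : Fin n => g.1 i.succ.succ j.succ.succ, Matrix.of fun i j : Fin n => (g⁻¹).1 i.succ.succ j.succ.succ,
        hblk g g⁻¹ hg hg' (mul_inv_cancel g), hblk g⁻¹ g hg' hg (inv_mul_cancel g)⟩⟩, ?_⟩
    apply Subtype.ext
    apply ext2
    · show (1 : F2) = g.1 0 0
      rw [k3, h11]
    · rfl
    · intro j; rfl
    · exact (k2 0 zero_ne1).symm
    · exact h11.symm
    · intro j; exact (k2 _ (one_ne1 j).symm).symm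
    · intro i; exact (k1 _ (Fin.succ_ne_zero _)).symm
    · intro i; rfl
    · intro i j; rfl

end Cfsg.Agent.H1.ExC
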