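import Cfsg.Agent.H1.ExE

set_option autoImplicit false
set_option linter.all false

namespace Cfsg.Agent.H1.ExC

open Cfsg Matrix Cfsg.Agent.H29

variable {n : ℕ}

theorem Q_eq {G : Type*} [Group G] {z : G}
    (θ : Gm n →* G) (hθ : Function.Injective θ) (hr : θ.range = Subgroup.centralizer ({z} : Set G))
    (Q : Subgroup G) (hQ : Q = (Cfsg.pCore 2 ↥(Subgroup.centralizer ({z} : Set G))).map (Subgroup.centralizer ({z} : Set G)).subtype) :
    Q = (Qg n).map θ := by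
  let e : Gm n ≃* Subgroup.centralizer ({z} : Set G) := (MonoidHom.ofInjective hθ).trans (MulEquiv.subgroupCongr hr)
  have he : ∀ x, ((e x : Subgroup.centralizer ({z} : Set G)) : G) = θ x := fun x => rfl
  rw [hQ, ← core_map e, core_eq, Subgroup.map_map]
  rfl

theorem inverts {G : Type*} [Group G] [Finite G] {K : Subgroup G} {t : G} (ht : t * t = 1) (htK : t ∈ Subgroup.normalizer (K : Set G))
    (hfix : ∀ x ∈ K, x * t = t * x → x = 1) : ∀ x ∈ K, t * x * t⁻¹ = x⁻¹ := by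
  let φ : K →* K := MonoidHom.mk' (fun x => ⟨t * x * t⁻¹, (Subgroup.mem_normalizer_iff.1 htK x).1 x.2⟩) (by
    intro x y
    apply Subtype.ext
    show t * (x * y) * t⁻¹ = (t * x * t⁻¹) * (t * y * t⁻¹)
    group)
  have h1 : MonoidHom.FixedPointFree φ := by
    intro x hx
    apply Subtype.ext
    apply hfix x x.2
    have h2 : t * x * t⁻¹ = x := congrArg Subtype.val hx
    rw [mul_inv_eq_iff_eq_mul] at h2
    exact h2.symm
  have h2 : Function.Involutive φ := by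
    intro x
    apply Subtype.ext
    show t * (t * x * t⁻¹) * t⁻¹ = x
    have : t⁻¹ = t := inv_eq_of_mul_eq_one_right ht
    rw [this]
    calc t * (t * x * t) * t = (t * t) * x * (t * t) := by group
      _ = x := by rw [ht, one_mul, mul_one]
  intro x hx
  have h3 := congrFun (h1.coe_eq_inv_of_involutive h2) ⟨x, hx⟩
  exact congrArg Subtype.val h3

lemma odd_one {G : Type*} [Group G] [Finite G] {K : Subgroup G} (hK : Odd (Nat.card K)) {w : G} (hw : w ∈ K) (h2 : w * w = 1) : w = 1 := by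
  have h3 : orderOf w ∣ Nat.card K := Subgroup.orderOf_dvd_natCard _ hw
  have h4 : orderOf w ∣ 2 := orderOf_dvd_of_pow_eq_one (by rw [sq]; exact h2)
  have h5 : Nat.Coprime (Nat.card K) 2 := hK.coprime_two_right
  exact orderOf_eq_one_iff.1 (Nat.dvd_one.1 (h5 ▸ Nat.dvd_gcd h3 h4))

lemma Mm_row {x : Gm n} (hh : x.h = 1) (hb : x.b = 0) :
    Mm x = 1 + (Matrix.of fun i j => if i = 0 then (Fin.cases 0 (fun j => Fin.cases x.c x.a j) j : F2) else 0) := by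
  apply ext2
  · rw [Matrix.add_apply, Matrix.one_apply_eq]; rfl
  · rw [Matrix.add_apply, Matrix.one_apply_ne zero_ne1, zero_add]; rfl
  · intro j; rw [Matrix.add_apply, Matrix.one_apply_ne (Fin.succ_ne_zero _).symm, zero_add]; rfl
  · rw [Matrix.add_apply, Matrix.one_apply_ne zero_ne1.symm, zero_add]; simp [M10]
  · rw [Matrix.add_apply, Matrix.one_apply_eq]; simp [M11]
  · intro j; rw [Matrix.add_apply, Matrix.one_apply_ne (one_ne1 j), zero_add]; simp [M1s]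
  · intro i; rw [Matrix.add_apply, Matrix.one_apply_ne (Fin.succ_ne_zero _), zero_add]; simp [Ms0]
  · intro i; rw [Matrix.add_apply, Matrix.one_apply_ne (one_ne1 i).symm, zero_add]; simp [Ms1, hb]
  · intro i j
    rw [Mss, hh]
    simp [Matrix.one_apply, Fin.succ_inj]

lemma col0 {x : Gm n} (hh : x.h = 1) (hb : x.b = 0) {i : Fin n} (ha : x.a i = 1) {g : SpecialLinearGroup (Fin (n + 2)) F2}
    (hg : g * th n x = th n x * g) : ∀ j, j ≠ 0 → g.1 j 0 = 0 := by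
  have h1 : g.1 * Mm x = Mm x * g.1 := congrArg Subtype.val hg
  rw [Mm_row hh hb, Matrix.mul_add, Matrix.add_mul, Matrix.one_mul, Matrix.mul_one, add_right_inj] at h1
  exact comm_e0 (l := i.succ.succ) ha h1

lemma comm_conj {g z : SpecialLinearGroup (Fin (n + 2)) F2} (hz : z.1 = Matrix.transvection 0 1 1) (h1 : g.1 1 0 = 0) (h2 : (g⁻¹).1 1 0 = 0) :
    z * (g * z * g⁻¹) = (g * z * g⁻¹) * z := by
  apply Subtype.ext
  show z.1 * (g.1 * z.1 * (g⁻¹).1) = (g.1 * z.1 * (g⁻¹).1) * z.1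
  have hgg : g.1 * (g⁻¹).1 = 1 := congrArg Subtype.val (mul_inv_cancel g)
  rw [hz]
  unfold Matrix.transvection
  obtain ⟨E, hE⟩ : ∃ E : Matrix (Fin (n + 2)) (Fin (n + 2)) F2, E = Matrix.single 0 1 1 := ⟨_, rfl⟩
  rw [← hE]
  have e1 : g.1 * (1 + E) * (g⁻¹).1 = 1 + g.1 * E * (g⁻¹).1 := by
    rw [Matrix.mul_add, Matrix.mul_one, Matrix.add_mul, hgg]
  have e2 : E * (g.1 * E * (g⁻¹).1) = 0 := by
    rw [← Matrix.mul_assoc, ← Matrix.mul_assoc, hE, Matrix.single_mul_mul_single, h1]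
    simp
  have e3 : (g.1 * E * (g⁻¹).1) * E = 0 := by
    rw [Matrix.mul_assoc, Matrix.mul_assoc, ← Matrix.mul_assoc E, hE, Matrix.single_mul_mul_single, h2]
    simp
  rw [e1]
  have key : ∀ P : Matrix (Fin (n + 2)) (Fin (n + 2)) F2, E * P = 0 → P * E = 0 → (1 + E) * (1 + P) = (1 + P) * (1 + E) := by
    intro P a b
    calc (1 + E) * (1 + P) = 1 + P + E + E * P := by noncomm_ring
      _ = 1 + E + P + P * E := by rw [a, b]; abel
      _ = (1 + P) * (1 + E) := by noncomm_ring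
  exact key _ e2 e3

theorem odd_SL (hn : 1 ≤ n) (z : SpecialLinearGroup (Fin (n + 2)) F2) (hz : z.1 = Matrix.transvection 0 1 1)
    (Q : Subgroup (SpecialLinearGroup (Fin (n + 2)) F2)) (hC : Conc n z Q) (hQ : Q = (Qg n).map (th n))
    (K : Subgroup (SpecialLinearGroup (Fin (n + 2)) F2)) (hK : Odd (Nat.card K)) (hQK : Q ≤ Subgroup.normalizer (K : Set (SpecialLinearGroup (Fin (n + 2)) F2))) :
    K = ⊥ := by
  have hz' : th n zg = z := Subtype.ext (th_zg.trans hz.symm)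
  have hzQ : z ∈ Q := hC.xs.z_mem
  have hzinv : z⁻¹ = z := inv_eq_of_mul_eq_one_right hC.xs.z_sq
  have hX : ∀ x : Gm n, x.h = 1 → x.b = 0 → x.a ⟨0, hn⟩ = 1 → ∀ k ∈ K, k * th n x = th n x * k → k = 1 := by
    intro x h1 h2 h3 k hk hkx
    apply hC.odd K hK hQK k hk
    have hkx' : k⁻¹ * th n x = th n x * k⁻¹ := by
      rw [inv_mul_eq_iff_eq_mul, ← mul_assoc, hkx, mul_inv_cancel_right]
    have h4 := comm_conj hz (col0 h1 h2 h3 hkx 1 zero_ne1.symm) (col0 h1 h2 h3 hkx' 1 zero_ne1.symm)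
    have h5 : z * (k * z * k⁻¹) ∈ K := by
      have h6 : z * (k * z * k⁻¹) = (z * k * z⁻¹) * k⁻¹ := by rw [hzinv]; group
      rw [h6]
      exact mul_mem ((Subgroup.mem_normalizer_iff.1 (hQK hzQ) k).1 hk) (inv_mem hk)
    have h7 : (k * z * k⁻¹) * (k * z * k⁻¹) = 1 := by
      calc (k * z * k⁻¹) * (k * z * k⁻¹) = k * (z * z) * k⁻¹ := by group
        _ = 1 := by rw [hC.xs.z_sq]; group
    have h8 : (z * (k * z * k⁻¹)) * (z * (k * z * k⁻¹)) = 1 := by
      calc (z * (k * z * k⁻¹)) * (z * (k * z * k⁻¹)) = z * ((k * z * k⁻¹) * z) * (k * z * k⁻¹) := by group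
        _ = z * (z * (k * z * k⁻¹)) * (k * z * k⁻¹) := by rw [h4]
        _ = (z * z) * ((k * z * k⁻¹) * (k * z * k⁻¹)) := by group
        _ = 1 := by rw [h7, hC.xs.z_sq, one_mul]
    have h9 := odd_one hK h5 h8
    have h10 : k * z * k⁻¹ = z := by
      rw [mul_eq_one_iff_inv_eq, hzinv] at h9
      exact h9.symm
    rwa [mul_inv_eq_iff_eq_mul] at h10
  obtain ⟨xa, hxa⟩ : ∃ xa : Gm n, xa = ⟨Pi.single ⟨0, hn⟩ 1, 0, 0, 1⟩ := ⟨_, rfl⟩
  have ha1 : xa.h = 1 := by rw [hxa]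
  have ha2 : xa.b = 0 := by rw [hxa]
  have ha3 : xa.a ⟨0, hn⟩ = 1 := by rw [hxa]; simp
  have haQ : th n xa ∈ Q := by rw [hQ]; exact ⟨xa, ha1, rfl⟩
  have haa : th n xa * th n xa = 1 := by
    rw [← map_mul, q_mul ha1 ha1, ha2, dotProduct_zero, v2, v2, f2_add, add_zero]
    exact map_one _
  have hi1 := inverts haa (hQK haQ) (fun k hk hkx => hX xa ha1 ha2 ha3 k hk hkx)
  have hi2 := inverts hC.xs.z_sq (hQK hzQ) (fun k hk hkx => hC.odd K hK hQK k hk hkx)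
  rw [eq_bot_iff]
  intro k hk
  rw [Subgroup.mem_bot]
  apply hX (xa * zg) (by rw [mul_h, ha1, one_mul]; rfl) (by rw [mul_b, ha2, ha1]; show 0 + (1 : Matrix (Fin n) (Fin n) F2) *ᵥ 0 = 0; rw [Matrix.mulVec_zero, add_zero])
    (by rw [mul_a]; show (0 + xa.a ᵥ* (1 : Matrix (Fin n) (Fin n) F2)) _ = 1; rw [Matrix.vecMul_one, zero_add, ha3]) k hk
  rw [map_mul, hz']
  have h1 := hi2 k hk
  have h2 := hi1 _ (inv_mem hk)
  rw [inv_inv] at h2
  have h3 : (th n xa * z) * k * (th n xa * z)⁻¹ = k := by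
    calc (th n xa * z) * k * (th n xa * z)⁻¹ = th n xa * (z * k * z⁻¹) * (th n xa)⁻¹ := by group
      _ = k := by rw [h1, h2]
  rw [mul_inv_eq_iff_eq_mul] at h3
  exact h3.symm

noncomputable def glsl (n : ℕ) : SpecialLinearGroup (Fin n) F2 ≃* GL (Fin n) F2 :=
  MulEquiv.ofBijective Matrix.SpecialLinearGroup.toGL ⟨Matrix.SpecialLinearGroup.toGL_injective, by
    intro g
    have h1 : g.val.det = 1 := by
      have h2 : g.val.det * (g⁻¹).val.det = 1 := by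
        rw [← Matrix.det_mul, ← Units.val_mul, mul_inv_cancel, Units.val_one, Matrix.det_one]
      exact f2_unit h2
    exact ⟨⟨g.val, h1⟩, Units.ext rfl⟩⟩

theorem s5424 (n : ℕ) (hn : 2 ≤ n) (z : Matrix.SpecialLinearGroup (Fin (n + 2)) (ZMod 2)) (hz : (z : Matrix (Fin (n + 2)) (Fin (n + 2)) (ZMod 2)) = Matrix.transvection 0 1 1) (Q : Subgroup (Matrix.SpecialLinearGroup (Fin (n + 2)) (ZMod 2))) (hQ : Q = (Cfsg.pCore 2 ↥(Subgroup.centralizer ({z} : Set (Matrix.SpecialLinearGroup (Fin (n + 2)) (ZMod 2))))).map (Subgroup.centralizer ({z} : Set (Matrix.SpecialLinearGroup (Fin (n + 2)) (ZMod 2)))).subtype) : Cfsg.IsExtraspecial 2 ↥Q ∧ Nat.card ↥Q = 2 ^ (2 * n + 1) ∧ (∃ E : Subgroup (Matrix.SpecialLinearGroup (Fin (n + 2)) (ZMod 2)), E ≤ Q ∧ Cfsg.IsElementaryAbelian 2 E ∧ Nat.card ↥E = 2 ^ (n + 1)) ∧ Cfsg.IsLargeExtraspecial Q ∧ ∃ K : Subgroup (Matrix.SpecialLinearGroup (Fin (n + 2)) (ZMod 2)), K ≤ Subgroup.centralizer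 ({z} : Set (Matrix.SpecialLinearGroup (Fin (n + 2)) (ZMod 2))) ∧ Q ⊓ K = ⊥ ∧ Q ⊔ K = Subgroup.centralizer ({z} : Set (Matrix.SpecialLinearGroup (Fin (n + 2)) (ZMod 2))) ∧ Nonempty (↥K ≃* Matrix.SpecialLinearGroup (Fin n) (ZMod 2)) := by
  have hn1 : 1 ≤ n := by omega
  have hz' : th n zg = z := Subtype.ext (th_zg.trans hz.symm)
  have hr := th_range z hz
  have hC := transfer hn1 (th n) th_inj hr hz' Q hQ
  have hQ' := Q_eq (th n) th_inj hr Q hQ
  have hx := hC.xs.isExtraspecial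
  obtain ⟨K, k1, k2, k3, ⟨e⟩⟩ := hC.comp
  exact ⟨hx, hC.card, hC.el, ⟨hx, hC.cen, hC.nor, fun K h1 h2 => odd_SL hn1 z hz Q hC hQ' K h1 h2⟩, K, k1, k2, k3, ⟨e.trans (glsl n).symm⟩⟩

end Cfsg.Agent.H1.ExC
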