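import Cfsg.Agent.H1.ExF

set_option autoImplicit false
set_option linter.all false

namespace Cfsg.Agent.H1.ExC

open Cfsg Matrix Cfsg.Agent.H29

/-- coordinates on an elementary abelian group -/
structure Uc {G : Type*} [Group G] (n : ℕ) (U : Subgroup G) (z : G) (u : F2 → (Fin n → F2) → G) : Prop where
  mul : ∀ c b c' b', u c b * u c' b' = u (c + c') (b + b')
  inj : ∀ c b c' b', u c b = u c' b' → c = c' ∧ b = b'
  surj : ∀ g ∈ U, ∃ c b, u c b = g
  mem : ∀ c b, u c b ∈ U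
  z : u 1 0 = z

theorem exists_Uc {G : Type*} [Group G] [Finite G] {n : ℕ} {U : Subgroup G} (hU : IsElementaryAbelian 2 U) (hc : Nat.card U = 2 ^ (n + 1))
    {z : G} (hz : z ∈ U) (hz1 : z ≠ 1) : ∃ u : F2 → (Fin n → F2) → G, Uc n U z u := by
  haveI : Fact (Nat.Prime 2) := ⟨Nat.prime_two⟩
  letI : CommGroup U := { (inferInstance : Group U) with mul_comm := fun a b => hU.1.is_comm.comm a b }
  letI : Module F2 (Additive U) := AddCommGroup.zmodModule (fun x => by
    rw [two_nsmul]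
    apply Additive.toMul.injective
    apply Subtype.ext
    have := hU.2 _ (Additive.toMul x).2
    rw [sq] at this
    exact this)
  haveI : Finite (Additive U) := inferInstanceAs (Finite U)
  haveI : Module.Finite F2 (Additive U) := Module.Finite.of_finite
  have hfr : Module.finrank F2 (Additive U) = n + 1 := by
    have h1 := Module.natCard_eq_pow_finrank (K := F2) (V := Additive U)
    have h2 : Nat.card (Additive U) = 2 ^ (n + 1) := hc
    rw [h2, Nat.card_zmod] at h1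
    exact (Nat.pow_right_injective (le_refl 2) h1).symm
  let zz : Additive U := Additive.ofMul ⟨z, hz⟩
  have hzz : zz ≠ 0 := fun h => hz1 (congrArg (fun x : Additive U => ((Additive.toMul x : U) : G)) h)
  obtain ⟨W, hW⟩ := Submodule.exists_isCompl (Submodule.span F2 {zz})
  have hWf : Module.finrank F2 W = n := by
    have h1 := Submodule.finrank_add_eq_of_isCompl hW
    rw [finrank_span_singleton hzz, hfr] at h1
    omega
  let e : W ≃ₗ[F2] (Fin n → F2) := (Module.finBasisOfFinrankEq F2 W hWf).equivFun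
  let Φ : F2 × (Fin n → F2) → Additive U := fun p => p.1 • zz + (e.symm p.2 : Additive U)
  have hΦadd : ∀ p q, Φ (p + q) = Φ p + Φ q := by
    intro p q
    show (p.1 + q.1) • zz + (e.symm (p.2 + q.2) : Additive U) = _
    rw [add_smul, map_add, Submodule.coe_add]
    show _ = (p.1 • zz + (e.symm p.2 : Additive U)) + (q.1 • zz + (e.symm q.2 : Additive U))
    abel
  have hΦ0 : ∀ p, Φ p = 0 → p = 0 := by
    intro p hp
    have h1 : p.1 • zz = -(e.symm p.2 : Additive U) := eq_neg_of_add_eq_zero_left hp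
    have h2 : p.1 • zz ∈ Submodule.span F2 {zz} ⊓ W := ⟨Submodule.smul_mem _ _ (Submodule.mem_span_singleton_self zz), by rw [h1]; exact neg_mem (e.symm p.2).2⟩
    rw [hW.inf_eq_bot, Submodule.mem_bot] at h2
    have h3 : p.1 = 0 := (smul_eq_zero.1 h2).resolve_right hzz
    rw [h2] at h1
    have h4 : (e.symm p.2 : Additive U) = 0 := by rw [← neg_eq_zero]; exact h1.symm
    have h5 : e.symm p.2 = 0 := Subtype.ext h4
    have h6 : p.2 = 0 := by
      have := congrArg e h5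
      rwa [LinearEquiv.apply_symm_apply, map_zero] at this
    exact Prod.ext h3 h6
  have hΦinj : Function.Injective Φ := by
    intro p q h
    have h1 : Φ (p + q) = 0 := by
      rw [hΦadd, h, ← hΦadd]
      have : q + q = 0 := Prod.ext (f2_add _) (v2 _)
      rw [this]
      show (0 : F2) • zz + (e.symm 0 : Additive U) = 0
      rw [zero_smul, map_zero, zero_add]; rfl
    have h2 := hΦ0 _ h1
    have h3 : q + q = 0 := Prod.ext (f2_add _) (v2 _)
    exact add_right_cancel (h2.trans h3.symm)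
  have hΦsurj : Function.Surjective Φ := by
    have hb : Function.Bijective Φ := (Nat.bijective_iff_injective_and_card Φ).2 ⟨hΦinj, by
      have h2 : Nat.card (Additive U) = 2 ^ (n + 1) := hc
      rw [h2, Nat.card_prod, Nat.card_fun, Nat.card_zmod, Nat.card_fin, pow_succ, mul_comm]⟩
    exact hb.2
  refine ⟨fun c b => ((Additive.toMul (Φ (c, b)) : U) : G), ?_, ?_, ?_, ?_, ?_⟩
  · intro c b c' b'
    have h := hΦadd (c, b) (c', b')
    have h' := congrArg (fun x : Additive U => ((Additive.toMul x : U) : G)) h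
    exact h'.symm
  · intro c b c' b' h
    have h1 : Φ (c, b) = Φ (c', b') := Additive.toMul.injective (Subtype.ext h)
    have h2 := hΦinj h1
    exact ⟨congrArg Prod.fst h2, congrArg Prod.snd h2⟩
  · intro g hg
    obtain ⟨p, hp⟩ := hΦsurj (Additive.ofMul ⟨g, hg⟩)
    refine ⟨p.1, p.2, ?_⟩
    show ((Additive.toMul (Φ p) : U) : G) = g
    rw [hp]; rfl
  · intro c b
    exact (Additive.toMul (Φ (c, b))).2
  · show ((Additive.toMul ((1 : F2) • zz + (e.symm 0 : Additive U)) : U) : G) = z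
    rw [one_smul, map_zero]
    have : zz + ((0 : W) : Additive U) = zz := add_zero zz
    rw [this]; rfl

section holo

variable {G : Type*} [Group G] [Finite G] {n : ℕ} {U M : Subgroup G} [hUn : U.Normal] {z : G} {u : F2 → (Fin n → F2) → G}
  (C : Uc n U z u) (hfaith : ∀ m ∈ M, (∀ u ∈ U, m * u * m⁻¹ = u) → m = 1)
  (hfull : ∀ φ : ↥U ≃* ↥U, ∃ m ∈ M, ∀ u : ↥U, ((φ u : ↥U) : G) = m * u * m⁻¹)

include C in
lemma Uc.one : u 0 0 = 1 := by
  have := C.mul 0 0 0 0
  rw [add_zero, add_zero] at this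
  exact mul_eq_left.1 this

include C hfull in
/-- the element of `M` inducing `(c, b) ↦ (c + a·b, h b)` -/
lemma exists_m (a : Fin n → F2) (h : GL (Fin n) F2) : ∃ m ∈ M, ∀ c b, m * u c b * m⁻¹ = u (c + a ⬝ᵥ b) (h.val *ᵥ b) := by
  have hex : ∀ g : U, ∃ c b, u c b = g := fun g => C.surj g g.2
  choose cc bb hcb using hex
  have hcc : ∀ c b, cc ⟨u c b, C.mem c b⟩ = c ∧ bb ⟨u c b, C.mem c b⟩ = b := fun c b => C.inj _ _ _ _ (hcb ⟨u c b, C.mem c b⟩)
  let f : U → U := fun g => ⟨u (cc g + a ⬝ᵥ bb g) (h.val *ᵥ bb g), C.mem _ _⟩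
  have hf : ∀ c b, f ⟨u c b, C.mem c b⟩ = ⟨u (c + a ⬝ᵥ b) (h.val *ᵥ b), C.mem _ _⟩ := by
    intro c b
    show (⟨u (cc ⟨u c b, C.mem c b⟩ + a ⬝ᵥ bb ⟨u c b, C.mem c b⟩) (h.val *ᵥ bb ⟨u c b, C.mem c b⟩), _⟩ : U) = _
    apply Subtype.ext
    show u (cc ⟨u c b, C.mem c b⟩ + a ⬝ᵥ bb ⟨u c b, C.mem c b⟩) (h.val *ᵥ bb ⟨u c b, C.mem c b⟩) = u (c + a ⬝ᵥ b) (h.val *ᵥ b)
    rw [(hcc c b).1, (hcc c b).2]
  have hrep : ∀ g : U, ∃ c b, g = ⟨u c b, C.mem c b⟩ := fun g => ⟨cc g, bb g, Subtype.ext (hcb g).symm⟩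
  let φ : U →* U := MonoidHom.mk' f (by
    intro x y
    obtain ⟨c, b, rfl⟩ := hrep x
    obtain ⟨c', b', rfl⟩ := hrep y
    have h1 : (⟨u c b, C.mem c b⟩ : U) * ⟨u c' b', C.mem c' b'⟩ = ⟨u (c + c') (b + b'), C.mem _ _⟩ := Subtype.ext (C.mul _ _ _ _)
    rw [h1, hf, hf, hf]
    apply Subtype.ext
    show u (c + c' + a ⬝ᵥ (b + b')) (h.val *ᵥ (b + b')) = u (c + a ⬝ᵥ b) (h.val *ᵥ b) * u (c' + a ⬝ᵥ b') (h.val *ᵥ b')
    rw [C.mul, dotProduct_add, Matrix.mulVec_add]
    congr 1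
    ring)
  have hφ : Function.Injective φ := by
    intro x y hxy
    obtain ⟨c, b, rfl⟩ := hrep x
    obtain ⟨c', b', rfl⟩ := hrep y
    have h1 : f ⟨u c b, C.mem c b⟩ = f ⟨u c' b', C.mem c' b'⟩ := hxy
    rw [hf, hf] at h1
    obtain ⟨h2, h3⟩ := C.inj _ _ _ _ (congrArg Subtype.val h1)
    have h4 : b = b' := by
      have h5 := congrArg (fun v => (h⁻¹).val *ᵥ v) h3
      simpa only [Matrix.mulVec_mulVec, ← Units.val_mul, inv_mul_cancel, Units.val_one, Matrix.one_mulVec] using h5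
    rw [h4] at h2
    have h6 := add_right_cancel h2
    apply Subtype.ext
    show u c b = u c' b'
    rw [h4, h6]
  obtain ⟨m, hm, hmu⟩ := hfull (MulEquiv.ofBijective φ ⟨hφ, Finite.surjective_of_injective hφ⟩)
  refine ⟨m, hm, fun c b => ?_⟩
  have h1 := hmu ⟨u c b, C.mem c b⟩
  have h2 : ((f ⟨u c b, C.mem c b⟩ : U) : G) = m * u c b * m⁻¹ := h1
  rw [hf] at h2
  exact h2.symm

include C hfaith in
lemma m_unique {m m' : G} (hm : m ∈ M) (hm' : m' ∈ M) (h : ∀ c b, m * u c b * m⁻¹ = m' * u c b * m'⁻¹) : m = m' := by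
  have h1 : m'⁻¹ * m = 1 := by
    apply hfaith _ (mul_mem (inv_mem hm') hm)
    intro g hg
    obtain ⟨c, b, rfl⟩ := C.surj g hg
    have h2 : m'⁻¹ * m * u c b * (m'⁻¹ * m)⁻¹ = m'⁻¹ * (m * u c b * m⁻¹) * m' := by group
    rw [h2, h]; group
  rw [inv_mul_eq_one] at h1
  exact h1.symm

include C hfaith hfull in
theorem exists_theta (hUM : U ⊓ M = ⊥) (hUM' : U ⊔ M = ⊤) (hUc : IsElementaryAbelian 2 U) : ∃ θ : Gm n →* G, Function.Injective θ ∧ θ.range = Subgroup.centralizer ({z} : Set G) ∧ θ zg = z := by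
  have hex := exists_m C hfull
  choose m hm hmu using hex
  have hmm : ∀ a h a' h', m a h * m a' h' = m (a' + a ᵥ* h'.val) (h * h') := by
    intro a h a' h'
    apply m_unique C hfaith (mul_mem (hm _ _) (hm _ _)) (hm _ _)
    intro c b
    have h1 : m a h * m a' h' * u c b * (m a h * m a' h')⁻¹ = m a h * (m a' h' * u c b * (m a' h')⁻¹) * (m a h)⁻¹ := by group
    rw [h1, hmu, hmu, hmu, Matrix.mulVec_mulVec, add_dotProduct, Matrix.dotProduct_mulVec, add_assoc, Units.val_mul]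
  let θ : Gm n →* G := MonoidHom.mk' (fun x => u x.c x.b * m x.a x.h) (by
    intro x y
    show u (x.c + y.c + x.a ⬝ᵥ y.b) (x.b + x.h.val *ᵥ y.b) * m (y.a + x.a ᵥ* y.h.val) (x.h * y.h) = (u x.c x.b * m x.a x.h) * (u y.c y.b * m y.a y.h)
    have h1 : (u x.c x.b * m x.a x.h) * (u y.c y.b * m y.a y.h) = u x.c x.b * (m x.a x.h * u y.c y.b * (m x.a x.h)⁻¹) * (m x.a x.h * m y.a y.h) := by group
    rw [h1, hmu, C.mul, hmm, add_assoc])
  have hθ : ∀ x, θ x = u x.c x.b * m x.a x.h := fun _ => rfl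
  have hm1 : m 0 1 = 1 := by
    apply m_unique C hfaith (hm _ _) (one_mem _)
    intro c b
    rw [hmu, zero_dotProduct, add_zero, Units.val_one, Matrix.one_mulVec]; group
  refine ⟨θ, ?_, ?_, ?_⟩
  · rw [injective_iff_map_eq_one]
    intro x hx
    rw [hθ] at hx
    have h1 : u x.c x.b = (m x.a x.h)⁻¹ := eq_inv_of_mul_eq_one_left hx
    have h2 : u x.c x.b ∈ U ⊓ M := ⟨C.mem _ _, by show _ ∈ M; rw [h1]; exact M.inv_mem (hm _ _)⟩
    rw [hUM, Subgroup.mem_bot] at h2
    rw [h2, one_mul] at hx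
    rw [← C.one] at h2
    obtain ⟨h3, h4⟩ := C.inj _ _ _ _ h2
    have h5 : ∀ c b, c + x.a ⬝ᵥ b = c ∧ x.h.val *ᵥ b = b := by
      intro c b
      have := hmu x.a x.h c b
      rw [hx] at this
      have h6 : u c b = u (c + x.a ⬝ᵥ b) (x.h.val *ᵥ b) := by rw [← this]; group
      obtain ⟨h7, h8⟩ := C.inj _ _ _ _ h6
      exact ⟨h7.symm, h8.symm⟩
    apply Gm.ext
    · funext i
      have := (h5 0 (Pi.single i 1)).1
      rw [zero_add, dotProduct_single, mul_one] at this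
      exact this
    · exact h4
    · exact h3
    · apply Units.ext
      apply Matrix.mulVec_injective
      funext b
      show x.h.val *ᵥ b = (1 : Matrix (Fin n) (Fin n) F2) *ᵥ b
      rw [Matrix.one_mulVec]
      exact (h5 0 b).2
  · apply le_antisymm
    · rintro _ ⟨x, rfl⟩
      rw [Subgroup.mem_centralizer_singleton_iff, hθ]
      have h1 : m x.a x.h * z = z * m x.a x.h := by
        have := hmu x.a x.h 1 0
        rw [dotProduct_zero, add_zero, Matrix.mulVec_zero, C.z, mul_inv_eq_iff_eq_mul] at this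
        exact this
      have h2 : u x.c x.b * z = z * u x.c x.b := by
        rw [← C.z, C.mul, C.mul, add_comm x.c, add_comm x.b]
      rw [mul_assoc, h1, ← mul_assoc, h2, mul_assoc]
    · intro g hg
      rw [Subgroup.mem_centralizer_singleton_iff] at hg
      obtain ⟨v, hv, k, hk, rfl⟩ : ∃ v ∈ U, ∃ k ∈ M, v * k = g := by
        have : g ∈ U ⊔ M := by rw [hUM']; trivial
        obtain ⟨v, hv, k, hk, h⟩ := Subgroup.mem_sup_of_normal_left.1 this
        exact ⟨v, hv, k, hk, h⟩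
      obtain ⟨c₀, b₀, rfl⟩ := C.surj v hv
      have hkz : k * z = z * k := by
        have h2 : u c₀ b₀ * z = z * u c₀ b₀ := by
          rw [← C.z, C.mul, C.mul, add_comm c₀, add_comm b₀]
        have h3 : u c₀ b₀ * (k * z) = u c₀ b₀ * (z * k) := by
          rw [← mul_assoc, hg, ← mul_assoc, ← h2, mul_assoc]
        exact mul_left_cancel h3
      -- conjugation by an element of `M` commuting with `z`
      have hcj : ∀ k ∈ M, k * z = z * k → ∃ (f : (Fin n → F2) → F2) (h : (Fin n → F2) → (Fin n → F2)), ∀ c b, k * u c b * k⁻¹ = u (c + f b) (h b) := by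
        intro k hk hkz
        have h1 : ∀ b, ∃ c' b', u c' b' = k * u 0 b * k⁻¹ := fun b => C.surj _ (hUn.conj_mem _ (C.mem _ _) k)
        choose f h hfh using h1
        refine ⟨f, h, fun c b => ?_⟩
        have h2 : k * u c 0 * k⁻¹ = u c 0 := by
          rcases f2_or c with rfl | rfl
          · rw [C.one]; group
          · rw [C.z, hkz]; group
        have h3 : u c b = u c 0 * u 0 b := by rw [C.mul, add_zero, zero_add]
        have h4 : k * u c b * k⁻¹ = (k * u c 0 * k⁻¹) * (k * u 0 b * k⁻¹) := by rw [h3]; group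
        rw [h4, h2, ← hfh, C.mul, zero_add]
      have hkz' : k⁻¹ * z = z * k⁻¹ := by rw [inv_mul_eq_iff_eq_mul, ← mul_assoc, hkz, mul_inv_cancel_right]
      obtain ⟨f, h, hfh⟩ := hcj k hk hkz
      obtain ⟨f', h', hfh'⟩ := hcj k⁻¹ (inv_mem hk) hkz'
      have hadd : ∀ b b', f (b + b') = f b + f b' ∧ h (b + b') = h b + h b' := by
        intro b b'
        have h1 : k * u 0 (b + b') * k⁻¹ = (k * u 0 b * k⁻¹) * (k * u 0 b' * k⁻¹) := by
          have : u 0 (b + b') = u 0 b * u 0 b' := by rw [C.mul, add_zero]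
          rw [this]; group
        rw [hfh, hfh, hfh, C.mul, zero_add, zero_add, zero_add] at h1
        exact C.inj _ _ _ _ h1
      have hadd' : ∀ b b', h' (b + b') = h' b + h' b' := by
        intro b b'
        have h1 : k⁻¹ * u 0 (b + b') * (k⁻¹)⁻¹ = (k⁻¹ * u 0 b * (k⁻¹)⁻¹) * (k⁻¹ * u 0 b' * (k⁻¹)⁻¹) := by
          have : u 0 (b + b') = u 0 b * u 0 b' := by rw [C.mul, add_zero]
          rw [this]; group
        rw [hfh', hfh', hfh', C.mul, zero_add, zero_add, zero_add] at h1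
        exact (C.inj _ _ _ _ h1).2
      have hhh : ∀ b, h (h' b) = b := by
        intro b
        have h1 : k * (k⁻¹ * u 0 b * (k⁻¹)⁻¹) * k⁻¹ = u 0 b := by group
        rw [hfh', hfh] at h1
        exact (C.inj _ _ _ _ h1).2
      have hhh' : ∀ b, h' (h b) = b := by
        intro b
        have h1 : k⁻¹ * (k * u 0 b * k⁻¹) * (k⁻¹)⁻¹ = u 0 b := by group
        rw [hfh, hfh'] at h1
        exact (C.inj _ _ _ _ h1).2
      let hl : (Fin n → F2) →ₗ[F2] (Fin n → F2) := (AddMonoidHom.mk' h (fun b b' => (hadd b b').2)).toZModLinearMap 2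
      let hl' : (Fin n → F2) →ₗ[F2] (Fin n → F2) := (AddMonoidHom.mk' h' hadd').toZModLinearMap 2
      let fl : (Fin n → F2) →+ F2 := AddMonoidHom.mk' f (fun b b' => (hadd b b').1)
      let gh : GL (Fin n) F2 := ⟨LinearMap.toMatrix' hl, LinearMap.toMatrix' hl',
        by rw [← LinearMap.toMatrix'_comp, ← LinearMap.toMatrix'_id]; congr 1; exact LinearMap.ext hhh,
        by rw [← LinearMap.toMatrix'_comp, ← LinearMap.toMatrix'_id]; congr 1; exact LinearMap.ext hhh'⟩
      have hgh : ∀ b, gh.val *ᵥ b = h b := fun b => LinearMap.toMatrix'_mulVec hl b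
      let av : Fin n → F2 := fun i => f (Pi.single i 1)
      have hav : ∀ b, av ⬝ᵥ b = f b := by
        intro b
        have h9 : b = ∑ i, b i • (Pi.single i 1 : Fin n → F2) := by
          funext k
          simp [Finset.sum_apply, Pi.single_apply]
        have h10 : f b = ∑ i, b i * f (Pi.single i 1) := by
          have h11 : fl b = ∑ i, b i * f (Pi.single i 1) := by
            conv_lhs => rw [h9]
            rw [map_sum]
            apply Finset.sum_congr rfl
            intro i _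
            rcases f2_or (b i) with h | h
            · rw [h, zero_smul, map_zero, zero_mul]
            · rw [h, one_smul, one_mul]; rfl
          exact h11
        rw [h10]
        apply Finset.sum_congr rfl
        intro i _
        exact mul_comm _ _
      refine ⟨⟨av, b₀, c₀, gh⟩, ?_⟩
      rw [hθ]
      congr 1
      apply m_unique C hfaith (hm _ _) hk
      intro c b
      rw [hmu, hfh, hav, hgh]
  · rw [hθ]
    show u 1 0 * m 0 1 = z
    rw [hm1, mul_one, C.z]

end holo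

theorem s5423 {G : Type*} [Group G] [Finite G] (n : ℕ) (hn : 1 ≤ n) (U M : Subgroup G) [U.Normal] (hU : Cfsg.IsElementaryAbelian 2 U) (hUcard : Nat.card ↥U = 2 ^ (n + 1)) (hUM : U ⊓ M = ⊥) (hUM' : U ⊔ M = ⊤) (hfaith : ∀ m ∈ M, (∀ u ∈ U, m * u * m⁻¹ = u) → m = 1) (hfull : ∀ φ : ↥U ≃* ↥U, ∃ m ∈ M, ∀ u : ↥U, ((φ u : ↥U) : G) = m * u * m⁻¹) (Z : Subgroup G) (hZU : Z ≤ U) (hZ : Nat.card ↥Z = 2) (Q : Subgroup G) (hQ : Q = (Cfsg.pCore 2 ↥(Subgroup.centralizer (Z : Set G))).map (Subgroup.centralizer (Z : Set G)).subtype) : Cfsg.IsExtraspecial 2 ↥Q ∧ Nat.card ↥Q = 2 ^ (2 * n + 1) ∧ (∃ E : Subgroup G, E ≤ Q ∧ Cfsg.IsElementaryAbelian 2 E ∧ Nat.card ↥E = 2 ^ (n + 1)) ∧ Cfsg.IsLargeExtraspecial Q ∧ ∃ K : Subgroup G, K ≤ Subgroup.centralizer (Z : Set G) ∧ Q ⊓ K = ⊥ ∧ Q ⊔ K = Subgroup.centralizer (Z : Set G) ∧ Nonempty (↥K ≃* Matrix.GeneralLinearGroup (Fin n) (ZMod 2)) := by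
  haveI : Fact (Nat.Prime 2) := ⟨Nat.prime_two⟩
  obtain ⟨z, hz, hz1⟩ : ∃ z ∈ Z, z ≠ 1 := by
    haveI : Nontrivial Z := Finite.one_lt_card_iff_nontrivial.1 (by rw [hZ]; norm_num)
    obtain ⟨w, hw⟩ := exists_ne (1 : Z)
    exact ⟨w.1, w.2, fun h => hw (Subtype.ext h)⟩
  have hZz : Z = Subgroup.zpowers z := by
    symm
    apply Subgroup.eq_of_le_of_card_ge
    · rw [Subgroup.zpowers_le]; exact hz
    · have h1 : z ^ 2 = 1 := hU.2 z (hZU hz)
      rw [hZ, Nat.card_zpowers, orderOf_eq_prime h1 hz1]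
  have hZc : Subgroup.centralizer (Z : Set G) = Subgroup.centralizer ({z} : Set G) := by
    rw [hZz, Subgroup.zpowers_eq_closure, Subgroup.centralizer_closure]
  rw [hZc] at hQ ⊢
  obtain ⟨u, C⟩ := exists_Uc hU hUcard (hZU hz) hz1
  obtain ⟨θ, hθ, hr, hθz⟩ := exists_theta C hfaith hfull hUM hUM' hU
  have hC := transfer hn θ hθ hr hθz Q hQ
  have hx := hC.xs.isExtraspecial
  refine ⟨hx, hC.card, hC.el, ⟨hx, hC.cen, hC.nor, ?_⟩, hC.comp⟩
  intro K hK hQK
  have hcomm : ∀ a ∈ U, ∀ b ∈ U, a * b = b * a := fun a ha b hb =>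
    congrArg Subtype.val (hU.1.is_comm.comm (⟨a, ha⟩ : U) ⟨b, hb⟩)
  -- `U ≤ Q`
  have hUQ : U ≤ Q := by
    have h1 : U ≤ Subgroup.centralizer ({z} : Set G) := by
      intro a ha
      rw [Subgroup.mem_centralizer_singleton_iff]
      exact hcomm a ha z (hZU hz)
    have h2 : IsPGroup 2 U := fun a => ⟨1, Subtype.ext (by rw [pow_one]; exact hU.2 a a.2)⟩
    have h3 : U.subgroupOf (Subgroup.centralizer ({z} : Set G)) ≤ pCore 2 (Subgroup.centralizer ({z} : Set G)) :=
      Cfsg.Agent.H18.le_pCore inferInstance (h2.comap_of_injective _ (Subgroup.subtype_injective _))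
    rw [hQ]
    intro a ha
    exact ⟨⟨a, h1 ha⟩, h3 ha, rfl⟩
  have hdis : ∀ g, g ∈ K → g ∈ U → g = 1 := by
    intro g h1 h2
    exact odd_one hK h1 (by have := hU.2 g h2; rwa [sq] at this)
  rw [eq_bot_iff]
  intro k hk
  rw [Subgroup.mem_bot]
  apply hdis k hk
  -- `k` centralises `U`
  have hkU : ∀ a ∈ U, k * a = a * k := by
    intro a ha
    have h1 : a * k⁻¹ * a⁻¹ ∈ K := (Subgroup.mem_normalizer_iff.1 (hQK (hUQ ha)) _).1 (inv_mem hk)
    have h2 : k * a * k⁻¹ * a⁻¹ ∈ K := by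
      have : k * a * k⁻¹ * a⁻¹ = k * (a * k⁻¹ * a⁻¹) := by group
      rw [this]; exact mul_mem hk h1
    have h3 : k * a * k⁻¹ * a⁻¹ ∈ U := mul_mem ((inferInstance : U.Normal).conj_mem a ha k) (inv_mem ha)
    have h4 := hdis _ h2 h3
    rw [mul_inv_eq_one, mul_inv_eq_iff_eq_mul] at h4
    exact h4
  obtain ⟨v, hv, m, hm, rfl⟩ : ∃ v ∈ U, ∃ m ∈ M, v * m = k := by
    have : k ∈ U ⊔ M := by rw [hUM']; trivial
    obtain ⟨v, hv, k, hk, h⟩ := Subgroup.mem_sup_of_normal_left.1 this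
    exact ⟨v, hv, k, hk, h⟩
  have hm1 : m = 1 := by
    apply hfaith m hm
    intro a ha
    have h1 := hkU a ha
    have h2 := hcomm v hv a ha
    have h3 : v * (m * a) = v * (a * m) := by rw [← mul_assoc, h1, ← mul_assoc, ← h2, mul_assoc]
    rw [mul_left_cancel h3]; group
  rw [hm1, mul_one]; exact hv

end Cfsg.Agent.H1.ExC
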