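import Cfsg.Agent.H1.ExG
import Cfsg.Agent.H29.OctStab
import Cfsg.Agent.S0381

set_option autoImplicit false
set_option linter.all false

namespace Cfsg.Agent.H1.ExC

open Cfsg Matrix Cfsg.Agent.H29 Cfsg.Agent.H7

theorem card_aut_le {G : Type*} [Group G] [Finite G] {U : Subgroup G} (hU : IsElementaryAbelian 2 U) (hc : Nat.card U = 2 ^ 4) :
    Nat.card (U ≃* U) ≤ 20160 := by
  haveI : Fact (Nat.Prime 2) := ⟨Nat.prime_two⟩
  letI : CommGroup U := { (inferInstance : Group U) with mul_comm := fun a b => hU.1.is_comm.comm a b }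
  letI : Module F2 (Additive U) := AddCommGroup.zmodModule (fun x => by
    rw [two_nsmul]
    apply Additive.toMul.injective
    apply Subtype.ext
    have := hU.2 _ (Additive.toMul x).2
    rw [sq] at this
    exact this)
  haveI : Finite (Additive U) := inferInstanceAs (Finite U)
  haveI : Module.Finite F2 (Additive U) := Module.Finite.of_finite
  have hfr : Module.finrank F2 (Additive U) = 4 := by
    have h1 := Module.natCard_eq_pow_finrank (K := F2) (V := Additive U)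
    have h2 : Nat.card (Additive U) = 2 ^ 4 := hc
    rw [h2, Nat.card_zmod] at h1
    exact (Nat.pow_right_injective (le_refl 2) h1).symm
  let B := Module.finBasisOfFinrankEq F2 (Additive U) hfr
  let L : (U →* U) → (Additive U →ₗ[F2] Additive U) := fun φ => (MonoidHom.toAdditive φ).toZModLinearMap 2
  have hLmul : ∀ φ ψ : U ≃* U, L (φ : U →* U) ∘ₗ L (ψ : U →* U) = L ((ψ.trans φ : U ≃* U) : U →* U) := by
    intro φ ψ
    apply LinearMap.ext
    intro x; rfl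
  have hLone : L ((MulEquiv.refl U : U ≃* U) : U →* U) = LinearMap.id := LinearMap.ext fun x => rfl
  let f : (U ≃* U) → GL (Fin 4) F2 := fun φ => ⟨LinearMap.toMatrix B B (L (φ : U →* U)), LinearMap.toMatrix B B (L (φ.symm : U →* U)),
    by rw [← LinearMap.toMatrix_comp, hLmul, MulEquiv.symm_trans_self, hLone, LinearMap.toMatrix_id],
    by rw [← LinearMap.toMatrix_comp, hLmul, MulEquiv.self_trans_symm, hLone, LinearMap.toMatrix_id]⟩
  have hf : Function.Injective f := by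
    intro φ ψ h
    have h1 : LinearMap.toMatrix B B (L (φ : U →* U)) = LinearMap.toMatrix B B (L (ψ : U →* U)) := congrArg Units.val h
    have h2 := (LinearMap.toMatrix B B).injective h1
    apply MulEquiv.ext
    intro x
    have h3 := LinearMap.congr_fun h2 (Additive.ofMul x)
    exact congrArg Additive.toMul h3
  have h1 := Nat.card_le_card_of_injective f hf
  have h2 : Nat.card (GL (Fin 4) F2) = 20160 := by
    rw [Matrix.card_GL_field, Fin.prod_univ_four, ZMod.card]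
    norm_num
  rwa [h2] at h1

open scoped Pointwise

/-- the octad stabiliser in `M24` -/
def Nn (o : Finset GolayPt) : Subgroup ↥M24 := (HO o).subgroupOf M24

lemma mem_Nn {o : Finset GolayPt} {g : ↥M24} : g ∈ Nn o ↔ (g : Equiv.Perm GolayPt) • o = o :=
  ⟨fun h => (show (g : Equiv.Perm GolayPt) ∈ HO o from h).2, fun h => show (g : Equiv.Perm GolayPt) ∈ HO o from ⟨g.2, h⟩⟩

def Uu (o : Finset GolayPt) : Subgroup (Nn o) := (EO o).comap ((M24.subtype).comp (Nn o).subtype)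

lemma mem_Uu {o : Finset GolayPt} {g : Nn o} : g ∈ Uu o ↔ ∀ q ∈ o, ((g : ↥M24) : Equiv.Perm GolayPt) q = q :=
  ⟨fun h => (mem_EO.1 (show ((g : ↥M24) : Equiv.Perm GolayPt) ∈ EO o from h)).2,
    fun h => show ((g : ↥M24) : Equiv.Perm GolayPt) ∈ EO o from mem_EO.2 ⟨g.1.2, h⟩⟩

def Ll (o : Finset GolayPt) (p : GolayPt) : Subgroup (Nn o) := (LO o p).comap ((M24.subtype).comp (Nn o).subtype)

lemma mem_Ll {o : Finset GolayPt} {p : GolayPt} {g : Nn o} : g ∈ Ll o p ↔ ((g : ↥M24) : Equiv.Perm GolayPt) p = p :=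
  ⟨fun h => (mem_LO.1 (show ((g : ↥M24) : Equiv.Perm GolayPt) ∈ LO o p from h)).2,
    fun h => show ((g : ↥M24) : Equiv.Perm GolayPt) ∈ LO o p from mem_LO.2 ⟨⟨g.1.2, mem_Nn.1 g.2⟩, h⟩⟩

instance Uu_normal (o : Finset GolayPt) : (Uu o).Normal := by
  constructor
  intro u hu g
  rw [mem_Uu] at hu ⊢
  intro q hq
  have h1 : ((g : ↥M24) : Equiv.Perm GolayPt)⁻¹ q ∈ o := by
    rw [← mem_iff_of_smul_eq (mem_Nn.1 g.2)]
    have e1 : ((g : ↥M24) : Equiv.Perm GolayPt) (((g : ↥M24) : Equiv.Perm GolayPt)⁻¹ q) = q := Equiv.apply_symm_apply _ q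
    rw [e1]; exact hq
  show ((g : ↥M24) : Equiv.Perm GolayPt) (((u : ↥M24) : Equiv.Perm GolayPt) (((g : ↥M24) : Equiv.Perm GolayPt)⁻¹ q)) = q
  rw [hu _ h1]
  exact Equiv.apply_symm_apply _ q

lemma sq_EO {o : Finset GolayPt} (ho : o ∈ octads) {σ : Equiv.Perm GolayPt} (hσ : σ ∈ EO o) : σ * σ = 1 :=
  (Cfsg.Agent.S0381.result o ho).2 σ hσ

lemma Uu_el {o : Finset GolayPt} (ho : o ∈ octads) : IsElementaryAbelian 2 (Uu o) := by
  have h2 : ∀ a ∈ Uu o, a * a = 1 := by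
    intro a ha
    apply Subtype.ext
    apply Subtype.ext
    exact sq_EO ho ha
  refine ⟨⟨⟨fun a b => ?_⟩⟩, fun a ha => by rw [sq]; exact h2 a ha⟩
  apply Subtype.ext
  show (a : Nn o) * b = b * a
  have h3 : ∀ c ∈ Uu o, c⁻¹ = c := fun c hc => inv_eq_of_mul_eq_one_right (h2 c hc)
  have h4 := h3 _ (mul_mem a.2 b.2)
  rw [_root_.mul_inv_rev, h3 _ a.2, h3 _ b.2] at h4
  exact h4.symm

lemma card_Uu {o : Finset GolayPt} (ho : o ∈ octads) : Nat.card (Uu o) = 2 ^ 4 := by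
  have h : Nat.card (Uu o) = Nat.card (EO o) :=
    Nat.card_congr ⟨fun σ => ⟨σ.1.1.1, σ.2⟩, fun σ => ⟨⟨⟨σ.1, (mem_EO.1 σ.2).1⟩, mem_Nn.2 (fix_smul_eq (mem_EO.1 σ.2).2)⟩, σ.2⟩, fun _ => rfl, fun _ => rfl⟩
  rw [h, card_EO ho]; norm_num

lemma card_Ll {o : Finset GolayPt} (ho : o ∈ octads) {p : GolayPt} (hp : p ∉ o) : Nat.card (Ll o p) = 20160 := by
  rw [← card_LO ho hp]
  exact Nat.card_congr ⟨fun σ => ⟨σ.1.1.1, σ.2⟩, fun σ => ⟨⟨⟨σ.1, (mem_LO.1 σ.2).1.1⟩, mem_Nn.2 (mem_LO.1 σ.2).1.2⟩, σ.2⟩, fun _ => rfl, fun _ => rfl⟩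

lemma trans_Uu {o : Finset GolayPt} (ho : o ∈ octads) {p q : GolayPt} (hp : p ∉ o) (hq : q ∉ o) :
    ∃ e ∈ Uu o, ((e : ↥M24) : Equiv.Perm GolayPt) p = q := by
  obtain ⟨e, he, h1, h2⟩ := oct_fix_trans ho hp hq
  exact ⟨⟨⟨e, he⟩, mem_Nn.2 (fix_smul_eq h1)⟩, mem_Uu.2 h1, h2⟩

lemma UL_inf {o : Finset GolayPt} (ho : o ∈ octads) {p : GolayPt} (hp : p ∉ o) : Uu o ⊓ Ll o p = ⊥ := by
  rw [eq_bot_iff]
  rintro g ⟨h1, h2⟩
  rw [Subgroup.mem_bot]
  apply Subtype.ext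
  apply Subtype.ext
  exact oct_fix_out ho hp g.1.2 (mem_Uu.1 h1) (mem_Ll.1 h2)

lemma UL_sup {o : Finset GolayPt} (ho : o ∈ octads) {p : GolayPt} (hp : p ∉ o) : Uu o ⊔ Ll o p = ⊤ := by
  rw [eq_top_iff]
  intro g _
  obtain ⟨e, he, h⟩ := trans_Uu ho hp (not_mem_of_smul (mem_Nn.1 g.2) hp)
  have h1 : e⁻¹ * g ∈ Ll o p := by
    rw [mem_Ll]
    show ((e : ↥M24) : Equiv.Perm GolayPt)⁻¹ (((g : ↥M24) : Equiv.Perm GolayPt) p) = p
    rw [← h]
    exact Equiv.symm_apply_apply _ p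
  have h2 : g = e * (e⁻¹ * g) := by rw [mul_inv_cancel_left]
  rw [h2]
  exact mul_mem (Subgroup.mem_sup_left he) (Subgroup.mem_sup_right h1)

lemma UL_faith {o : Finset GolayPt} (ho : o ∈ octads) {p : GolayPt} (hp : p ∉ o) : ∀ m ∈ Ll o p, (∀ u ∈ Uu o, m * u * m⁻¹ = u) → m = 1 := by
  intro m hm hu
  apply Subtype.ext
  apply Subtype.ext
  apply M24_fix9 m.1.2
  have h1 : oᶜ ⊆ Finset.univ.filter fun q => ((m : ↥M24) : Equiv.Perm GolayPt) q = q := by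
    intro q hq
    rw [Finset.mem_filter]
    refine ⟨Finset.mem_univ _, ?_⟩
    obtain ⟨e, he, rfl⟩ := trans_Uu ho hp (Finset.mem_compl.1 hq)
    have h2 := hu e he
    rw [mul_inv_eq_iff_eq_mul] at h2
    have h3 : ((m : ↥M24) : Equiv.Perm GolayPt) * ((e : ↥M24) : Equiv.Perm GolayPt) = ((e : ↥M24) : Equiv.Perm GolayPt) * ((m : ↥M24) : Equiv.Perm GolayPt) :=
      congrArg (fun x : Nn o => ((x : ↥M24) : Equiv.Perm GolayPt)) h2
    have h4 := congrArg (fun x : Equiv.Perm GolayPt => x p) h3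
    simp only [Equiv.Perm.mul_apply] at h4
    rw [h4, mem_Ll.1 hm]
  refine le_trans ?_ (Finset.card_le_card h1)
  rw [Finset.card_compl, (mem_octads.1 ho).2]
  decide

lemma UL_full {o : Finset GolayPt} (ho : o ∈ octads) {p : GolayPt} (hp : p ∉ o) :
    ∀ φ : ↥(Uu o) ≃* ↥(Uu o), ∃ m ∈ Ll o p, ∀ u : ↥(Uu o), ((φ u : ↥(Uu o)) : Nn o) = m * u * m⁻¹ := by
  let f : Ll o p → (↥(Uu o) ≃* ↥(Uu o)) := fun m => MulAut.conjNormal (m : Nn o)
  have hf : ∀ m u, ((f m u : ↥(Uu o)) : Nn o) = m * u * m⁻¹ := fun m u => MulAut.conjNormal_apply _ _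
  have hinj : Function.Injective f := by
    intro a b h
    have h1 : (b : Nn o)⁻¹ * a = 1 := by
      apply UL_faith ho hp _ (mul_mem (inv_mem b.2) a.2)
      intro u hu
      have h2 : (a : Nn o) * u * (a : Nn o)⁻¹ = b * u * (b : Nn o)⁻¹ := by
        have h4 := hf a ⟨u, hu⟩
        have h5 := hf b ⟨u, hu⟩
        rw [h] at h4
        exact h4.symm.trans h5
      have h3 : (b : Nn o)⁻¹ * a * u * ((b : Nn o)⁻¹ * a)⁻¹ = (b : Nn o)⁻¹ * (a * u * (a : Nn o)⁻¹) * b := by group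
      rw [h3, h2]; group
    rw [inv_mul_eq_one] at h1
    exact Subtype.ext h1.symm
  haveI : Finite (↥(Uu o) ≃* ↥(Uu o)) := inferInstance
  have hb := hinj.bijective_of_nat_card_le (by rw [card_Ll ho hp]; exact card_aut_le (Uu_el ho) (card_Uu ho))
  intro φ
  obtain ⟨m, rfl⟩ := hb.2 φ
  exact ⟨m, m.2, fun u => hf m u⟩

lemma fix_comm {σ τ : Equiv.Perm GolayPt} (h : σ * τ = τ * σ) {o : Finset GolayPt} (ho : ∀ q, q ∈ o ↔ τ q = q) : σ • o = o := by
  apply Finset.eq_of_subset_of_card_le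
  · intro x hx
    obtain ⟨y, hy, rfl⟩ := Finset.mem_smul_finset.1 hx
    show σ y ∈ o
    rw [ho] at hy ⊢
    have h1 := congrArg (fun x : Equiv.Perm GolayPt => x y) h
    simp only [Equiv.Perm.mul_apply] at h1
    rw [← h1, hy]
  · rw [Finset.card_smul_finset]

lemma f2_10 : (1 : F2) ≠ 0 := by decide

lemma map_normal {G : Type*} [Group G] {N : Subgroup G} {U : Subgroup N} [hU : U.Normal] {C : Subgroup G} (hC : C ≤ N) : ((U.map N.subtype).subgroupOf C).Normal := by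
  constructor
  intro w hw g
  rw [Subgroup.mem_subgroupOf] at hw ⊢
  obtain ⟨a, ha, haw⟩ := Subgroup.mem_map.1 hw
  obtain ⟨gN, hgN⟩ : ∃ gN : N, (gN : G) = g := ⟨⟨g, hC g.2⟩, rfl⟩
  apply Subgroup.mem_map.2
  refine ⟨gN * a * gN⁻¹, hU.conj_mem a ha gN, ?_⟩
  rw [map_mul, map_mul, map_inv, haw, Subgroup.coe_mul, Subgroup.coe_mul, Subgroup.coe_inv, ← hgN]
  rfl

set_option maxHeartbeats 1000000 in
theorem s5425 (z : ↥Cfsg.M24) (hz : orderOf z = 2) (hfix : (Finset.univ.filter fun p : Cfsg.GolayPt => (z : Equiv.Perm Cfsg.GolayPt) p = p) ∈ Cfsg.octads) (Q : Subgroup ↥Cfsg.M24) (hQ : Q = (Cfsg.pCore 2 ↥(Subgroup.centralizer ({z} : Set ↥Cfsg.M24))).map (Subgroup.centralizer ({z} : Set ↥Cfsg.M24)).subtype) : Cfsg.IsExtraspecial 2 ↥Q ∧ Nat.card ↥Q = 2 ^ 7 ∧ (∃ E : Subgroup ↥Cfsg.M24, E ≤ Q ∧ Cfsg.IsElementaryAbelian 2 E ∧ Nat.card ↥E = 2 ^ 4) ∧ Cfsg.IsLargeExtraspecial Q ∧ ∃ K : Subgroup ↥Cfsg.M24, K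 ≤ Subgroup.centralizer ({z} : Set ↥Cfsg.M24) ∧ Q ⊓ K = ⊥ ∧ Q ⊔ K = Subgroup.centralizer ({z} : Set ↥Cfsg.M24) ∧ Nonempty (↥K ≃* Matrix.SpecialLinearGroup (Fin 3) (ZMod 2)) := by
  haveI : Fact (Nat.Prime 2) := ⟨Nat.prime_two⟩
  obtain ⟨o, hoz, ho⟩ : ∃ o : Finset GolayPt, (∀ q, q ∈ o ↔ (z : Equiv.Perm GolayPt) q = q) ∧ o ∈ octads :=
    ⟨_, fun q => by rw [Finset.mem_filter]; exact and_iff_right (Finset.mem_univ _), hfix⟩
  obtain ⟨p, hp⟩ : ∃ p, p ∉ o := by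
    by_contra hc
    push Not at hc
    have : o = Finset.univ := Finset.eq_univ_iff_forall.2 hc
    have h1 := (mem_octads.1 ho).2
    rw [this] at h1
    exact absurd h1 (by decide)
  have hz1 : z ≠ 1 := by rintro rfl; rw [orderOf_one] at hz; omega
  let zN : Nn o := ⟨z, mem_Nn.2 (fix_smul_eq fun q hq => (hoz q).1 hq)⟩
  have hzU : zN ∈ Uu o := mem_Uu.2 fun q hq => (hoz q).1 hq
  have hzN1 : zN ≠ 1 := fun h => hz1 (congrArg Subtype.val h)
  obtain ⟨u, C⟩ := exists_Uc (n := 3) (Uu_el ho) (card_Uu ho) hzU hzN1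
  obtain ⟨θ, hθ, hr, hθz⟩ := exists_theta C (UL_faith ho hp) (UL_full ho hp) (UL_inf ho hp) (UL_sup ho hp) (Uu_el ho)
  -- centralisers of elements of `U`
  have hfixU : ∀ w ∈ Uu o, w ≠ 1 → ∀ q, q ∈ o ↔ ((w : ↥M24) : Equiv.Perm GolayPt) q = q := by
    intro w hw hw1 q
    constructor
    · exact mem_Uu.1 hw q
    · intro h
      by_contra hq
      apply hw1
      apply Subtype.ext
      apply Subtype.ext
      exact oct_fix_out ho hq w.1.2 (mem_Uu.1 hw) h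
  have hcU : ∀ w ∈ Uu o, w ≠ 1 → ∀ g : ↥M24, g * (w : ↥M24) = (w : ↥M24) * g → g ∈ Nn o := by
    intro w hw hw1 g hg
    rw [mem_Nn]
    exact fix_comm (congrArg Subtype.val hg) (hfixU w hw hw1)
  have hr' : ((Nn o).subtype.comp θ).range = Subgroup.centralizer ({z} : Set ↥M24) := by
    ext g
    rw [Subgroup.mem_centralizer_singleton_iff, MonoidHom.range_comp, hr]
    constructor
    · rintro ⟨x, hx, rfl⟩
      have hx' := Subgroup.mem_centralizer_singleton_iff.1 hx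
      exact congrArg Subtype.val hx'
    · intro h
      have h1 := hcU zN hzU hzN1 g h
      exact ⟨⟨g, h1⟩, Subgroup.mem_centralizer_singleton_iff.2 (Subtype.ext h), rfl⟩
  have hC := transfer (n := 3) (by norm_num) ((Nn o).subtype.comp θ) ((Subgroup.subtype_injective _).comp hθ) hr' (congrArg Subtype.val hθz) Q hQ
  have hx := hC.xs.isExtraspecial
  obtain ⟨K, k1, k2, k3, ⟨e⟩⟩ := hC.comp
  refine ⟨hx, hC.card, hC.el, ⟨hx, hC.cen, hC.nor, ?_⟩, K, k1, k2, k3, ⟨e.trans (glsl 3).symm⟩⟩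
  clear k1 k2 k3 e K
  intro K hK hQK
  have hcomm : ∀ a ∈ Uu o, ∀ b ∈ Uu o, a * b = b * a := fun a ha b hb =>
    congrArg Subtype.val ((Uu_el ho).1.is_comm.comm (⟨a, ha⟩ : Uu o) ⟨b, hb⟩)
  have hsq : ∀ a ∈ Uu o, a * a = 1 := fun a ha => by have := (Uu_el ho).2 a ha; rwa [sq] at this
  -- `U ≤ Q`
  have hUQ : (Uu o).map (Nn o).subtype ≤ Q := by
    have hQ' : Q = (Qg 3).map ((Nn o).subtype.comp θ) := Q_eq _ ((Subgroup.subtype_injective _).comp hθ) hr' Q hQ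
    -- `U` is a normal `2`-subgroup of the centralizer
    have h1 : (Uu o).map (Nn o).subtype ≤ Subgroup.centralizer ({z} : Set ↥M24) := by
      rintro _ ⟨a, ha, rfl⟩
      rw [Subgroup.mem_centralizer_singleton_iff]
      exact congrArg Subtype.val (hcomm a ha zN hzU)
    have h2 : IsPGroup 2 ((Uu o).map (Nn o).subtype) := by
      apply IsPGroup.map
      exact fun a => ⟨1, Subtype.ext (by rw [pow_one]; exact (Uu_el ho).2 a a.2)⟩
    have hn := map_normal (U := Uu o) (C := Subgroup.centralizer ({z} : Set ↥M24)) (fun g hg => hcU zN hzU hzN1 g (Subgroup.mem_centralizer_singleton_iff.1 hg))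
    have h3 : ((Uu o).map (Nn o).subtype).subgroupOf (Subgroup.centralizer ({z} : Set ↥M24)) ≤ pCore 2 (Subgroup.centralizer ({z} : Set ↥M24)) :=
      Cfsg.Agent.H18.le_pCore hn (h2.comap_of_injective _ (Subgroup.subtype_injective _))
    rw [hQ]
    intro a ha
    exact ⟨⟨a, h1 ha⟩, h3 ha, rfl⟩
  have hdis : ∀ a ∈ Uu o, (a : ↥M24) ∈ K → a = 1 := by
    intro a h1 h2
    exact Subtype.ext (odd_one hK h2 (congrArg Subtype.val (hsq a h1)))
  have hkey : ∀ w ∈ Uu o, w ≠ 1 → ∀ k ∈ K, k * (w : ↥M24) = (w : ↥M24) * k → k = 1 := by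
    intro w hw hw1 k hk hkw
    obtain ⟨kN, hkN⟩ : ∃ kN : Nn o, (kN : ↥M24) = k := ⟨⟨k, hcU w hw hw1 k hkw⟩, rfl⟩
    -- `k` centralises `U`
    have hkU : ∀ a ∈ Uu o, kN * a = a * kN := by
      intro a ha
      have h1 : (a : ↥M24) * k⁻¹ * (a : ↥M24)⁻¹ ∈ K := (Subgroup.mem_normalizer_iff.1 (hQK (hUQ ⟨a, ha, rfl⟩)) _).1 (inv_mem hk)
      have h2 : k * (a : ↥M24) * k⁻¹ * (a : ↥M24)⁻¹ ∈ K := by
        have : k * (a : ↥M24) * k⁻¹ * (a : ↥M24)⁻¹ = k * ((a : ↥M24) * k⁻¹ * (a : ↥M24)⁻¹) := by group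
        rw [this]; exact mul_mem hk h1
      have h3 : kN * a * kN⁻¹ * a⁻¹ ∈ Uu o := mul_mem ((Uu_normal o).conj_mem a ha _) (inv_mem ha)
      have h5 : ((kN * a * kN⁻¹ * a⁻¹ : Nn o) : ↥M24) = k * (a : ↥M24) * k⁻¹ * (a : ↥M24)⁻¹ := by
        rw [Subgroup.coe_mul, Subgroup.coe_mul, Subgroup.coe_mul, Subgroup.coe_inv, Subgroup.coe_inv, hkN]
      have h4 := hdis _ h3 (by rw [h5]; exact h2)
      rw [mul_inv_eq_one, mul_inv_eq_iff_eq_mul] at h4
      exact h4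
    have hmem : kN ∈ Uu o := by
      obtain ⟨v, hv, m, hm, hvm⟩ : ∃ v ∈ Uu o, ∃ m ∈ Ll o p, v * m = kN := by
        have : kN ∈ Uu o ⊔ Ll o p := by rw [UL_sup ho hp]; trivial
        obtain ⟨v, hv, m, hm, h⟩ := Subgroup.mem_sup_of_normal_left.1 this
        exact ⟨v, hv, m, hm, h⟩
      have hm1 : m = 1 := by
        apply UL_faith ho hp m hm
        intro a ha
        have h1 := hkU a ha
        rw [← hvm] at h1
        have h2 := hcomm v hv a ha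
        have h3 : v * (m * a) = v * (a * m) := by rw [← mul_assoc, h1, ← mul_assoc, ← h2, mul_assoc]
        rw [mul_left_cancel h3]; group
      rw [← hvm, hm1, mul_one]; exact hv
    have h9 := hdis _ hmem (by rw [hkN]; exact hk)
    rw [← hkN, h9]; rfl
  -- another element of `U`
  obtain ⟨w, hw, hw1, hwz⟩ : ∃ w ∈ Uu o, w ≠ 1 ∧ w ≠ zN := by
    refine ⟨u 0 (fun _ => 1), C.mem _ _, ?_, ?_⟩
    · intro h
      rw [← C.one] at h
      have := congrFun (C.inj _ _ _ _ h).2 0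
      exact f2_10 this
    · intro h
      rw [← C.z] at h
      exact f2_10 (C.inj _ _ _ _ h).1.symm
  have hzw1 : zN * w ≠ 1 := by
    intro h
    apply hwz
    have h1 : zN⁻¹ = zN := inv_eq_of_mul_eq_one_right (hsq _ hzU)
    rw [mul_eq_one_iff_inv_eq, h1] at h
    exact h.symm
  have hi1 := inverts (K := K) (t := (w : ↥M24)) (congrArg Subtype.val (hsq w hw)) (hQK (hUQ ⟨w, hw, rfl⟩)) (hkey w hw hw1)
  have hi2 := inverts (K := K) (t := z) (congrArg Subtype.val (hsq zN hzU)) (hQK (hUQ ⟨zN, hzU, rfl⟩)) (hkey zN hzU hzN1)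
  rw [eq_bot_iff]
  intro k hk
  rw [Subgroup.mem_bot]
  apply hkey (zN * w) (mul_mem hzU hw) hzw1 k hk
  have h1 := hi1 k hk
  have h2 := hi2 _ (inv_mem hk)
  rw [inv_inv] at h2
  show k * (z * (w : ↥M24)) = (z * (w : ↥M24)) * k
  have h3 : (z * (w : ↥M24)) * k * (z * (w : ↥M24))⁻¹ = k := by
    calc (z * (w : ↥M24)) * k * (z * (w : ↥M24))⁻¹ = z * ((w : ↥M24) * k * (w : ↥M24)⁻¹) * z⁻¹ := by group
      _ = k := by rw [h1, h2]
  rw [mul_inv_eq_iff_eq_mul] at h3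
  exact h3.symm

end Cfsg.Agent.H1.ExC
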