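import Cfsg.Agent.H1.FrobQuot
import Cfsg.Agent.H1.NilHall
import Cfsg.Agent.H24.MaxNil

set_option autoImplicit false

/-! Conjugacy of Frobenius complements (helper1). -/

namespace Cfsg.Agent.H1

open Subgroup Cfsg
open scoped Pointwise

universe u

variable {G : Type u} [Group G] [Finite G]

theorem frob_card_mul {K R : Subgroup G} [K.Normal] (h1 : K ⊓ R = ⊥) (h2 : K ⊔ R = ⊤) :
    Nat.card K * Nat.card R = Nat.card G := by
  have hc : IsComplement' K R := isComplement'_of_disjoint_and_mul_eq_univ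
    (disjoint_iff.2 h1) (by rw [← normal_mul, h2, coe_top])
  exact hc.card_mul

theorem frob_comparable {H H₀ : Subgroup G} (hH : IsFrobeniusComplement H)
    (hH₀ : IsFrobeniusComplement H₀) (hle : Nat.card H₀ ≤ Nat.card H) :
    ∃ K K₀ : Subgroup G, K.Normal ∧ K₀.Normal ∧ K ⊓ H = ⊥ ∧ K ⊔ H = ⊤ ∧ K₀ ⊓ H₀ = ⊥ ∧
      K₀ ⊔ H₀ = ⊤ ∧ K ≤ K₀ ∧ K ≠ ⊥ ∧ Group.IsNilpotent K₀ ∧
      ∀ x ∈ H, x ≠ 1 → ∀ k ∈ K, Commute x k → k = 1 := by
  obtain ⟨K, -, hKn, hK1, hK2, hKb, hKnil, hfix⟩ := frob_struct hH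
  obtain ⟨K₀, -, hK₀n, hK₀1, hK₀2, hK₀b, hK₀nil, hfix₀⟩ := frob_struct hH₀
  refine ⟨K, K₀, hKn, hK₀n, hK1, hK2, hK₀1, hK₀2, ?_, hKb, hK₀nil, hfix⟩
  by_contra hcon
  have h1 := frob_normal_le hK2 hfix K₀ hcon
  have c1 := frob_card_mul hK1 hK2
  have c2 := frob_card_mul hK₀1 hK₀2
  have h2 : Nat.card K ≤ Nat.card K₀ := by
    by_contra h3
    push Not at h3
    have h4 : 0 < Nat.card H := Nat.card_pos
    have h5 : Nat.card K₀ * Nat.card H₀ ≤ Nat.card K₀ * Nat.card H := Nat.mul_le_mul_left _ hle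
    have h6 : Nat.card K₀ * Nat.card H < Nat.card K * Nat.card H := Nat.mul_lt_mul_of_pos_right h3 h4
    omega
  exact hcon (Subgroup.eq_of_le_of_card_ge h1 h2).ge

theorem frob_compl_le {H H₀ : Subgroup G} (hH : IsFrobeniusComplement H)
    (hH₀ : IsFrobeniusComplement H₀) (hle : Nat.card H₀ ≤ Nat.card H) :
    ∃ g : G, MulAut.conj g • H₀ ≤ H := by
  obtain ⟨K, K₀, hKn, hK₀n, hK1, hK2, hK₀1, hK₀2, hKK, -⟩ := frob_comparable hH hH₀ hle
  have c1 := frob_card_mul hK1 hK2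
  have c2 := frob_card_mul hK₀1 hK₀2
  have hd : Nat.card H₀ ∣ Nat.card H := by
    obtain ⟨m, hm⟩ := card_dvd_of_le hKK
    refine ⟨m, ?_⟩
    have h3 : 0 < Nat.card K := Nat.card_pos
    apply Nat.eq_of_mul_eq_mul_left h3
    rw [c1, ← c2, hm]; ring
  obtain ⟨x, hx⟩ := frob_le_conj hH H₀ hd
  refine ⟨x⁻¹, ?_⟩
  rw [← inv_inv x] at hx
  rw [← conj_one_smul H, ← inv_mul_cancel x, ← conj_smul_smul]
  exact pointwise_smul_le_pointwise_smul_iff.2 (by rwa [inv_inv] at hx)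

theorem frob_compl_conj {H H₀ : Subgroup G} (hH : IsFrobeniusComplement H)
    (hH₀ : IsFrobeniusComplement H₀) (hle : Nat.card H₀ ≤ Nat.card H) :
    ∃ g : G, MulAut.conj g • H₀ = H := by
  obtain ⟨g, hg⟩ := frob_compl_le hH hH₀ hle
  refine ⟨g, Subgroup.eq_of_le_of_card_ge hg ?_⟩
  rw [card_conj_smul]
  obtain ⟨K, K₀, hKn, hK₀n, hK1, hK2, hK₀1, hK₀2, hKK, hKb, hnil, hfix⟩ :=
    frob_comparable hH hH₀ hle
  have c1 := frob_card_mul hK1 hK2
  have c2 := frob_card_mul hK₀1 hK₀2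
  -- `K₀ ∩ H = 1`
  have hint : K₀ ⊓ H = ⊥ := by
    by_contra hne
    obtain ⟨p, hp, hpd⟩ := Nat.exists_prime_and_dvd (n := Nat.card ↥(K₀ ⊓ H))
      (fun e => hne (Subgroup.card_eq_one.1 e))
    haveI : Fact p.Prime := ⟨hp⟩
    obtain ⟨⟨x, hx⟩, hxo⟩ := exists_prime_orderOf_dvd_card' (G := ↥(K₀ ⊓ H)) p hpd
    rw [Subgroup.orderOf_mk] at hxo
    obtain ⟨hx0, hxH⟩ := Subgroup.mem_inf.1 hx
    have hx1 : x ≠ 1 := by
      rintro rfl
      rw [orderOf_one] at hxo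
      exact hp.one_lt.ne hxo
    obtain ⟨⟨k, hk⟩, hk1⟩ := (Subgroup.ne_bot_iff_exists_ne_one (H := K)).mp hKb
    apply hk1
    apply Subtype.ext
    refine hfix x hxH hx1 k hk ?_
    have hcop : (Nat.card H).Coprime (Nat.card K) := by
      have h1 := frob_coprime hH
      have h2 : H.index = Nat.card K := by
        have h3 := H.card_mul_index
        have h4 : 0 < Nat.card H := Nat.card_pos
        apply Nat.eq_of_mul_eq_mul_left h4
        rw [h3, ← c1]; ring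
      rwa [h2] at h1
    have h5 := Cfsg.Agent.H24.commute_of_nilpotent_coprime hnil (p := p) (x := ⟨x, hx0⟩)
      (y := ⟨k, hKK hk⟩) ⟨1, by rw [Subgroup.orderOf_mk, hxo, pow_one]⟩ (by
        rw [Subgroup.orderOf_mk, ← hxo]
        exact (Nat.Coprime.coprime_dvd_left (Subgroup.orderOf_dvd_natCard H hxH)
          (Nat.Coprime.coprime_dvd_right (Subgroup.orderOf_dvd_natCard K hk) hcop)).symm)
    exact congrArg Subtype.val h5
  have h6 : K₀ = K := by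
    refine le_antisymm ?_ hKK
    intro x hx
    have hgt : x ∈ K ⊔ H := by rw [hK2]; trivial
    obtain ⟨k, hk, y, hy, rfl⟩ := mem_sup_of_normal_left.mp hgt
    have h7 : y ∈ K₀ ⊓ H := ⟨by
      have := mul_mem (inv_mem (hKK hk)) hx
      rwa [inv_mul_cancel_left] at this, hy⟩
    rw [hint, mem_bot] at h7
    rw [h7, mul_one]; exact hk
  subst h6
  have h7 : 0 < Nat.card K₀ := Nat.card_pos
  have h8 : Nat.card K₀ * Nat.card H = Nat.card K₀ * Nat.card H₀ := by rw [c1, c2]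
  exact (Nat.eq_of_mul_eq_mul_left h7 h8).le

end Cfsg.Agent.H1
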