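import Cfsg.Prelude.Def_Sporadic_a

set_option autoImplicit false

/-! Self-dual binary codes of length 24 and minimum weight at least 8. -/

namespace Cfsg.Agent.H1.Golay

open Finset

variable {ι : Type*} [Fintype ι] [DecidableEq ι]

/-- support -/
def sp (w : ι → ZMod 2) : Finset ι := Finset.univ.filter fun i => w i ≠ 0

/-- indicator word -/
def ind (S : Finset ι) : ι → ZMod 2 := fun i => if i ∈ S then 1 else 0

theorem norm_eq (w : ι → ZMod 2) : hammingNorm w = (sp w).card := rfl

theorem mem_sp {w : ι → ZMod 2} {i : ι} : i ∈ sp w ↔ w i ≠ 0 := by simp [sp]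

theorem z2_cases (a : ZMod 2) : a = 0 ∨ a = 1 := by revert a; decide

theorem z2_ne_zero {a : ZMod 2} : a ≠ 0 ↔ a = 1 := by revert a; decide

theorem sp_ind (S : Finset ι) : sp (ind S) = S := by
  ext i; simp [mem_sp, ind]

theorem ind_sp (w : ι → ZMod 2) : ind (sp w) = w := by
  funext i
  unfold ind
  split_ifs with h
  · exact (z2_ne_zero.1 (mem_sp.1 h)).symm
  · by_contra h'
    exact h (mem_sp.2 (Ne.symm h'))

theorem sp_inj {v w : ι → ZMod 2} (h : sp v = sp w) : v = w := by
  rw [← ind_sp v, h, ind_sp]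

theorem sp_zero : sp (0 : ι → ZMod 2) = ∅ := by ext i; simp [mem_sp]

theorem sp_one : sp (1 : ι → ZMod 2) = Finset.univ := by ext i; simp [mem_sp]

theorem sp_add (v w : ι → ZMod 2) : sp (v + w) = symmDiff (sp v) (sp w) := by
  ext i
  simp only [mem_sp, Finset.mem_symmDiff, Pi.add_apply]
  generalize v i = a
  generalize w i = b
  revert a b; decide

theorem sub_eq_add' (v w : ι → ZMod 2) : v - w = v + w := by
  funext i
  simp only [Pi.sub_apply, Pi.add_apply]
  generalize v i = a
  generalize w i = b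
  revert a b; decide

theorem sp_sub (v w : ι → ZMod 2) : sp (v - w) = symmDiff (sp v) (sp w) := by
  rw [sub_eq_add', sp_add]

theorem dot_eq (v w : ι → ZMod 2) : ∑ i, v i * w i = ((sp v ∩ sp w).card : ZMod 2) := by
  rw [Finset.card_eq_sum_ones, Nat.cast_sum, ← Finset.sum_subset (Finset.subset_univ (sp v ∩ sp w))]
  · refine Finset.sum_congr rfl fun i hi => ?_
    rw [Finset.mem_inter, mem_sp, mem_sp, z2_ne_zero, z2_ne_zero] at hi
    rw [hi.1, hi.2]; simp
  · intro i _ hi
    rw [Finset.mem_inter, mem_sp, mem_sp, z2_ne_zero, z2_ne_zero, not_and_or] at hi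
    rcases z2_cases (v i) with h | h
    · rw [h, zero_mul]
    · rcases z2_cases (w i) with h' | h'
      · rw [h', mul_zero]
      · rcases hi with hi | hi
        · exact absurd h hi
        · exact absurd h' hi

theorem card_sd (s t : Finset ι) : (symmDiff s t).card + 2 * (s ∩ t).card = s.card + t.card := by
  have h1 : (symmDiff s t).card = (s \ t).card + (t \ s).card := by
    rw [symmDiff_def, Finset.sup_eq_union, Finset.card_union_of_disjoint]
    exact disjoint_sdiff_sdiff
  have h2 : (s \ t).card + (s ∩ t).card = s.card := Finset.card_sdiff_add_card_inter s t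
  have h3 : (t \ s).card + (t ∩ s).card = t.card := Finset.card_sdiff_add_card_inter t s
  rw [Finset.inter_comm t s] at h3
  omega

/-- hypotheses -/
structure IsG (C : Submodule (ZMod 2) (ι → ZMod 2)) : Prop where
  card : Fintype.card ι = 24
  dim : Module.finrank (ZMod 2) C = 12
  orth : ∀ v ∈ C, ∀ w ∈ C, ∑ i, v i * w i = 0
  min : ∀ w ∈ C, w ≠ 0 → 8 ≤ hammingNorm w

variable {C : Submodule (ZMod 2) (ι → ZMod 2)}

/-- the dual code -/
def perp (C : Submodule (ZMod 2) (ι → ZMod 2)) : Submodule (ZMod 2) (ι → ZMod 2) :=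
  C.dualAnnihilator.comap (dotProductEquiv (ZMod 2) ι).toLinearMap

theorem mem_perp {y : ι → ZMod 2} : y ∈ perp C ↔ ∀ c ∈ C, ∑ i, y i * c i = 0 := by
  unfold perp
  rw [Submodule.mem_comap, Submodule.mem_dualAnnihilator]
  rfl

theorem finrank_perp (C : Submodule (ZMod 2) (ι → ZMod 2)) :
    Module.finrank (ZMod 2) C + Module.finrank (ZMod 2) (perp C) = Fintype.card ι := by
  have h1 := Subspace.finrank_add_finrank_dualAnnihilator_eq C
  rw [Module.finrank_fintype_fun_eq_card] at h1
  have h2 : Module.finrank (ZMod 2) (perp C) = Module.finrank (ZMod 2) C.dualAnnihilator := by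
    unfold perp
    exact LinearEquiv.finrank_eq ((dotProductEquiv (ZMod 2) ι).submoduleMap _ |>.trans
      (LinearEquiv.ofEq _ _ (by
        rw [Submodule.map_comap_eq_of_surjective]
        exact (dotProductEquiv (ZMod 2) ι).surjective)))
  rw [h2]; exact h1

theorem self_dual (h : IsG C) : perp C = C := by
  symm
  apply Submodule.eq_of_le_of_finrank_eq
  · intro c hc
    rw [mem_perp]
    intro d hd
    exact h.orth c hc d hd
  · have := finrank_perp C
    rw [h.dim, h.card] at this
    rw [h.dim]; omega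

theorem mem_of_orth (h : IsG C) {y : ι → ZMod 2} (hy : ∀ c ∈ C, ∑ i, y i * c i = 0) : y ∈ C := by
  rw [← self_dual h]; exact mem_perp.2 hy

theorem even_wt (h : IsG C) {w : ι → ZMod 2} (hw : w ∈ C) : 2 ∣ (sp w).card := by
  have := h.orth w hw w hw
  rw [dot_eq, Finset.inter_self] at this
  exact (ZMod.natCast_eq_zero_iff _ _).1 this

theorem one_mem (h : IsG C) : (1 : ι → ZMod 2) ∈ C := by
  apply mem_of_orth h
  intro c hc
  rw [dot_eq, sp_one, Finset.univ_inter]
  exact (ZMod.natCast_eq_zero_iff _ _).2 (even_wt h hc)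

theorem wt_cases (h : IsG C) {w : ι → ZMod 2} (hw : w ∈ C) :
    w = 0 ∨ w = 1 ∨ (8 ≤ (sp w).card ∧ (sp w).card ≤ 16) := by
  by_cases h0 : w = 0
  · exact Or.inl h0
  by_cases h1 : w = 1
  · exact Or.inr (Or.inl h1)
  right; right
  refine ⟨h.min w hw h0, ?_⟩
  have h2 : w + 1 ∈ C := C.add_mem hw (one_mem h)
  have h3 : w + 1 ≠ 0 := by
    intro h3
    apply h1
    funext i
    have := congrFun h3 i
    simp only [Pi.add_apply, Pi.one_apply, Pi.zero_apply] at this ⊢
    generalize w i = a at this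
    revert a; decide
  have h4 := h.min _ h2 h3
  rw [norm_eq, sp_add, sp_one] at h4
  have h5 := card_sd (sp w) Finset.univ
  rw [Finset.inter_univ, Finset.card_univ, h.card] at h5
  omega

/-- restriction to `T` -/
def res (C : Submodule (ZMod 2) (ι → ZMod 2)) (T : Finset ι) : C →ₗ[ZMod 2] (T → ZMod 2) :=
  (LinearMap.funLeft (ZMod 2) (ZMod 2) (fun t : T => (t : ι))).comp C.subtype

theorem res_apply (T : Finset ι) (c : C) (t : T) : res C T c t = (c : ι → ZMod 2) t := rfl

theorem res_surj (h : IsG C) {T : Finset ι} (hT : T.card ≤ 7) : Function.Surjective (res C T) := by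
  rw [← LinearMap.range_eq_top]
  by_contra hne
  obtain ⟨f, hf0, hf⟩ := Submodule.exists_dual_map_eq_bot_of_lt_top (lt_top_iff_ne_top.2 hne) inferInstance
  -- coordinates of f
  let a : T → ZMod 2 := fun t => f (Pi.single t 1)
  have hfa : ∀ g : T → ZMod 2, f g = ∑ t, g t * a t := by
    intro g
    rw [LinearMap.pi_apply_eq_sum_univ f g]
    refine Finset.sum_congr rfl fun t _ => ?_
    rw [smul_eq_mul]
    congr 2
    funext j
    rw [Pi.single_apply]
    by_cases htj : t = j
    · rw [if_pos htj, if_pos htj.symm]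
    · rw [if_neg htj, if_neg (Ne.symm htj)]
  let y : ι → ZMod 2 := fun i => if hi : i ∈ T then a ⟨i, hi⟩ else 0
  have hy : ∀ c ∈ C, ∑ i, y i * c i = 0 := by
    intro c hc
    have h1 : f (res C T ⟨c, hc⟩) = 0 := by
      have : f (res C T ⟨c, hc⟩) ∈ (LinearMap.range (res C T)).map f :=
        Submodule.mem_map_of_mem (LinearMap.mem_range_self _ _)
      rw [hf] at this
      exact (Submodule.mem_bot _).1 this
    rw [hfa] at h1
    rw [← h1]
    rw [← Finset.sum_subset (Finset.subset_univ T)]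
    · rw [← Finset.sum_coe_sort T]
      refine Finset.sum_congr rfl fun t _ => ?_
      show y t * c t = c t * a t
      have : y t = a t := by simp [y]
      rw [this, mul_comm]
    · intro i _ hi
      have : y i = 0 := by simp [y, hi]
      rw [this, zero_mul]
  have hyC := mem_of_orth h hy
  have hy0 : y ≠ 0 := by
    intro hy0
    apply hf0
    ext t
    have : a t = 0 := by
      have h1 : y t = a t := by simp [y]
      rw [← h1, hy0]; rfl
    simpa [a] using this
  have h8 := h.min y hyC hy0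
  have hle : (sp y).card ≤ T.card := by
    apply Finset.card_le_card
    intro i hi
    rw [mem_sp] at hi
    by_contra hiT
    apply hi
    simp [y, hiT]
  rw [norm_eq] at h8
  omega

open Classical in
/-- words of `C` -/
noncomputable def CF (C : Submodule (ZMod 2) (ι → ZMod 2)) : Finset (ι → ZMod 2) :=
  Finset.univ.filter fun w => w ∈ C

theorem mem_CF {w : ι → ZMod 2} : w ∈ CF C ↔ w ∈ C := by
  classical
  simp [CF]

theorem card_over (h : IsG C) {T : Finset ι} (hT : T.card ≤ 7) :
    ((CF C).filter fun w => T ⊆ sp w).card = 2 ^ (12 - T.card) := by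
  classical
  obtain ⟨c₀, hc₀⟩ := res_surj h hT (fun _ => 1)
  have hk : Module.finrank (ZMod 2) (LinearMap.ker (res C T)) = 12 - T.card := by
    have h1 := LinearMap.finrank_range_add_finrank_ker (res C T)
    rw [LinearMap.range_eq_top.2 (res_surj h hT), finrank_top, h.dim, Module.finrank_fintype_fun_eq_card,
      Fintype.card_coe] at h1
    omega
  have hcard : Nat.card (LinearMap.ker (res C T)) = 2 ^ (12 - T.card) := by
    rw [Module.natCard_eq_pow_finrank (K := ZMod 2), hk, Nat.card_zmod]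
  rw [← hcard, ← Nat.card_eq_finsetCard]
  refine Nat.card_congr ⟨fun w => ⟨⟨w.1, mem_CF.1 (Finset.mem_filter.1 w.2).1⟩ - c₀, ?_⟩,
    fun k => ⟨(k.1 + c₀ : C), ?_⟩, ?_, ?_⟩
  · rw [LinearMap.mem_ker, map_sub, hc₀, sub_eq_zero]
    funext t
    rw [res_apply]
    have := (Finset.mem_filter.1 w.2).2 t.2
    exact z2_ne_zero.1 (mem_sp.1 this)
  · rw [Finset.mem_filter]
    refine ⟨mem_CF.2 (k.1 + c₀ : C).2, ?_⟩
    intro t ht
    rw [mem_sp]
    have h1 : res C T (k.1 + c₀) = fun _ => 1 := by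
      rw [map_add, hc₀, LinearMap.mem_ker.1 k.2, zero_add]
    have h2 := congrFun h1 ⟨t, ht⟩
    rw [res_apply] at h2
    rw [h2]; decide
  · intro w
    apply Subtype.ext
    simp
  · intro k
    apply Subtype.ext
    apply Subtype.ext
    simp

theorem double_count (h : IsG C) {T : Finset ι} (j : ℕ) (hT : T.card + j ≤ 7) :
    ∑ w ∈ (CF C).filter (fun w => T ⊆ sp w), ((sp w \ T).card).choose j =
      (24 - T.card).choose j * 2 ^ (12 - (T.card + j)) := by
  classical
  have h1 : ∀ w ∈ (CF C).filter (fun w => T ⊆ sp w), ((sp w \ T).card).choose j =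
      (((Finset.univ \ T).powersetCard j).filter (fun J => J ⊆ sp w)).card := by
    intro w _
    rw [← Finset.card_powersetCard]
    congr 1
    ext J
    simp only [Finset.mem_powersetCard, Finset.mem_filter, Finset.subset_sdiff]
    constructor
    · rintro ⟨⟨h1, h2⟩, h3⟩
      exact ⟨⟨⟨Finset.subset_univ _, h2⟩, h3⟩, h1⟩
    · rintro ⟨⟨⟨_, h2⟩, h3⟩, h1⟩
      exact ⟨⟨h1, h2⟩, h3⟩
  rw [Finset.sum_congr rfl h1]
  simp_rw [Finset.card_filter]
  rw [Finset.sum_comm]
  have h2 : ∀ J ∈ (Finset.univ \ T).powersetCard j,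
      (∑ w ∈ (CF C).filter (fun w => T ⊆ sp w), if J ⊆ sp w then 1 else 0) = 2 ^ (12 - (T.card + j)) := by
    intro J hJ
    rw [Finset.mem_powersetCard, Finset.subset_sdiff] at hJ
    have hTJ : (T ∪ J).card = T.card + j := by
      rw [Finset.card_union_of_disjoint hJ.1.2.symm, hJ.2]
    have h3 := card_over h (T := T ∪ J) (by omega)
    rw [hTJ] at h3
    rw [← h3, ← Finset.card_filter, Finset.filter_filter]
    congr 1
    ext w
    simp only [Finset.mem_filter, Finset.union_subset_iff]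
  rw [Finset.sum_congr rfl h2, Finset.sum_const, Finset.card_powersetCard, smul_eq_mul,
    Finset.card_sdiff_of_subset (Finset.subset_univ T), Finset.card_univ, h.card]

/-- Every word has weight `0, 8, 12, 16, 24`. -/
theorem doubly_even (h : IsG C) {w : ι → ZMod 2} (hw : w ∈ C) : 4 ∣ (sp w).card := by
  classical
  have key : ∀ x : ℕ, x ≤ 24 → (((x : ℤ) - 8) * ((x : ℤ) - 12) ^ 2 * ((x : ℤ) - 16)) =
      18432 * (x.choose 0 : ℤ) - 5727 * (x.choose 1 : ℤ) + 1422 * (x.choose 2 : ℤ)
        - 252 * (x.choose 3 : ℤ) + 24 * (x.choose 4 : ℤ) := by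
    decide
  have hle : ∀ w : ι → ZMod 2, (sp w).card ≤ 24 := by
    intro w
    rw [← h.card, ← Finset.card_univ]
    exact Finset.card_le_card (Finset.subset_univ _)
  have hS : ∀ j, j ≤ 7 → ∑ w ∈ CF C, (((sp w).card.choose j : ℕ) : ℤ) =
      ((24).choose j * 2 ^ (12 - j) : ℕ) := by
    intro j hj
    have := double_count h (T := ∅) j (by simpa using hj)
    simp only [Finset.empty_subset, Finset.filter_true, Finset.sdiff_empty, Finset.card_empty,
      Nat.sub_zero, Nat.zero_add] at this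
    rw [← this, Nat.cast_sum]
  have htot : ∑ w ∈ CF C, ((((sp w).card : ℤ) - 8) * (((sp w).card : ℤ) - 12) ^ 2 * (((sp w).card : ℤ) - 16)) = 36864 := by
    rw [Finset.sum_congr rfl fun w _ => key _ (hle w)]
    simp only [Finset.sum_add_distrib, Finset.sum_sub_distrib, ← Finset.mul_sum]
    rw [hS 0 (by omega), hS 1 (by omega), hS 2 (by omega), hS 3 (by omega), hS 4 (by omega)]
    decide
  -- split off 0 and 1
  have h0 : (0 : ι → ZMod 2) ∈ CF C := mem_CF.2 C.zero_mem
  have h01 : (1 : ι → ZMod 2) ≠ 0 := by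
    intro h01
    have h1 : sp (1 : ι → ZMod 2) = sp 0 := by rw [h01]
    rw [sp_one, sp_zero] at h1
    have h2 := congrArg Finset.card h1
    rw [Finset.card_univ, h.card] at h2
    simp at h2
  have h1 : (1 : ι → ZMod 2) ∈ (CF C).erase 0 := Finset.mem_erase.2 ⟨h01, mem_CF.2 (one_mem h)⟩
  rw [← Finset.add_sum_erase _ _ h0, ← Finset.add_sum_erase _ _ h1] at htot
  rw [sp_zero, sp_one, Finset.card_univ, h.card] at htot
  have hz : ∑ w ∈ ((CF C).erase 0).erase 1,
      ((((sp w).card : ℤ) - 8) * (((sp w).card : ℤ) - 12) ^ 2 * (((sp w).card : ℤ) - 16)) = 0 := by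
    norm_num at htot
    linarith
  have hneg : ∀ w ∈ ((CF C).erase 0).erase 1,
      ((((sp w).card : ℤ) - 8) * (((sp w).card : ℤ) - 12) ^ 2 * (((sp w).card : ℤ) - 16)) ≤ 0 := by
    intro w hw
    rw [Finset.mem_erase, Finset.mem_erase, mem_CF] at hw
    rcases wt_cases h hw.2.2 with h' | h' | h'
    · exact absurd h' hw.2.1
    · exact absurd h' hw.1
    · have ha : (0 : ℤ) ≤ ((sp w).card : ℤ) - 8 := by have := h'.1; omega
      have hb : ((sp w).card : ℤ) - 16 ≤ 0 := by have := h'.2; omega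
      exact mul_nonpos_of_nonneg_of_nonpos (mul_nonneg ha (sq_nonneg _)) hb
  have hall := (Finset.sum_eq_zero_iff_of_nonpos hneg).1 hz
  by_cases hw0 : w = 0
  · rw [hw0, sp_zero]; simp
  by_cases hw1 : w = 1
  · rw [hw1, sp_one, Finset.card_univ, h.card]; decide
  have := hall w (Finset.mem_erase.2 ⟨hw1, Finset.mem_erase.2 ⟨hw0, mem_CF.2 hw⟩⟩)
  rcases mul_eq_zero.1 this with h2 | h2
  · rcases mul_eq_zero.1 h2 with h3 | h3
    · omega
    · have := pow_eq_zero_iff (two_ne_zero) |>.1 h3
      omega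
  · omega

/-- Through five points there is exactly one octad. -/
theorem octad_count (h : IsG C) {T : Finset ι} (hT : T.card = 5) :
    (((CF C).filter (fun w => T ⊆ sp w)).filter (fun w => (sp w).card = 8)).card = 1 := by
  classical
  have key : ∀ y : ℕ, y ≤ 19 → ((y : ℤ) + 5 - 12) * ((y : ℤ) + 5 - 16) =
      77 * (y.choose 0 : ℤ) - 17 * (y.choose 1 : ℤ) + 2 * (y.choose 2 : ℤ) := by
    decide
  set F := (CF C).filter (fun w => T ⊆ sp w) with hF
  have hle : ∀ w ∈ F, (sp w \ T).card ≤ 19 ∧ (sp w \ T).card + 5 = (sp w).card := by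
    intro w hw
    have h1 : T ⊆ sp w := (Finset.mem_filter.1 hw).2
    have h2 := Finset.card_sdiff_of_subset h1
    have h3 : (sp w).card ≤ 24 := by
      rw [← h.card, ← Finset.card_univ]
      exact Finset.card_le_card (Finset.subset_univ _)
    have h4 := Finset.card_le_card h1
    omega
  have hS : ∀ j, j ≤ 2 → ∑ w ∈ F, (((sp w \ T).card.choose j : ℕ) : ℤ) =
      ((19).choose j * 2 ^ (7 - j) : ℕ) := by
    intro j hj
    have := double_count h (T := T) j (by omega)
    rw [hT] at this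
    rw [show 7 - j = 12 - (5 + j) by omega, show (19 : ℕ) = 24 - 5 by norm_num, ← this, Nat.cast_sum]
  have htot : ∑ w ∈ F, ((((sp w \ T).card : ℤ) + 5 - 12) * (((sp w \ T).card : ℤ) + 5 - 16)) = 128 := by
    rw [Finset.sum_congr rfl fun w hw => key _ (hle w hw).1]
    simp only [Finset.sum_add_distrib, Finset.sum_sub_distrib, ← Finset.mul_sum]
    rw [hS 0 (by omega), hS 1 (by omega), hS 2 (by omega)]
    decide
  have htot2 : ∑ w ∈ F, ((((sp w).card : ℤ) - 12) * (((sp w).card : ℤ) - 16)) = 128 := by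
    rw [← htot]
    refine Finset.sum_congr rfl fun w hw => ?_
    have := (hle w hw).2
    rw [← this]; push_cast; ring
  have h1 : (1 : ι → ZMod 2) ∈ F := by
    rw [hF, Finset.mem_filter, sp_one]
    exact ⟨mem_CF.2 (one_mem h), Finset.subset_univ _⟩
  rw [← Finset.add_sum_erase _ _ h1] at htot2
  have hval : ∀ w ∈ F.erase 1, ((((sp w).card : ℤ) - 12) * (((sp w).card : ℤ) - 16)) =
      if (sp w).card = 8 then 32 else 0 := by
    intro w hw
    rw [Finset.mem_erase, hF, Finset.mem_filter, mem_CF] at hw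
    have hne0 : w ≠ 0 := by
      rintro rfl
      have := hw.2.2
      rw [sp_zero, Finset.subset_empty] at this
      rw [this] at hT; simp at hT
    have hd := doubly_even h hw.2.1
    rcases wt_cases h hw.2.1 with h' | h' | h'
    · exact absurd h' hne0
    · exact absurd h' hw.1
    · have : (sp w).card = 8 ∨ (sp w).card = 12 ∨ (sp w).card = 16 := by
        obtain ⟨k, hk⟩ := hd
        omega
      rcases this with h8 | h8 | h8 <;> rw [h8] <;> norm_num
  rw [Finset.sum_congr rfl hval, sp_one, Finset.card_univ, h.card, ← Finset.sum_filter, Finset.sum_const] at htot2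
  have hcard : ((F.erase 1).filter (fun w => (sp w).card = 8)).card = 1 := by
    have : (((F.erase 1).filter (fun w => (sp w).card = 8)).card : ℤ) = 1 := by
      norm_num at htot2
      linarith
    exact_mod_cast this
  rw [← hcard]
  congr 1
  ext w
  simp only [Finset.mem_filter, Finset.mem_erase]
  constructor
  · rintro ⟨hw, h8⟩
    refine ⟨⟨?_, hw⟩, h8⟩
    rintro rfl
    rw [sp_one, Finset.card_univ, h.card] at h8
    omega
  · rintro ⟨⟨_, hw⟩, h8⟩
    exact ⟨hw, h8⟩

theorem octad_exists (h : IsG C) {T : Finset ι} (hT : T.card = 5) :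
    ∃ w ∈ C, (sp w).card = 8 ∧ T ⊆ sp w := by
  obtain ⟨w, hw⟩ := Finset.card_eq_one.1 (octad_count h hT)
  have : w ∈ (((CF C).filter (fun w => T ⊆ sp w)).filter (fun w => (sp w).card = 8)) := by
    rw [hw]; exact Finset.mem_singleton_self _
  rw [Finset.mem_filter, Finset.mem_filter, mem_CF] at this
  exact ⟨w, this.1.1, this.2, this.1.2⟩

theorem octad_unique (h : IsG C) {T : Finset ι} (hT : T.card = 5) {v w : ι → ZMod 2}
    (hv : v ∈ C) (hw : w ∈ C) (hv8 : (sp v).card = 8) (hw8 : (sp w).card = 8)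
    (hTv : T ⊆ sp v) (hTw : T ⊆ sp w) : v = w := by
  have := Finset.card_le_one.1 (octad_count h hT).le
  exact this v (by rw [Finset.mem_filter, Finset.mem_filter, mem_CF]; exact ⟨⟨hv, hTv⟩, hv8⟩)
    w (by rw [Finset.mem_filter, Finset.mem_filter, mem_CF]; exact ⟨⟨hw, hTw⟩, hw8⟩)

theorem steiner (h : IsG C) : IsSteinerSystem 5 8 (wordsOfWeight (C : Set (ι → ZMod 2)) 8) := by
  refine ⟨fun b hb => hb.2, fun s hs => ?_⟩
  obtain ⟨w, hw, h8, hsw⟩ := octad_exists h hs
  refine ⟨sp w, ⟨⟨⟨w, hw, rfl⟩, h8⟩, hsw⟩, ?_⟩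
  rintro b ⟨⟨⟨v, hv, rfl⟩, hb8⟩, hsb⟩
  have : v = w := octad_unique h hs hv hw hb8 h8 hsb hsw
  rw [this]; rfl

theorem exists_octad (h : IsG C) : ∃ w ∈ C, (sp w).card = 8 := by
  obtain ⟨T, -, hT⟩ := Finset.exists_subset_card_eq (s := (Finset.univ : Finset ι)) (n := 5)
    (by rw [Finset.card_univ, h.card]; omega)
  obtain ⟨w, hw, h8, -⟩ := octad_exists h hT
  exact ⟨w, hw, h8⟩

/-- Each coset has a member of weight at most four. -/
theorem leader (h : IsG C) (w : ι → ZMod 2) : ∃ u, u - w ∈ C ∧ (sp u).card ≤ 4 := by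
  classical
  obtain ⟨u, hu, hmin⟩ := Finset.exists_min_image ((Finset.univ : Finset (ι → ZMod 2)).filter fun u => u - w ∈ C)
    (fun u => (sp u).card) ⟨w, by simp⟩
  rw [Finset.mem_filter] at hu
  refine ⟨u, hu.2, ?_⟩
  by_contra h5
  push Not at h5
  obtain ⟨T, hTu, hT⟩ := Finset.exists_subset_card_eq (s := sp u) (n := 5) (by omega)
  obtain ⟨c, hc, h8, hTc⟩ := octad_exists h hT
  have h1 := hmin (u + c) (by
    rw [Finset.mem_filter]
    refine ⟨Finset.mem_univ _, ?_⟩
    rw [show u + c - w = (u - w) + c by abel]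
    exact C.add_mem hu.2 hc)
  rw [sp_add] at h1
  have h2 := card_sd (sp u) (sp c)
  have h3 : 5 ≤ (sp u ∩ sp c).card := by
    rw [← hT]; exact Finset.card_le_card (Finset.subset_inter hTu hTc)
  omega

theorem two_small (h : IsG C) {w u v : ι → ZMod 2} (hu : u - w ∈ C) (hv : v - w ∈ C)
    (hu4 : (sp u).card ≤ 4) (hv4 : (sp v).card ≤ 4) (hne : u ≠ v) :
    (sp u).card = 4 ∧ (sp v).card = 4 ∧ Disjoint (sp u) (sp v) := by
  have h1 : u - v ∈ C := by
    have := C.sub_mem hu hv
    rwa [show u - w - (v - w) = u - v by abel] at this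
  have h2 := h.min _ h1 (sub_ne_zero.2 hne)
  rw [norm_eq, sp_sub] at h2
  have h3 := card_sd (sp u) (sp v)
  refine ⟨by omega, by omega, ?_⟩
  rw [Finset.disjoint_iff_inter_eq_empty, ← Finset.card_eq_zero]
  omega

/-- An octad through a 4-set and a further point. -/
theorem octad_four (h : IsG C) {X : Finset ι} (hX : X.card = 4) {p : ι} (hp : p ∉ X) :
    ∃ c ∈ C, (sp c).card = 8 ∧ X ⊆ sp c ∧ p ∈ sp c := by
  obtain ⟨c, hc, h8, h5⟩ := octad_exists h (T := insert p X) (by rw [Finset.card_insert_of_notMem hp, hX])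
  rw [Finset.insert_subset_iff] at h5
  exact ⟨c, hc, h8, h5.2, h5.1⟩

theorem sextet (h : IsG C) {w u : ι → ZMod 2} (hu : u - w ∈ C) (hu4 : (sp u).card = 4) :
    {u : ι → ZMod 2 | u - w ∈ C ∧ hammingNorm u ≤ 4}.ncard = 6 := by
  classical
  set S : Finset (ι → ZMod 2) := Finset.univ.filter fun u => u - w ∈ C ∧ hammingNorm u ≤ 4 with hS
  have hcoe : {u : ι → ZMod 2 | u - w ∈ C ∧ hammingNorm u ≤ 4} = (S : Set (ι → ZMod 2)) := by
    ext x; simp [hS]
  rw [hcoe, Set.ncard_coe_finset]
  have hmem : ∀ x, x ∈ S ↔ x - w ∈ C ∧ (sp x).card ≤ 4 := by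
    intro x; rw [hS, Finset.mem_filter]; simp [norm_eq]
  have h4 : ∀ x ∈ S, (sp x).card = 4 := by
    intro x hx
    rw [hmem] at hx
    by_cases hxu : x = u
    · rw [hxu]; exact hu4
    · exact (two_small h hx.1 hu hx.2 hu4.le hxu).1
  have hdisj : ∀ x ∈ S, ∀ y ∈ S, x ≠ y → Disjoint (sp x) (sp y) := by
    intro x hx y hy hxy
    rw [hmem] at hx hy
    exact (two_small h hx.1 hy.1 hx.2 hy.2 hxy).2.2
  have hun : S.biUnion sp = Finset.univ := by
    rw [Finset.eq_univ_iff_forall]
    intro p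
    rw [Finset.mem_biUnion]
    by_cases hp : p ∈ sp u
    · exact ⟨u, (hmem u).2 ⟨hu, hu4.le⟩, hp⟩
    · obtain ⟨c, hc, h8, hXc, hpc⟩ := octad_four h hu4 hp
      refine ⟨u + c, (hmem _).2 ⟨?_, ?_⟩, ?_⟩
      · rw [show u + c - w = (u - w) + c by abel]
        exact C.add_mem hu hc
      · rw [sp_add]
        have := card_sd (sp u) (sp c)
        rw [Finset.inter_eq_left.2 hXc] at this
        omega
      · rw [sp_add, Finset.mem_symmDiff]
        exact Or.inr ⟨hpc, hp⟩
  have hc := Finset.card_biUnion hdisj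
  rw [hun, Finset.card_univ, h.card, Finset.sum_congr rfl h4, Finset.sum_const, smul_eq_mul] at hc
  omega

theorem cosets (h : IsG C) (w : ι → ZMod 2) :
    (∃ u : ι → ZMod 2, {u : ι → ZMod 2 | u - w ∈ C ∧ hammingNorm u ≤ 4} = {u} ∧ hammingNorm u ≤ 3) ∨
    ({u : ι → ZMod 2 | u - w ∈ C ∧ hammingNorm u ≤ 4}.ncard = 6 ∧
      ∀ u ∈ {u : ι → ZMod 2 | u - w ∈ C ∧ hammingNorm u ≤ 4}, hammingNorm u = 4 ∧
        ∀ u' ∈ {u : ι → ZMod 2 | u - w ∈ C ∧ hammingNorm u ≤ 4}, u ≠ u' →
          Disjoint (sp u) (sp u')) := by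
  by_cases h3 : ∃ u : ι → ZMod 2, u - w ∈ C ∧ hammingNorm u ≤ 3
  · obtain ⟨u, hu, hu3⟩ := h3
    left
    refine ⟨u, ?_, hu3⟩
    ext v
    simp only [Set.mem_setOf_eq, Set.mem_singleton_iff]
    constructor
    · rintro ⟨hv, hv4⟩
      by_contra hne
      rw [norm_eq] at hv4 hu3
      have := (two_small h hv hu hv4 (by omega) hne).2.1
      omega
    · rintro rfl
      exact ⟨hu, by omega⟩
  · push Not at h3
    right
    obtain ⟨u, hu, hu4⟩ := leader h w
    have hu4' : (sp u).card = 4 := by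
      have := h3 u hu
      rw [norm_eq] at this; omega
    refine ⟨sextet h hu hu4', ?_⟩
    rintro x ⟨hx, hx4⟩
    have hx3 := h3 x hx
    refine ⟨by omega, ?_⟩
    rintro y ⟨hy, hy4⟩ hne
    rw [norm_eq] at hx4 hy4
    exact (two_small h hx hy hx4 hy4 hne).2.2

theorem span_octads (h : IsG C) :
    Submodule.span (ZMod 2) {w : ι → ZMod 2 | w ∈ C ∧ hammingNorm w = 8} = C := by
  classical
  set D := Submodule.span (ZMod 2) {w : ι → ZMod 2 | w ∈ C ∧ hammingNorm w = 8} with hD
  have hDC : D ≤ C := by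
    rw [hD, Submodule.span_le]
    exact fun w hw => hw.1
  by_contra hne
  have hlt : Module.finrank (ZMod 2) D < Module.finrank (ZMod 2) C :=
    Submodule.finrank_lt_finrank_of_lt (lt_of_le_of_ne hDC hne)
  have hp1 := finrank_perp D
  have hp2 := finrank_perp C
  have hCD : C ≤ perp D := by
    intro c hc
    rw [mem_perp]
    intro d hd
    exact h.orth c hc d (hDC hd)
  have hne2 : ¬ perp D ≤ C := by
    intro hle
    have := Submodule.finrank_mono hle
    rw [h.dim] at *
    rw [h.card] at *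
    omega
  obtain ⟨y, hyD, hyC⟩ := SetLike.not_le_iff_exists.1 hne2
  obtain ⟨u, huy, hu4⟩ := leader h y
  have huD : u ∈ perp D := by
    have : u = (u - y) + y := by abel
    rw [this]
    exact (perp D).add_mem (hCD huy) hyD
  have huC : u ∉ C := by
    intro huC
    apply hyC
    have : y = u - (u - y) := by abel
    rw [this]
    exact C.sub_mem huC huy
  have hu0 : (sp u).Nonempty := by
    rw [Finset.nonempty_iff_ne_empty]
    intro h0
    apply huC
    have : u = 0 := sp_inj (by rw [h0, sp_zero])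
    rw [this]; exact C.zero_mem
  have heven : ∀ c ∈ C, (sp c).card = 8 → 2 ∣ (sp u ∩ sp c).card := by
    intro c hc h8
    have h1 := mem_perp.1 huD c (Submodule.subset_span ⟨hc, h8⟩)
    rw [dot_eq] at h1
    exact (ZMod.natCast_eq_zero_iff _ _).1 h1
  have hpos := hu0.card_pos
  rcases Nat.even_or_odd (sp u).card with hk | hk
  · -- even
    obtain ⟨q, hq⟩ := hu0
    -- X ⊇ sp u \ {q}, |X| = 4, q ∉ X
    obtain ⟨X, hX1, hX2, hX⟩ := Finset.exists_subsuperset_card_eq
      (s := (sp u).erase q) (t := Finset.univ.erase q) (n := 4)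
      (Finset.erase_subset_erase _ (Finset.subset_univ _))
      (by rw [Finset.card_erase_of_mem hq]; omega)
      (by rw [Finset.card_erase_of_mem (Finset.mem_univ _), Finset.card_univ, h.card]; omega)
    have hqX : q ∉ X := fun hqX => (Finset.mem_erase.1 (hX2 hqX)).1 rfl
    obtain ⟨c, hc, hc8, hXc, hqc⟩ := octad_four h hX hqX
    obtain ⟨p, hp⟩ : ∃ p, p ∉ sp c := by
      by_contra hall
      push Not at hall
      have : sp c = Finset.univ := Finset.eq_univ_iff_forall.2 hall
      rw [this, Finset.card_univ, h.card] at hc8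
      omega
    have hpX : p ∉ X := fun hpX => hp (hXc hpX)
    obtain ⟨d, hd, hd8, hXd, hpd⟩ := octad_four h hX hpX
    have hqd : q ∉ sp d := by
      intro hqd
      apply hp
      have : d = c := octad_unique h (T := insert q X)
        (by rw [Finset.card_insert_of_notMem hqX, hX]) hd hc hd8 hc8
        (Finset.insert_subset hqd hXd) (Finset.insert_subset hqc hXc)
      rw [← this]; exact hpd
    have h1 := heven d hd hd8
    have h2 : sp u ∩ sp d = (sp u).erase q := by
      ext i
      rw [Finset.mem_inter, Finset.mem_erase]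
      constructor
      · rintro ⟨h1, h2⟩
        refine ⟨?_, h1⟩
        rintro rfl; exact hqd h2
      · rintro ⟨h1, h2⟩
        exact ⟨h2, hXd (hX1 (Finset.mem_erase.2 ⟨h1, h2⟩))⟩
    rw [h2, Finset.card_erase_of_mem hq] at h1
    obtain ⟨k, hk⟩ := hk
    omega
  · -- odd
    obtain ⟨T, hT1, -, hT⟩ := Finset.exists_subsuperset_card_eq
      (s := sp u) (t := Finset.univ) (n := 5) (Finset.subset_univ _) (by omega)
      (by rw [Finset.card_univ, h.card]; omega)
    obtain ⟨c, hc, h8, hTc⟩ := octad_exists h hT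
    have h1 := heven c hc h8
    rw [Finset.inter_eq_left.2 (hT1.trans hTc)] at h1
    obtain ⟨k, hk⟩ := hk
    omega

end Cfsg.Agent.H1.Golay
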