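import Cfsg.Agent.H1.Super2
import Cfsg.Agent.H1.Gaschutz
import Cfsg.Agent.H1.Coprime
import Cfsg.Agent.H2.Frat
import Mathlib.FieldTheory.Finite.Basic

/-!
# Huppert's theorem on supersolvable groups (helper1)
-/

set_option autoImplicit false
set_option linter.all false

open Cfsg

namespace Cfsg.Agent.H1

open Subgroup
open scoped Pointwise commutatorElement

universe u v

theorem prod_X_sub_C_zmod (p : ℕ) [hp : Fact p.Prime] :
    (∏ a : ZMod p, (Polynomial.X - Polynomial.C a)) = (Polynomial.X ^ p - Polynomial.X : Polynomial (ZMod p)) := by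
  have h1 := FiniteField.roots_X_pow_card_sub_X (ZMod p)
  rw [ZMod.card] at h1
  have h2 : (Polynomial.X ^ p - Polynomial.X : Polynomial (ZMod p)).Monic := by
    apply Polynomial.monic_X_pow_sub
    rw [Polynomial.degree_X]
    exact_mod_cast hp.out.one_lt
  have h3 := Polynomial.prod_multiset_X_sub_C_of_monic_of_roots_card_eq h2 (by
    rw [h1, FiniteField.X_pow_card_sub_X_natDegree_eq _ hp.out.one_lt]
    simp)
  rw [h1] at h3
  exact h3

/-- eigenvector of an operator with `T ^ p = T` over `ZMod p` -/
theorem exists_eigenvector {p : ℕ} [hp : Fact p.Prime] {V : Type*} [AddCommGroup V] [Module (ZMod p) V]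
    [Nontrivial V] (T : Module.End (ZMod p) V) (h : T ^ p = T) :
    ∃ (a : ZMod p) (v : V), v ≠ 0 ∧ T v = a • v := by
  classical
  by_contra hcon
  push Not at hcon
  have hinj : ∀ a : ZMod p, Function.Injective (Polynomial.aeval T (Polynomial.X - Polynomial.C a)) := by
    intro a
    rw [injective_iff_map_eq_zero]
    intro v hv
    by_contra hne
    apply hcon a v hne
    rw [map_sub, Polynomial.aeval_X, Polynomial.aeval_C] at hv
    rw [LinearMap.sub_apply, sub_eq_zero] at hv
    rw [hv]
    rfl
  have key : ∀ s : Finset (ZMod p), Function.Injective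
      (Polynomial.aeval T (∏ a ∈ s, (Polynomial.X - Polynomial.C a))) := by
    intro s
    induction s using Finset.induction_on with
    | empty =>
      rw [Finset.prod_empty, map_one]
      exact fun _ _ h => h
    | insert a s ha ih =>
      rw [Finset.prod_insert ha, map_mul]
      exact (hinj a).comp ih
  have h1 := key Finset.univ
  rw [prod_X_sub_C_zmod, map_sub, map_pow, Polynomial.aeval_X, h, sub_self] at h1
  obtain ⟨v, hv⟩ := exists_ne (0 : V)
  exact hv (h1 (by simp))

/-- the subgroup generated by the commutators and the `(p-1)`-st powers -/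
def Hp (p : ℕ) (G : Type*) [Group G] : Subgroup G :=
  commutator G ⊔ Subgroup.closure {x : G | ∃ g : G, x = g ^ (p - 1)}

theorem commutator_le_Hp (p : ℕ) (G : Type*) [Group G] : commutator G ≤ Hp p G := le_sup_left

theorem pow_mem_Hp {G : Type*} [Group G] (p : ℕ) (g : G) : g ^ (p - 1) ∈ Hp p G :=
  Subgroup.mem_sup_right (Subgroup.subset_closure ⟨g, rfl⟩)

theorem Hp_normal (p : ℕ) (G : Type*) [Group G] : (Hp p G).Normal :=
  Subgroup.Normal.of_commutator_le G le_sup_left

theorem Hp_map {G G' : Type*} [Group G] [Group G'] (p : ℕ) (f : G →* G') :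
    (Hp p G).map f ≤ Hp p G' := by
  rw [Hp, Subgroup.map_sup]
  refine sup_le ?_ ?_
  · rw [commutator_def, Subgroup.map_commutator]
    refine le_trans (Subgroup.commutator_mono le_top le_top) ?_
    exact commutator_le_Hp p G'
  · rw [Subgroup.map_le_iff_le_comap, Subgroup.closure_le]
    rintro _ ⟨g, rfl⟩
    change f (g ^ (p - 1)) ∈ Hp p G'
    rw [map_pow]
    exact pow_mem_Hp p (f g)

theorem Hp_le_centralizer_of_card {G : Type*} [Group G] [Finite G] {p : ℕ} (hp : p.Prime)
    {N : Subgroup G} (hN : N.Normal) (hc : Nat.card N = p) :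
    Hp p G ≤ Subgroup.centralizer (N : Set G) := by
  haveI : Fact p.Prime := ⟨hp⟩
  haveI hcyc : IsCyclic N := isCyclic_of_prime_card hc
  refine sup_le (commutator_le_centralizer_of_cyclic hN hcyc) ?_
  rw [Subgroup.closure_le]
  rintro _ ⟨g, rfl⟩
  have h1 : Nat.card (MulAut N) = p - 1 := by
    rw [IsCyclic.card_mulAut, hc, Nat.totient_prime hp]
  haveI := hN
  have h2 : (MulAut.conjNormal g : MulAut N) ^ (p - 1) = 1 := by
    rw [← h1]; exact pow_card_eq_one'
  rw [← map_pow] at h2
  rw [SetLike.mem_coe, Subgroup.mem_centralizer_iff]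
  intro n hn
  have h3 := DFunLike.congr_fun h2 (⟨n, hn⟩ : N)
  have h4 := congrArg Subtype.val h3
  rw [MulAut.conjNormal_apply] at h4
  have h5 : g ^ (p - 1) * n * (g ^ (p - 1))⁻¹ = n := h4
  rw [mul_inv_eq_iff_eq_mul] at h5
  exact h5.symm

/-- In a supersolvable group the `p'`-subgroups of `Hp` centralize normal `p`-subgroups. -/
theorem Hp_centralizes_aux (n : ℕ) : ∀ (G : Type u) [Group G] [Finite G], Nat.card G = n →
    IsSupersolvable G → ∀ (p : ℕ), p.Prime → ∀ A P : Subgroup G, A ≤ Hp p G →
      (Nat.card A).Coprime p → P.Normal → IsPGroup p P → ⁅P, A⁆ = ⊥ := by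
  induction n using Nat.strong_induction_on with
  | _ n ih =>
    intro G _ _ hn hs p hp A P hA hcop hP hPp
    haveI : Fact p.Prime := ⟨hp⟩
    by_cases hPb : P = ⊥
    · rw [hPb, Subgroup.commutator_bot_left]
    obtain ⟨M, hM, hMp, hMP⟩ := ss_exists_prime_le hs hP hPb
    haveI := hM
    have hMc : Nat.card M = p := by
      obtain ⟨k, hk⟩ := IsPGroup.iff_card.mp (hPp.to_le hMP)
      rw [hk] at hMp
      have hk1 : k = 1 := by
        rcases Nat.lt_trichotomy k 1 with h | h | h
        · have : k = 0 := by omega
          rw [this, pow_zero] at hMp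
          exact absurd hMp Nat.not_prime_one
        · exact h
        · exact absurd hMp (Nat.Prime.not_prime_pow h)
      rw [hk, hk1, pow_one]
    have h1 := ih _ (hn ▸ card_quotient_lt (ne_bot_of_card_prime hMp)) (G ⧸ M) rfl
      (ss_quotient hs M) p hp (A.map (QuotientGroup.mk' M)) (P.map (QuotientGroup.mk' M))
      ((Subgroup.map_mono hA).trans (Hp_map p _))
      (Nat.Coprime.coprime_dvd_left (Subgroup.card_map_dvd _ _) hcop)
      (hP.map _ (QuotientGroup.mk'_surjective M)) (hPp.map _)
    rw [← Subgroup.map_commutator, map_mk'_eq_bot_iff] at h1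
    have h2 : ⁅⁅P, A⁆, A⁆ = ⊥ := by
      rw [eq_bot_iff]
      refine (Subgroup.commutator_mono h1 le_rfl).trans ?_
      rw [le_bot_iff, Subgroup.commutator_comm, Subgroup.commutator_eq_bot_iff_le_centralizer]
      exact hA.trans (Hp_le_centralizer_of_card hp hM hMc)
    have hcopP : (Nat.card A).Coprime (Nat.card P) := by
      obtain ⟨k, hk⟩ := IsPGroup.iff_card.mp hPp
      rw [hk]; exact Nat.Coprime.pow_right k hcop
    haveI := hP
    have hPs : Group.IsSolvable P := by
      haveI := hPp.isNilpotent
      infer_instance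
    exact commutator_eq_bot_of_commutator_commutator A P
      (by rw [Subgroup.normalizer_eq_top]; exact le_top) hcopP (Or.inr hPs) h2

/-- eigenvectors, multiplicatively -/
theorem exists_eigen_mul {p : ℕ} [hp : Fact p.Prime] {A : Type*} [CommGroup A] [Nontrivial A]
    (f : A →* A) (hexp : ∀ x : A, x ^ p = 1) (hf : ∀ x : A, (f^[p - 1]) x = x) :
    ∃ (k : ℕ) (v : A), v ≠ 1 ∧ f v = v ^ k := by
  letI : Module (ZMod p) (Additive A) := AddCommGroup.zmodModule (n := p) (fun x => hexp x)
  let T : Module.End (ZMod p) (Additive A) := (MonoidHom.toAdditive f).toZModLinearMap p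
  have hT : ∀ x : Additive A, T x = Additive.ofMul (f (Additive.toMul x)) := fun x => rfl
  have hTk : ∀ (k : ℕ) (x : Additive A), (T ^ k) x = Additive.ofMul ((f^[k]) (Additive.toMul x)) := by
    intro k
    induction k with
    | zero => intro x; rfl
    | succ k ih =>
      intro x
      rw [pow_succ', Module.End.mul_apply, ih, hT, Function.iterate_succ', Function.comp_apply]
      rfl
  have hTp : T ^ p = T := by
    have h1 : T ^ (p - 1) = 1 := by
      refine LinearMap.ext fun x => ?_
      rw [hTk, hf]; rfl
    have h2 : T ^ p = T ^ ((p - 1) + 1) :=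
      congrArg (fun n : ℕ => T ^ n) (Nat.sub_add_cancel hp.out.one_lt.le).symm
    rw [h2, pow_succ, h1, one_mul]
  haveI : Nontrivial (Additive A) := inferInstance
  obtain ⟨a, v, hv, hav⟩ := exists_eigenvector T hTp
  refine ⟨a.val, Additive.toMul v, hv, ?_⟩
  have h1 : a • v = a.val • v := by
    rw [← Nat.cast_smul_eq_nsmul (ZMod p), ZMod.natCast_zmod_val]
  rw [hT, h1] at hav
  exact hav

open scoped IsMulCommutative in
/-- An irreducible abelian action of exponent dividing `p-1` is on a group of order `p`. -/
theorem card_eq_of_Hp_le_centralizer {G : Type*} [Group G] [Finite G] {p : ℕ} (hp : p.Prime)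
    {N : Subgroup G} (hN : N.Normal) (hne : N ≠ ⊥)
    (hmin : ∀ K : Subgroup G, K.Normal → K ≤ N → K = ⊥ ∨ K = N) (hNc : IsMulCommutative N)
    (hexp : ∀ x ∈ N, x ^ p = 1) (hH : Hp p G ≤ Subgroup.centralizer (N : Set G)) :
    IsCyclic N := by
  haveI : Fact p.Prime := ⟨hp⟩
  haveI := hN
  haveI := hNc
  -- eigenvector
  have key : ∀ g : G, ∃ (k : ℕ) (v : G), v ∈ N ∧ v ≠ 1 ∧ g * v * g⁻¹ = v ^ k := by
    intro g
    haveI := (Subgroup.nontrivial_iff_ne_bot N).mpr hne
    have hfk : ∀ (k : ℕ) (x : N), (((MulAut.conjNormal g : MulAut N).toMonoidHom)^[k]) x =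
        (MulAut.conjNormal (g ^ k) x : N) := by
      intro k
      induction k with
      | zero => intro x; simp
      | succ k ih =>
        intro x
        rw [Function.iterate_succ', Function.comp_apply, ih, pow_succ', map_mul]
        rfl
    obtain ⟨k, v, hv1, hv⟩ := exists_eigen_mul (p := p) ((MulAut.conjNormal g : MulAut N).toMonoidHom)
      (fun x => Subtype.ext (hexp _ x.2)) (by
        intro x
        rw [hfk]
        have h2 := Subgroup.mem_centralizer_iff.mp (hH (pow_mem_Hp p g)) _ x.2
        apply Subtype.ext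
        rw [MulAut.conjNormal_apply, ← h2, mul_inv_cancel_right])
    refine ⟨k, (v : N), v.2, ?_, ?_⟩
    · intro h
      exact hv1 (Subtype.ext h)
    · have h3 := congrArg Subtype.val hv
      change ((MulAut.conjNormal g v : N) : G) = _ at h3
      rw [MulAut.conjNormal_apply] at h3
      exact h3
  have hpow : ∀ g : G, ∃ k : ℕ, ∀ v ∈ N, g * v * g⁻¹ = v ^ k := by
    intro g
    obtain ⟨k, v, hv, hv1, hvk⟩ := key g
    refine ⟨k, ?_⟩
    have hcomm : ∀ a ∈ N, ∀ b ∈ N, a * b = b * a := fun a ha b hb =>
      congrArg Subtype.val (hNc.is_comm.comm ⟨a, ha⟩ ⟨b, hb⟩)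
    let E : Subgroup G :=
      { carrier := {x | x ∈ N ∧ g * x * g⁻¹ = x ^ k}
        one_mem' := ⟨one_mem _, by simp⟩
        mul_mem' := by
          rintro a b ⟨ha, ha'⟩ ⟨hb, hb'⟩
          refine ⟨mul_mem ha hb, ?_⟩
          have hc : Commute a b := hcomm a ha b hb
          rw [hc.mul_pow, ← ha', ← hb']; group
        inv_mem' := by
          rintro a ⟨ha, ha'⟩
          refine ⟨inv_mem ha, ?_⟩
          rw [inv_pow, ← ha']; group }
    have hEn : E.Normal := by
      constructor
      rintro a ⟨ha, ha'⟩ x
      refine ⟨hN.conj_mem a ha x, ?_⟩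
      have hc : g⁻¹ * x⁻¹ * g * x ∈ Subgroup.centralizer (N : Set G) := by
        apply hH
        apply commutator_le_Hp p G
        have : g⁻¹ * x⁻¹ * g * x = ⁅g⁻¹, x⁻¹⁆ := by rw [commutatorElement_def]; group
        rw [this, _root_.commutator_def]
        exact Subgroup.commutator_mem_commutator (Subgroup.mem_top _) (Subgroup.mem_top _)
      have h1 := Subgroup.mem_centralizer_iff.mp hc a ha
      -- g x a x⁻¹ g⁻¹ = x g [g⁻¹,x⁻¹] a ... 
      calc g * (x * a * x⁻¹) * g⁻¹ = x * g * ((g⁻¹ * x⁻¹ * g * x) * a) * (g⁻¹ * x⁻¹ * g * x)⁻¹ * g⁻¹ * x⁻¹ := by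
            group
        _ = x * g * (a * (g⁻¹ * x⁻¹ * g * x)) * (g⁻¹ * x⁻¹ * g * x)⁻¹ * g⁻¹ * x⁻¹ := by rw [h1]
        _ = x * (g * a * g⁻¹) * x⁻¹ := by group
        _ = x * a ^ k * x⁻¹ := by rw [ha']
        _ = (x * a * x⁻¹) ^ k := by rw [conj_pow]
    have hEN : E ≤ N := fun x hx => hx.1
    rcases hmin E hEn hEN with h | h
    · exfalso
      have : v ∈ E := ⟨hv, hvk⟩
      rw [h, Subgroup.mem_bot] at this
      exact hv1 this
    · intro x hx
      rw [← h] at hx
      exact hx.2
  obtain ⟨⟨x, hx⟩, hx1⟩ := (Subgroup.ne_bot_iff_exists_ne_one).mp hne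
  have hx1' : x ≠ 1 := fun h => hx1 (Subtype.ext h)
  have hZ : (zpowers x).Normal := by
    constructor
    intro y hy g
    obtain ⟨k, hk⟩ := hpow g
    have hyN : y ∈ N := (zpowers_le.mpr hx) hy
    rw [hk y hyN]
    exact pow_mem hy k
  rcases hmin _ hZ (zpowers_le.mpr hx) with h | h
  · rw [zpowers_eq_bot] at h; exact absurd h hx1'
  · rw [← h]; infer_instance

/-- all maximal subgroups of prime index: solvable -/
theorem solvable_of_prime_index_aux (n : ℕ) : ∀ (G : Type u) [Group G] [Finite G], Nat.card G = n →
    (∀ M : Subgroup G, IsCoatom M → M.index.Prime) → Group.IsSolvable G := by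
  induction n using Nat.strong_induction_on with
  | _ n ih =>
    intro G _ _ hn h
    by_cases hnt : Nontrivial G
    · obtain ⟨p, hp, hpd, hmax⟩ := exists_max_prime (Nat.card G) Finite.one_lt_card
      haveI : Fact p.Prime := ⟨hp⟩
      obtain ⟨P⟩ : Nonempty (Sylow p G) := inferInstance
      have hPb : (P : Subgroup G) ≠ ⊥ := by
        intro h
        have := P.not_dvd_index
        rw [h, Subgroup.index_bot] at this
        exact this hpd
      have hPn : (P : Subgroup G).Normal := by
        rw [← Subgroup.normalizer_eq_top_iff]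
        by_contra hne
        obtain ⟨M, hM, hle⟩ := (eq_top_or_exists_le_coatom (normalizer ((P : Subgroup G) : Set G))).resolve_left hne
        have hPM : (P : Subgroup G) ≤ M := le_normalizer.trans hle
        have h1 : Nat.card (Sylow p G) ≡ 1 [MOD p] := card_sylow_modEq_one p G
        have h2 : Nat.card (Sylow p M) ≡ 1 [MOD p] := card_sylow_modEq_one p M
        have h3 : Nat.card (Sylow p G) = (normalizer ((P : Subgroup G) : Set G)).index :=
          P.card_eq_index_normalizer
        have h4 : Nat.card (Sylow p M) = (normalizer ((P : Subgroup G) : Set G)).relIndex M := by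
          rw [(P.subtype hPM).card_eq_index_normalizer]
          have e : normalizer ((P.subtype hPM : Sylow p M) : Set M) =
              (normalizer ((P : Subgroup G) : Set G)).subgroupOf M := by
            rw [Subgroup.subgroupOf_normalizer_eq hPM]
            rfl
          rw [e]; rfl
        have h5 : (normalizer ((P : Subgroup G) : Set G)).relIndex M * M.index =
            (normalizer ((P : Subgroup G) : Set G)).index := Subgroup.relIndex_mul_index hle
        rw [← h4, ← h3] at h5
        have h6 : M.index ≡ 1 [MOD p] := by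
          have h7 : Nat.card (Sylow p M) * M.index ≡ 1 * M.index [MOD p] := h2.mul_right _
          rw [h5, one_mul] at h7
          exact h7.symm.trans h1
        have hq := h M hM
        have hqp := hmax _ hq (M.index_dvd_card)
        rcases lt_or_eq_of_le hqp with h8 | h8
        · rw [Nat.ModEq, Nat.mod_eq_of_lt h8, Nat.mod_eq_of_lt hp.one_lt] at h6
          exact hq.one_lt.ne' h6
        · rw [h8, Nat.ModEq, Nat.mod_self, Nat.mod_eq_of_lt hp.one_lt] at h6
          exact zero_ne_one h6
      haveI := hPn
      have hQ : Group.IsSolvable (G ⧸ (P : Subgroup G)) :=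
        ih _ (hn ▸ card_quotient_lt hPb) (G ⧸ (P : Subgroup G)) rfl (fun M hM => by
          have := h _ (isCoatom_comap_mk' hM)
          rwa [index_comap_mk'] at this)
      have hPs : Group.IsSolvable (P : Subgroup G) := by
        haveI := P.2.isNilpotent
        infer_instance
      exact (Group.isSolvable_iff_subgroup_quotient (P : Subgroup G)).mpr ⟨hPs, hQ⟩
    · rw [not_nontrivial_iff_subsingleton] at hnt
      infer_instance

theorem huppert_aux (n : ℕ) : ∀ (G : Type u) [Group G] [Finite G], Nat.card G = n →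
    (∀ M : Subgroup G, IsCoatom M → M.index.Prime) → IsSupersolvable G := by
  induction n using Nat.strong_induction_on with
  | _ n ih =>
    intro G _ _ hn h
    have hs := solvable_of_prime_index_aux _ G rfl h
    by_contra hG
    haveI : Nontrivial G := by
      by_contra hnt
      rw [not_nontrivial_iff_subsingleton] at hnt
      exact hG ss_of_subsingleton
    -- proper quotients are supersolvable
    have hquot : ∀ N : Subgroup G, ∀ [N.Normal], N ≠ ⊥ → IsSupersolvable (G ⧸ N) := by
      intro N _ hne
      exact ih _ (hn ▸ card_quotient_lt hne) (G ⧸ N) rfl (fun M hM => by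
          have := h _ (isCoatom_comap_mk' hM)
          rwa [index_comap_mk'] at this)
    have hnc : ∀ N : Subgroup G, N.Normal → N ≠ ⊥ → ¬ IsCyclic N := by
      intro N hN hne hc
      haveI := hN
      exact hG (ss_of_cyclic_extension N hc (hquot N hne))
    -- uniqueness of the minimal normal subgroup
    have huniq : ∀ N N' : Subgroup G, N.Normal → N ≠ ⊥ →
        (∀ K : Subgroup G, K.Normal → K ≤ N → K = ⊥ ∨ K = N) → N'.Normal → N' ≠ ⊥ → N ≤ N' := by
      intro N N' hN hne hmin hN' hne'
      haveI := hN
      haveI := hN'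
      by_contra hle
      have hinf : N ⊓ N' = ⊥ := by
        rcases hmin (N ⊓ N') inferInstance inf_le_left with h | h
        · exact h
        · exact absurd (inf_eq_left.mp h) hle
      have hmapn : (N.map (QuotientGroup.mk' N')).Normal := hN.map _ (QuotientGroup.mk'_surjective N')
      have hmapne : N.map (QuotientGroup.mk' N') ≠ ⊥ := by
        rw [ne_eq, map_mk'_eq_bot_iff]; exact hle
      obtain ⟨K, hK, hKp, hKN⟩ := ss_exists_prime_le (hquot N' hne') hmapn hmapne
      have h1 : (N ⊓ K.comap (QuotientGroup.mk' N')).Normal := by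
        haveI : (K.comap (QuotientGroup.mk' N')).Normal := hK.comap _
        infer_instance
      have h2 : N ≤ K.comap (QuotientGroup.mk' N') := by
        rcases hmin _ h1 inf_le_left with h | h
        · exfalso
          apply ne_bot_of_card_prime hKp
          rw [eq_bot_iff]
          intro x hx
          obtain ⟨y, hy, rfl⟩ := hKN hx
          have : y ∈ N ⊓ K.comap (QuotientGroup.mk' N') := Subgroup.mem_inf.mpr ⟨hy, hx⟩
          rw [h, Subgroup.mem_bot] at this
          rw [this, map_one]; exact one_mem _
        · exact inf_eq_left.mp h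
      have h3 : K = N.map (QuotientGroup.mk' N') :=
        le_antisymm hKN (Subgroup.map_le_iff_le_comap.mpr h2)
      have h4 : (Nat.card N).Prime := by
        have h5 := card_map_mk'_mul N' N
        rw [hinf, Subgroup.card_bot, one_mul, ← h3] at h5
        rw [← h5]; exact hKp
      haveI : Fact (Nat.card N).Prime := ⟨h4⟩
      exact hnc N hN hne (isCyclic_of_prime_card (p := Nat.card N) rfl)
    obtain ⟨N, hN, hne, -, hmin⟩ := exists_minimal_normal_le (G := G) (N := ⊤) inferInstance top_ne_bot
    haveI := hN
    obtain ⟨hNc, p, hp, hNp, hNe⟩ := minimal_normal_solvable hN hne hmin inferInstance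
    haveI : Fact p.Prime := ⟨hp⟩
    -- `N ≤ Φ(G)`
    have hΦ : N ≤ frattini G := by
      by_contra hnΦ
      obtain ⟨M, hM, hNM⟩ := exists_coatom_not_ge hnΦ
      have hsup : N ⊔ M = ⊤ := by
        apply hM.2
        refine lt_of_le_of_ne le_sup_right ?_
        intro he
        exact hNM (by rw [he]; exact le_sup_left)
      have hinf : N ⊓ M = ⊥ := by
        rcases hmin _ (normal_inf_of_abelian_sup_eq_top hN hNc hsup) inf_le_left with h | h
        · exact h
        · exact absurd (inf_eq_left.mp h) hNM
      have hc := isComplement'_of_inf_sup hinf hsup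
      have h1 := h M hM
      rw [hc.index_eq_card] at h1
      haveI : Fact (Nat.card N).Prime := ⟨h1⟩
      exact hnc N hN hne (isCyclic_of_prime_card (p := Nat.card N) rfl)
    -- the largest prime
    obtain ⟨q, hq, hqd, hmax⟩ := exists_max_prime (Nat.card G) Finite.one_lt_card
    haveI : Fact q.Prime := ⟨hq⟩
    obtain ⟨Q⟩ : Nonempty (Sylow q G) := inferInstance
    have hQb : (Q : Subgroup G) ≠ ⊥ := by
      intro h
      have := Q.not_dvd_index
      rw [h, Subgroup.index_bot] at this
      exact this hqd
    have hQn : (Q : Subgroup G).Normal := by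
      have h1 : ((Q : Subgroup G).map (QuotientGroup.mk' N)).Normal :=
        ss_sylow_normal_aux _ (G ⧸ N) rfl (hquot N hne) q
          (fun r hr hrd => hmax r hr (hrd.trans (card_quotient_dvd N)))
          (Q.mapSurjective (QuotientGroup.mk'_surjective N))
      haveI h2 : ((Q : Subgroup G) ⊔ N).Normal := by
        have h3 : ((Q : Subgroup G).map (QuotientGroup.mk' N)).comap (QuotientGroup.mk' N) =
            (Q : Subgroup G) ⊔ N := by rw [Subgroup.comap_map_eq, QuotientGroup.ker_mk']
        rw [← h3]
        exact h1.comap _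
      have h3 : normalizer ((Q : Subgroup G) : Set G) ⊔ ((Q : Subgroup G) ⊔ N) = ⊤ :=
        Sylow.normalizer_sup_eq_top' Q (le_sup_left : (Q : Subgroup G) ≤ (Q : Subgroup G) ⊔ N)
      rw [← sup_assoc, sup_eq_left.mpr (le_normalizer (H := (Q : Subgroup G)))] at h3
      rw [← Subgroup.normalizer_eq_top_iff]
      apply eq_top_of_sup_frattini
      rw [eq_top_iff, ← h3]
      exact sup_le_sup le_rfl hΦ
    haveI := hQn
    have hNQ : N ≤ (Q : Subgroup G) := huniq N Q hN hne hmin hQn hQb
    have hqp : q = p := by
      obtain ⟨a, ha⟩ := IsPGroup.iff_card.mp hNp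
      obtain ⟨b, hb⟩ := IsPGroup.iff_card.mp (Q.2.to_le hNQ)
      have hb0 : b ≠ 0 := by
        rintro rfl
        rw [pow_zero] at hb
        exact hne (Subgroup.card_eq_one.mp hb)
      rw [ha] at hb
      have : q ∣ p ^ a := by rw [hb]; exact dvd_pow_self q hb0
      exact (Nat.prime_dvd_prime_iff_eq hq hp).mp (hq.dvd_of_dvd_pow this)
    subst hqp
    have hQcore : pCore q G = (Q : Subgroup G) :=
      le_antisymm (pCore_le_sylow Q) (le_pCore hQn Q.2)
    -- `O_{p'}(G) = 1`
    have hpp : pPrimeCore q G = ⊥ := by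
      by_contra hne'
      have h1 := huniq N (pPrimeCore q G) hN hne hmin (pPrimeCore_normal q G) hne'
      have h2 := Nat.Coprime.coprime_dvd_left (Subgroup.card_dvd_of_le h1) (pPrimeCore_coprime q G)
      obtain ⟨a, ha⟩ := IsPGroup.iff_card.mp hNp
      have ha0 : a ≠ 0 := by
        rintro rfl
        rw [pow_zero] at ha
        exact hne (Subgroup.card_eq_one.mp ha)
      rw [ha] at h2
      exact (Nat.Prime.coprime_iff_not_dvd hq).mp h2.symm (dvd_pow_self q ha0)
    have hCQ : Subgroup.centralizer ((Q : Subgroup G) : Set G) ≤ (Q : Subgroup G) := by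
      have := centralizer_pCore_le hs q hpp
      rwa [hQcore] at this
    -- `N ≤ Φ(Q)`
    set F : Subgroup G := (frattini ↥(Q : Subgroup G)).map (Q : Subgroup G).subtype with hF
    haveI hFn : F.Normal := inferInstance
    have hNF : N ≤ F := by
      by_cases hFb : F = ⊥
      · exfalso
        have hfr : frattini ↥(Q : Subgroup G) = ⊥ :=
          (Subgroup.map_eq_bot_iff_of_injective _ (Subgroup.subtype_injective _)).mp hFb
        haveI : IsMulCommutative (N.subgroupOf (Q : Subgroup G)) := isMulCommutative_subgroupOf hNc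
        obtain ⟨A, hA⟩ := complement_of_frattini_eq_bot hfr (N.subgroupOf (Q : Subgroup G)) inferInstance
        set A' := A.map (Q : Subgroup G).subtype with hA'
        have h1 : A' ⊓ N = ⊥ := by
          rw [eq_bot_iff]
          rintro _ ⟨⟨x, hx, rfl⟩, hxN⟩
          have : x ∈ N.subgroupOf (Q : Subgroup G) ⊓ A := Subgroup.mem_inf.mpr ⟨hxN, hx⟩
          rw [disjoint_iff.mp hA.disjoint, Subgroup.mem_bot] at this
          rw [this]; exact one_mem _
        have h2 : N ⊔ A' = (Q : Subgroup G) := by
          have h3 := congrArg (Subgroup.map (Q : Subgroup G).subtype) hA.sup_eq_top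
          rw [Subgroup.map_sup, Subgroup.map_subgroupOf_eq_of_le hNQ, ← MonoidHom.range_eq_map,
            Subgroup.range_subtype] at h3
          exact h3
        have hcop : (Nat.card N).Coprime (Q : Subgroup G).index := by
          obtain ⟨a, ha⟩ := IsPGroup.iff_card.mp hNp
          rw [ha]
          exact Nat.Coprime.pow_left _ ((Nat.Prime.coprime_iff_not_dvd hq).mpr Q.not_dvd_index)
        haveI := hNc
        obtain ⟨H, hH⟩ := gaschutz_exists N (Q : Subgroup G) A' hNQ hcop
          (by rintro _ ⟨x, -, rfl⟩; exact x.2) h1 h2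
        have h4 : H = ⊤ := by
          apply eq_top_of_sup_frattini
          rw [eq_top_iff, ← hH.sup_eq_top, sup_comm]
          exact sup_le_sup le_rfl hΦ
        have h5 := disjoint_iff.mp hH.disjoint
        rw [h4, inf_top_eq] at h5
        exact hne h5
      · exact huniq N F hN hne hmin hFn hFb
    -- `Hp ≤ Q`
    have hHQ : Hp q G ≤ (Q : Subgroup G) := by
      have hHp : IsPGroup q (Hp q G) := by
        rw [IsPGroup.iff_card]
        refine ⟨_, Nat.eq_prime_pow_of_unique_prime_dvd Nat.card_pos.ne' ?_⟩
        intro r hr hrd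
        by_contra hrq
        haveI : Fact r.Prime := ⟨hr⟩
        obtain ⟨R⟩ : Nonempty (Sylow r (Hp q G)) := inferInstance
        set A := (R : Subgroup (Hp q G)).map (Hp q G).subtype with hA
        have hAH : A ≤ Hp q G := by rintro _ ⟨x, -, rfl⟩; exact x.2
        have hAr : IsPGroup r A := R.2.map _
        have hAne : A ≠ ⊥ := by
          intro h
          rw [hA, Subgroup.map_eq_bot_iff_of_injective _ (Subgroup.subtype_injective _)] at h
          have := R.not_dvd_index
          rw [h, Subgroup.index_bot] at this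
          exact this hrd
        have hAq : (Nat.card A).Coprime q := isPGroup_card_coprime_of_ne (Ne.symm hrq) hAr
        have hAQ : (Nat.card A).Coprime (Nat.card (Q : Subgroup G)) := by
          obtain ⟨k, hk⟩ := IsPGroup.iff_card.mp Q.2
          rw [hk]; exact Nat.Coprime.pow_right k hAq
        have h1 := Hp_centralizes_aux _ (G ⧸ N) rfl (hquot N hne) q hq
          (A.map (QuotientGroup.mk' N)) ((Q : Subgroup G).map (QuotientGroup.mk' N))
          ((Subgroup.map_mono hAH).trans (Hp_map q _))
          (Nat.Coprime.coprime_dvd_left (Subgroup.card_map_dvd _ _) hAq)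
          (hQn.map _ (QuotientGroup.mk'_surjective N)) (Q.2.map _)
        rw [← Subgroup.map_commutator, map_mk'_eq_bot_iff] at h1
        have h2 : ⁅(Q : Subgroup G), A⁆ ≤ F := h1.trans hNF
        have hQs : Group.IsSolvable (Q : Subgroup G) := inferInstance
        have h3 := commutator_sup_centralizer A (Q : Subgroup G)
          (by rw [Subgroup.normalizer_eq_top]; exact le_top) hAQ (Or.inr hQs)
        -- so `C_Q(A) = Q`
        set C := (Q : Subgroup G) ⊓ Subgroup.centralizer (A : Set G) with hC
        have h4 : C.subgroupOf (Q : Subgroup G) = ⊤ := by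
          apply eq_top_of_sup_frattini
          rw [eq_top_iff]
          intro x _
          have hx : (x : G) ∈ ⁅(Q : Subgroup G), A⁆ ⊔ C := by rw [h3]; exact x.2
          have hx' : (x : G) ∈ F ⊔ C := (sup_le_sup h2 le_rfl) hx
          obtain ⟨f, hf, c, hc, hfc⟩ := Subgroup.mem_sup_of_normal_left.mp hx'
          obtain ⟨f', hf', rfl⟩ := hf
          have e : x = f' * ⟨c, hc.1⟩ := by
            apply Subtype.ext
            rw [← hfc]
            rfl
          rw [e]
          exact mul_mem (Subgroup.mem_sup_right hf') (Subgroup.mem_sup_left hc)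
        have h5 : (Q : Subgroup G) ≤ Subgroup.centralizer (A : Set G) := by
          rw [Subgroup.subgroupOf_eq_top] at h4
          exact h4.trans inf_le_right
        rw [Subgroup.le_centralizer_iff] at h5
        have h6 : A ≤ (Q : Subgroup G) := h5.trans hCQ
        apply hAne
        rw [← inf_eq_left.mpr h6]
        exact inf_eq_bot_of_card_coprime hAQ
      rw [← hQcore]
      exact le_pCore (Hp_normal q G) hHp
    have hQF : (Q : Subgroup G) ≤ fittingSubgroup G := le_sSup ⟨hQn, Q.2.isNilpotent⟩
    exact hnc N hN hne (card_eq_of_Hp_le_centralizer hq hN hne hmin hNc hNe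
      ((hHQ.trans hQF).trans (fitting_le_centralizer_minimal hN hne hmin)))

end Cfsg.Agent.H1
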