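import Cfsg.Agent.H1.Wielandt3
import Cfsg.Agent.H3.BurnsidePQ
import Cfsg.Agent.H1.CLT

/-!
# The Kegel–Wielandt theorem (helper1)
-/

set_option autoImplicit false
set_option linter.all false

open Cfsg

namespace Cfsg.Agent.H1

open Subgroup
open scoped Pointwise commutatorElement

universe u v

section
variable {G : Type*} [Group G] [Finite G]

/-- product of `A₀ ⊲ A` and conjugates of `B₀ ⊲ B` -/
theorem mul_conj_of_mul {A B A₀ B₀ S : Subgroup G} (hAB : ∀ g : G, ∃ a ∈ A, ∃ b ∈ B, g = a * b)
    (hA₀ : A ≤ normalizer (A₀ : Set G)) (hB₀ : B ≤ normalizer (B₀ : Set G))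
    (hS : (S : Set G) = (A₀ : Set G) * (B₀ : Set G)) (x : G) :
    ∃ g : G, ((MulAut.conj g • S : Subgroup G) : Set G) =
      (A₀ : Set G) * ((MulAut.conj x • B₀ : Subgroup G) : Set G) := by
  obtain ⟨g, hg1, hg2⟩ := exists_common_conj hAB 1 x
  refine ⟨g, ?_⟩
  have h1 := conj_smul_eq_of_inv_mul_mem hA₀ hg1
  have h2 := conj_smul_eq_of_inv_mul_mem hB₀ hg2
  rw [conj_one_smul] at h1
  rw [h2]
  conv_rhs => rw [h1]
  ext y
  rw [SetLike.mem_coe, mem_conj_smul]
  constructor
  · intro hy
    have hy' : g⁻¹ * y * g ∈ (S : Set G) := hy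
    rw [hS] at hy'
    obtain ⟨a, ha, b, hb, he⟩ := hy'
    refine ⟨g * a * g⁻¹, conj_mem_conj_smul ha, g * b * g⁻¹, conj_mem_conj_smul hb, ?_⟩
    simp only at he ⊢
    calc g * a * g⁻¹ * (g * b * g⁻¹) = g * (a * b) * g⁻¹ := by group
      _ = g * (g⁻¹ * y * g) * g⁻¹ := by rw [he]
      _ = y := by group
  · rintro ⟨a, ha, b, hb, rfl⟩
    have h3 : g⁻¹ * a * g ∈ A₀ := mem_conj_smul.mp ha
    have h4 : g⁻¹ * b * g ∈ B₀ := mem_conj_smul.mp hb
    have h5 : (g⁻¹ * a * g) * (g⁻¹ * b * g) ∈ (S : Set G) := by
      rw [hS]; exact ⟨_, h3, _, h4, rfl⟩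
    have h6 : g⁻¹ * (a * b) * g = (g⁻¹ * a * g) * (g⁻¹ * b * g) := by group
    change g⁻¹ * (a * b) * g ∈ S
    rw [h6]; exact h5

theorem sup_conj_of_factor {A B A₀ B₀ : Subgroup G} (hAB : ∀ g : G, ∃ a ∈ A, ∃ b ∈ B, g = a * b)
    (hA₀ : A ≤ normalizer (A₀ : Set G)) (hB₀ : B ≤ normalizer (B₀ : Set G)) (x y : G) :
    ∃ g : G, MulAut.conj x • A₀ ⊔ MulAut.conj y • B₀ = MulAut.conj g • (A₀ ⊔ B₀) := by
  obtain ⟨g, hg1, hg2⟩ := exists_common_conj hAB x y
  refine ⟨g, ?_⟩
  rw [conj_smul_eq_of_inv_mul_mem hA₀ hg1, conj_smul_eq_of_inv_mul_mem hB₀ hg2, conj_smul_sup]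

/-- Burnside's class-size lemma applied to a factorized group. -/
theorem solvable_of_simp_of_prime_power (hsimp : ∀ N : Subgroup G, N.Normal → N = ⊥ ∨ N = ⊤)
    {B : Subgroup G} (hB : Group.IsNilpotent B) (hBne : B ≠ ⊥) {p : ℕ} [hp : Fact p.Prime] {k : ℕ}
    (hi : B.index = p ^ k) : Group.IsSolvable G := by
  have hntB : Nontrivial B := (Subgroup.nontrivial_iff_ne_bot B).mpr hBne
  haveI : Nontrivial G := Subgroup.subtype_injective B |>.nontrivial
  haveI : IsSimpleGroup G := ⟨fun N hN => hsimp N hN⟩
  have hc : Subgroup.center B ≠ ⊥ := Group.IsNilpotent.center_ne_bot B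
  obtain ⟨z, hz⟩ := (Subgroup.ne_bot_iff_exists_ne_one (H := Subgroup.center B)).mp hc
  have hz1 : ((z : B) : G) ≠ 1 := fun h => hz (Subtype.ext (Subtype.ext h))
  have hBz : B ≤ centralizer ({((z : B) : G)} : Set G) := by
    intro b hb
    rw [Subgroup.mem_centralizer_singleton_iff]
    exact congrArg Subtype.val (Subgroup.mem_center_iff.mp z.2 ⟨b, hb⟩)
  have hd : (centralizer ({((z : B) : G)} : Set G)).index ∣ p ^ k := by
    rw [← hi]; exact Subgroup.index_dvd_of_le hBz
  obtain ⟨l, -, hl⟩ := (Nat.dvd_prime_pow hp.out).mp hd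
  have hprime := H3.prime_card_of_prime_power_class p l hp.out _ hz1 hl
  haveI : Fact (Nat.card G).Prime := ⟨hprime⟩
  haveI := isCyclic_of_prime_card (p := Nat.card G) (α := G) rfl
  letI : CommGroup G := IsCyclic.commGroup
  exact (inferInstance : Group.IsSolvable G)

end

theorem wielandt_solvable_aux (n : ℕ) : ∀ (G : Type u) [Group G] [Finite G], Nat.card G = n →
    ∀ A B : Subgroup G, Group.IsNilpotent A → Group.IsNilpotent B →
      (Nat.card A).Coprime (Nat.card B) → (∀ g : G, ∃ a ∈ A, ∃ b ∈ B, g = a * b) →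
      Group.IsSolvable G := by
  induction n using Nat.strong_induction_on with
  | _ n ih =>
    intro G _ _ hn A B hA hB hcop hAB
    by_contra hns
    have hcard : Nat.card G = Nat.card A * Nat.card B := by
      have h1 := card_of_factor hAB
      rwa [inf_eq_bot_of_card_coprime hcop, Subgroup.card_bot, mul_one] at h1
    have hAi : A.index = Nat.card B := by
      have h1 := A.card_mul_index
      rw [hcard] at h1
      exact Nat.eq_of_mul_eq_mul_left Nat.card_pos h1
    have hBi : B.index = Nat.card A := by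
      have h1 := B.card_mul_index
      rw [hcard, mul_comm (Nat.card A)] at h1
      exact Nat.eq_of_mul_eq_mul_left Nat.card_pos h1
    -- proper factorized subgroups are solvable
    have hmin : ∀ U : Subgroup G, U ≠ ⊤ → (∀ g ∈ U, ∃ a ∈ A ⊓ U, ∃ b ∈ B ⊓ U, g = a * b) →
        Group.IsSolvable U := by
      intro U hU hf
      refine ih _ (hn ▸ card_lt_of_ne_top hU) U rfl (A.subgroupOf U) (B.subgroupOf U) ?_ ?_ ?_ ?_
      · have h1 : Group.IsNilpotent ((A ⊓ U).subgroupOf U) :=
          isNilpotent_subgroupOf inf_le_right (isNilpotent_of_le inf_le_left hA)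
        rwa [Subgroup.inf_subgroupOf_right] at h1
      · have h1 : Group.IsNilpotent ((B ⊓ U).subgroupOf U) :=
          isNilpotent_subgroupOf inf_le_right (isNilpotent_of_le inf_le_left hB)
        rwa [Subgroup.inf_subgroupOf_right] at h1
      · rw [← Subgroup.inf_subgroupOf_right A, ← Subgroup.inf_subgroupOf_right B,
          card_subgroupOf inf_le_right, card_subgroupOf inf_le_right]
        exact Nat.Coprime.coprime_dvd_left (card_dvd_of_le' inf_le_left)
          (Nat.Coprime.coprime_dvd_right (card_dvd_of_le' inf_le_left) hcop)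
      · rintro ⟨g, hg⟩
        obtain ⟨a, ha, b, hb, he⟩ := hf g hg
        exact ⟨⟨a, ha.2⟩, Subgroup.mem_subgroupOf.mpr ha.1, ⟨b, hb.2⟩,
          Subgroup.mem_subgroupOf.mpr hb.1, Subtype.ext he⟩
    -- simplicity
    have hsimp : ∀ N : Subgroup G, N.Normal → N = ⊥ ∨ N = ⊤ := by
      intro N hN
      by_contra hcon
      rw [not_or] at hcon
      apply hns
      haveI := hN
      have h1 : Group.IsSolvable N := by
        refine hmin N hcon.2 ?_
        intro g hg
        have hc1 : (A.subgroupOf N).index.Coprime (B.subgroupOf N).index := by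
          change (A.relIndex N).Coprime (B.relIndex N)
          have e1 : A.relIndex N ∣ Nat.card B := by
            rw [← hAi]; exact relIndex_dvd_index_of_normal_right A N
          have e2 : B.relIndex N ∣ Nat.card A := by
            rw [← hBi]; exact relIndex_dvd_index_of_normal_right B N
          exact Nat.Coprime.coprime_dvd_left e1 (Nat.Coprime.coprime_dvd_right e2 hcop.symm)
        obtain ⟨a, ha, b, hb, he⟩ := factor_of_coprime_index hc1 ⟨g, hg⟩
        exact ⟨a, ⟨Subgroup.mem_subgroupOf.mp ha, a.2⟩, b, ⟨Subgroup.mem_subgroupOf.mp hb, b.2⟩,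
          congrArg Subtype.val he⟩
      have h2 : Group.IsSolvable (G ⧸ N) := by
        refine ih _ (hn ▸ card_quotient_lt hcon.1) (G ⧸ N) rfl (A.map (QuotientGroup.mk' N))
          (B.map (QuotientGroup.mk' N)) (isNilpotent_map _ hA) (isNilpotent_map _ hB) ?_
          (factor_map _ (QuotientGroup.mk'_surjective N) hAB)
        exact Nat.Coprime.coprime_dvd_left (Subgroup.card_map_dvd _ _)
          (Nat.Coprime.coprime_dvd_right (Subgroup.card_map_dvd _ _) hcop)
      exact (Group.isSolvable_iff_subgroup_quotient N).mpr ⟨h1, h2⟩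
    -- two primes
    have htwo : ∀ X Y : Subgroup G, Group.IsNilpotent X → Group.IsNilpotent Y → Y.index = Nat.card X →
        Nat.card Y = X.index → ∀ p : ℕ, ∃ r, r.Prime ∧ r ∣ Nat.card X ∧ r ≠ p := by
      intro X Y hX hY hYi hYX p
      by_contra hcon
      push Not at hcon
      apply hns
      by_cases hYb : Y = ⊥
      · have h1 : X = ⊤ := by
          rw [← Subgroup.index_eq_one, ← hYX, hYb, Subgroup.card_bot]
        rw [h1] at hX
        have h2 : Group.IsNilpotent G := isNilpotent_of_equiv Subgroup.topEquiv hX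
        haveI := h2
        exact (inferInstance : Group.IsSolvable G)
      by_cases hp : p.Prime
      · haveI : Fact p.Prime := ⟨hp⟩
        have h1 : Nat.card X = p ^ (Nat.card X).primeFactorsList.length :=
          Nat.eq_prime_pow_of_unique_prime_dvd Nat.card_pos.ne' (fun hd hdd => hcon _ hd hdd)
        exact solvable_of_simp_of_prime_power hsimp hY hYb (hYi.trans h1)
      · have h1 : Nat.card X = 1 := by
          by_contra h2
          obtain ⟨r, hr, hrd⟩ := Nat.exists_prime_and_dvd h2
          exact hp ((hcon r hr hrd) ▸ hr)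
        haveI : Fact (Nat.Prime 2) := ⟨Nat.prime_two⟩
        exact solvable_of_simp_of_prime_power hsimp hY hYb (p := 2) (k := 0) (by
          rw [hYi, h1, pow_zero])
    have htwoA := htwo A B hA hB hBi hAi.symm
    have htwoB := htwo B A hB hA hAi hBi.symm
    have hHallA : (Nat.card A).Coprime A.index := by rw [hAi]; exact hcop
    have hHallB : (Nat.card B).Coprime B.index := by rw [hBi]; exact hcop.symm
    have hgen : ∀ (p q : ℕ) [Fact p.Prime] [Fact q.Prime], p ∣ Nat.card A → q ∣ Nat.card B →
        part p A ⊔ part q B = ⊤ := by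
      intro p q hp hq hpA hqB
      by_contra hJ
      set J := part p A ⊔ part q B with hJdef
      set L := normalizer (J : Set G) with hL
      have hJb : J ≠ ⊥ := fun h1 => part_ne_bot hA hpA (le_bot_iff.mp (h1 ▸ le_sup_left))
      have hLtop : L ≠ ⊤ := by
        intro h1
        rcases hsimp J (normalizer_eq_top_iff.mp h1) with h2 | h2
        · exact hJb h2
        · exact hJ h2
      have hA₀ := le_normalizer_part p A
      have hB₀ := le_normalizer_part q B
      have hJL : J ≤ L := le_normalizer
      have hpL : part p A ≤ L := le_sup_left.trans hJL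
      have hqL : part q B ≤ L := le_sup_right.trans hJL
      have hf := factor_normalizer hAB hA₀ hB₀
      have hLs : Group.IsSolvable L := by
        refine hmin L hLtop ?_
        intro g hg
        obtain ⟨a, ha, b, hb, he⟩ := hf g hg
        exact ⟨a, ⟨ha.2, ha.1⟩, b, ⟨hb.2, hb.1⟩, he⟩
      have hcopP : ∀ (X : Subgroup G) (t : ℕ) [Fact t.Prime], IsPGroup t X → X ≤ L →
          ¬ t ∣ X.index → (Nat.card (X.subgroupOf L)).Coprime (X.subgroupOf L).index := by
        intro X t ht hX hXL hXi
        rw [card_subgroupOf hXL]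
        obtain ⟨k, hk⟩ := IsPGroup.iff_card.mp hX
        rw [hk]
        apply Nat.Coprime.pow_left
        rw [Nat.Prime.coprime_iff_not_dvd ht.out]
        intro h1
        exact hXi (h1.trans (Subgroup.relIndex_dvd_index_of_le hXL))
      obtain ⟨S', hS'⟩ := factor_hall hLs (H := A.subgroupOf L) (K := B.subgroupOf L)
        (A := (part p A).subgroupOf L) (B := (part q B).subgroupOf L) (by
          rintro ⟨g, hg⟩
          obtain ⟨a, ha, b, hb, he⟩ := hf g hg
          exact ⟨⟨a, ha.1⟩, Subgroup.mem_subgroupOf.mpr ha.2, ⟨b, hb.1⟩,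
            Subgroup.mem_subgroupOf.mpr hb.2, Subtype.ext he⟩) (by
          intro a ha
          rw [← Subgroup.subgroupOf_normalizer_eq hpL]
          exact Subgroup.mem_subgroupOf.mpr (hA₀ (Subgroup.mem_subgroupOf.mp ha))) (by
          intro b hb
          rw [← Subgroup.subgroupOf_normalizer_eq hqL]
          exact Subgroup.mem_subgroupOf.mpr (hB₀ (Subgroup.mem_subgroupOf.mp hb)))
        (hcopP _ p (part_isPGroup p A) hpL (not_dvd_index_part hA hHallA hpA))
        (hcopP _ q (part_isPGroup q B) hqL (not_dvd_index_part hB hHallB hqB))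
      set S := S'.map L.subtype with hSdef
      have hS : (S : Set G) = (part p A : Set G) * (part q B : Set G) := by
        apply Set.Subset.antisymm
        · rintro _ ⟨s, hs, rfl⟩
          have hs' : s ∈ (S' : Set L) := hs
          rw [hS'] at hs'
          obtain ⟨a, ha, b, hb, rfl⟩ := hs'
          exact ⟨a, Subgroup.mem_subgroupOf.mp ha, b, Subgroup.mem_subgroupOf.mp hb, rfl⟩
        · rintro _ ⟨a, ha, b, hb, rfl⟩
          have h1 : (⟨a, hpL ha⟩ * ⟨b, hqL hb⟩ : L) ∈ (S' : Set L) := by
            rw [hS']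
            exact ⟨_, Subgroup.mem_subgroupOf.mpr ha, _, Subgroup.mem_subgroupOf.mpr hb, rfl⟩
          exact ⟨_, h1, rfl⟩
      have hStop : S ≠ ⊤ := by
        intro h1
        apply hLtop
        rw [eq_top_iff, ← h1]
        exact Subgroup.map_subtype_le _
      obtain ⟨N, hN, hNtop, hN'⟩ := kegel_aux _ (part p A) (part q B) rfl (by
        intro x
        obtain ⟨g, hg⟩ := mul_conj_of_mul hAB hA₀ hB₀ hS x
        refine ⟨MulAut.conj g • S, ?_, hg⟩
        intro h1
        apply hStop
        apply Subgroup.eq_top_of_card_eq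
        rw [← card_conj_smul g, h1, Subgroup.card_top])
      rcases hsimp N hN with h1 | h1
      · rw [h1] at hN'
        rcases hN' with h2 | h2
        · exact part_ne_bot hA hpA (le_bot_iff.mp h2)
        · exact part_ne_bot hB hqB (le_bot_iff.mp h2)
      · exact hNtop h1
    have hW : WSetup A B :=
      { nilA := hA
        nilB := hB
        cop := hcop
        fac := hAB
        simp := hsimp
        minS := hmin
        gen := by
          intro p q hp hq hpA hqB x y
          obtain ⟨g, hg⟩ := sup_conj_of_factor hAB (le_normalizer_part p A) (le_normalizer_part q B) x y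
          rw [hg, hgen p q hpA hqB]
          exact conj_smul_normal g
        twoA := htwoA
        twoB := htwoB }
    exact hW.false

/-- the product of the `p`-parts is a Sylow `p`-subgroup -/
theorem factor_part {G : Type*} [Group G] [Finite G] {A B : Subgroup G} (hA : Group.IsNilpotent A)
    (hB : Group.IsNilpotent B) (hAB : ∀ g : G, ∃ a ∈ A, ∃ b ∈ B, g = a * b) (p : ℕ)
    [hp : Fact p.Prime] : ∃ R : Sylow p G, ((R : Subgroup G) : Set G) =
      (part p A : Set G) * (part p B : Set G) := by
  obtain ⟨P, Q, R, h⟩ := factor_sylow hAB p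
  rw [sylow_map_eq_part hA P, sylow_map_eq_part hB Q] at h
  exact ⟨R, h⟩

/-- **Kegel–Wielandt**. -/
theorem kegel_wielandt_aux (n : ℕ) : ∀ (G : Type u) [Group G] [Finite G], Nat.card G = n →
    ∀ A B : Subgroup G, Group.IsNilpotent A → Group.IsNilpotent B →
      (∀ g : G, ∃ a ∈ A, ∃ b ∈ B, g = a * b) → Group.IsSolvable G := by
  induction n using Nat.strong_induction_on with
  | _ n ih =>
    intro G _ _ hn A B hA hB hAB
    by_contra hns
    have hquot : ∀ M : Subgroup G, ∀ [M.Normal], M ≠ ⊥ → Group.IsSolvable (G ⧸ M) := by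
      intro M hM hMb
      exact ih _ (hn ▸ card_quotient_lt hMb) (G ⧸ M) rfl (A.map (QuotientGroup.mk' M))
          (B.map (QuotientGroup.mk' M)) (isNilpotent_map _ hA) (isNilpotent_map _ hB)
          (factor_map _ (QuotientGroup.mk'_surjective M) hAB)
    have hnosolv : ∀ M : Subgroup G, ∀ [M.Normal], Group.IsSolvable M → M = ⊥ := by
      intro M hM hMs
      by_contra hMb
      exact hns ((Group.isSolvable_iff_subgroup_quotient M).mpr ⟨hMs, hquot M hMb⟩)
    by_cases hcop : (Nat.card A).Coprime (Nat.card B)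
    · exact hns (wielandt_solvable_aux _ G rfl A B hA hB hcop hAB)
    obtain ⟨p, hp, hpA, hpB⟩ := Nat.Prime.not_coprime_iff_dvd.mp hcop
    haveI : Fact p.Prime := ⟨hp⟩
    obtain ⟨R, hR⟩ := factor_part hA hB hAB p
    have hOp : pCore p G = ⊥ := by
      haveI := pCore_normal p G
      apply hnosolv
      haveI := (pCore_isPGroup p G).isNilpotent
      infer_instance
    have hcomm := kegel_p_aux hOp _ (part p A) (part p B) (part_isPGroup p A) (part_isPGroup p B)
      rfl (fun x => by
        obtain ⟨g, hg⟩ := mul_conj_of_mul hAB (le_normalizer_part p A) (le_normalizer_part p B) hR x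
        exact ⟨_, hg⟩)
    set N₁ := Subgroup.normalClosure (part p B : Set G) with hN₁
    haveI hN₁n : N₁.Normal := Subgroup.normalClosure_normal
    have hN₁b : N₁ ≠ ⊥ := fun h1 => part_ne_bot hB hpB
      (le_bot_iff.mp (h1 ▸ Subgroup.subset_normalClosure))
    set N₂ := centralizer (N₁ : Set G) with hN₂
    haveI hN₂n : N₂.Normal := inferInstance
    have hAN₂ : part p A ≤ N₂ := by
      have h1 : N₁ ≤ centralizer (part p A : Set G) := by
        rw [hN₁, Subgroup.normalClosure, Subgroup.closure_le]
        intro y hy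
        obtain ⟨b, hb, hby⟩ := Group.mem_conjugatesOfSet_iff.mp hy
        obtain ⟨g, rfl⟩ := isConj_iff.mp hby
        have h2 := hcomm g
        rw [Subgroup.commutator_comm, Subgroup.commutator_eq_bot_iff_le_centralizer] at h2
        exact h2 (conj_mem_conj_smul hb)
      intro a ha
      rw [hN₂, Subgroup.mem_centralizer_iff]
      intro y hy
      exact (Subgroup.mem_centralizer_iff.mp (h1 hy) a ha).symm
    have hN₂b : N₂ ≠ ⊥ := fun h1 => part_ne_bot hA hpA (le_bot_iff.mp (h1 ▸ hAN₂))
    have hinf : N₁ ⊓ N₂ = ⊥ := by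
      haveI : (N₁ ⊓ N₂).Normal := inferInstance
      apply hnosolv
      have h1 : IsMulCommutative (N₁ ⊓ N₂ : Subgroup G) := by
        refine ⟨⟨?_⟩⟩
        rintro ⟨a, ha⟩ ⟨b, hb⟩
        exact Subtype.ext (Subgroup.mem_centralizer_iff.mp hb.2 a ha.1)
      haveI := h1
      open scoped IsMulCommutative in
      exact (inferInstance : Group.IsSolvable (N₁ ⊓ N₂ : Subgroup G))
    -- `N₂` embeds into `G / N₁`
    have hN₂s : Group.IsSolvable N₂ := by
      haveI := hquot N₁ hN₁b
      refine Group.isSolvable_of_isSolvable_injective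
        (f := (QuotientGroup.mk' N₁).comp N₂.subtype) ?_
      rw [injective_iff_map_eq_one]
      rintro ⟨x, hx⟩ h1
      have h2 : x ∈ N₁ := by
        have : QuotientGroup.mk' N₁ x = 1 := h1
        rwa [QuotientGroup.mk'_apply, QuotientGroup.eq_one_iff] at this
      have h3 : x ∈ N₁ ⊓ N₂ := ⟨h2, hx⟩
      rw [hinf, Subgroup.mem_bot] at h3
      exact Subtype.ext h3
    exact hN₂b (hnosolv N₂ hN₂s)

/-- In `G = AB` with `A`, `B` nilpotent, not both equal to `G`, one of them lies in a proper
normal subgroup. -/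
theorem proper_normal_aux (n : ℕ) : ∀ (G : Type u) [Group G] [Finite G], Nat.card G = n →
    ∀ A B : Subgroup G, Group.IsNilpotent A → Group.IsNilpotent B →
      (∀ g : G, ∃ a ∈ A, ∃ b ∈ B, g = a * b) → (A ≠ ⊤ ∨ B ≠ ⊤) →
      ∃ N : Subgroup G, N.Normal ∧ N ≠ ⊤ ∧ (A ≤ N ∨ B ≤ N) := by
  induction n using Nat.strong_induction_on with
  | _ n ih =>
    intro G _ _ hn A B hA hB hAB hprop
    have hs : Group.IsSolvable G := kegel_wielandt_aux _ G rfl A B hA hB hAB
    by_cases hnil : Group.IsNilpotent G
    · have key : ∀ X : Subgroup G, X ≠ ⊤ → ∃ N : Subgroup G, N.Normal ∧ N ≠ ⊤ ∧ X ≤ N := by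
        intro X hX
        obtain ⟨M, hM, hle⟩ := (eq_top_or_exists_le_coatom X).resolve_left hX
        exact ⟨M, isNilpotent_iff_coatom_normal.mp hnil M hM, hM.1, hle⟩
      rcases hprop with h | h
      · obtain ⟨N, h1, h2, h3⟩ := key A h
        exact ⟨N, h1, h2, Or.inl h3⟩
      · obtain ⟨N, h1, h2, h3⟩ := key B h
        exact ⟨N, h1, h2, Or.inr h3⟩
    have hAtop : A ≠ ⊤ := fun h => hnil (isNilpotent_of_equiv Subgroup.topEquiv (h ▸ hA))
    have hBtop : B ≠ ⊤ := fun h => hnil (isNilpotent_of_equiv Subgroup.topEquiv (h ▸ hB))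
    have hntG : Nontrivial G := by
      by_contra h
      rw [not_nontrivial_iff_subsingleton] at h
      exact hAtop (Subsingleton.elim _ _)
    -- reduction via quotients
    have hred : ∀ M : Subgroup G, ∀ [M.Normal], M ≠ ⊥ → (A ⊔ M ≠ ⊤ ∨ B ⊔ M ≠ ⊤) →
        ∃ N : Subgroup G, N.Normal ∧ N ≠ ⊤ ∧ (A ≤ N ∨ B ≤ N) := by
      intro M hM hMb hor
      have hne : ∀ X : Subgroup G, X ⊔ M ≠ ⊤ → X.map (QuotientGroup.mk' M) ≠ ⊤ := by
        intro X hX h1
        apply hX
        have h2 := congrArg (Subgroup.comap (QuotientGroup.mk' M)) h1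
        rwa [Subgroup.comap_map_eq, QuotientGroup.ker_mk', Subgroup.comap_top] at h2
      obtain ⟨N, hN, hNtop, hN'⟩ := ih _ (hn ▸ card_quotient_lt hMb) (G ⧸ M) rfl
        (A.map (QuotientGroup.mk' M)) (B.map (QuotientGroup.mk' M)) (isNilpotent_map _ hA)
        (isNilpotent_map _ hB) (factor_map _ (QuotientGroup.mk'_surjective M) hAB)
        (hor.imp (hne A) (hne B))
      refine ⟨N.comap (QuotientGroup.mk' M), hN.comap _, ?_, ?_⟩
      · intro h1
        apply hNtop
        rw [← map_mk'_comap N, h1, map_mk'_top]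
      · exact hN'.imp Subgroup.map_le_iff_le_comap.mp Subgroup.map_le_iff_le_comap.mp
    obtain ⟨M, hM, hMb, -, hMmin⟩ := exists_minimal_normal_le (N := (⊤ : Subgroup G)) inferInstance
      top_ne_bot
    haveI := hM
    by_cases hor : A ⊔ M ≠ ⊤ ∨ B ⊔ M ≠ ⊤
    · exact hred M hMb hor
    rw [not_or, not_not, not_not] at hor
    obtain ⟨hAM, hBM⟩ := hor
    obtain ⟨hMc, p, hp, hMp, -⟩ := minimal_normal_solvable hM hMb hMmin inferInstance
    haveI : Fact p.Prime := ⟨hp⟩
    have hMcen : M ≤ centralizer (M : Set G) := by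
      intro x hx
      rw [Subgroup.mem_centralizer_iff]
      intro y hy
      exact congrArg Subtype.val (hMc.is_comm.comm ⟨y, hy⟩ ⟨x, hx⟩)
    have hinf : ∀ X : Subgroup G, X ⊔ M = ⊤ → X ≠ ⊤ → X ⊓ M = ⊥ := by
      intro X hX hXt
      have hn' : (X ⊓ M).Normal := by
        apply normalizer_eq_top_iff.mp
        rw [eq_top_iff, ← hX]
        refine sup_le inf_le_normalizer_of_normal ?_
        refine le_trans ?_ (Subgroup.centralizer_le_normalizer _)
        exact hMcen.trans (Subgroup.centralizer_le inf_le_right)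
      rcases hMmin _ hn' inf_le_right with h | h
      · exact h
      · exfalso
        apply hXt
        rw [← hX]
        exact (sup_eq_left.mpr (inf_eq_right.mp h)).symm
    have hAi := hinf A hAM hAtop
    have hBi := hinf B hBM hBtop
    have hcA : Nat.card M * Nat.card A = Nat.card G :=
      (isComplement'_of_inf_sup (A := M) (U := A) (by rw [inf_comm]; exact hAi)
        (by rw [sup_comm]; exact hAM)).card_mul_card
    have hcB : Nat.card M * Nat.card B = Nat.card G :=
      (isComplement'_of_inf_sup (A := M) (U := B) (by rw [inf_comm]; exact hBi)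
        (by rw [sup_comm]; exact hBM)).card_mul_card
    have hcAB := card_of_factor hAB
    have hpA : p ∣ Nat.card A := by
      have h1 : Nat.card M * Nat.card (A ⊓ B : Subgroup G) = Nat.card A := by
        have h2 : Nat.card B * (Nat.card M * Nat.card (A ⊓ B : Subgroup G)) =
            Nat.card B * Nat.card A := by
          rw [← mul_assoc, mul_comm (Nat.card B), hcB, hcAB, mul_comm]
        exact Nat.eq_of_mul_eq_mul_left Nat.card_pos h2
      obtain ⟨k, hk⟩ := IsPGroup.iff_card.mp hMp
      have hk0 : k ≠ 0 := by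
        rintro rfl
        rw [pow_zero, Subgroup.card_eq_one] at hk
        exact hMb hk
      rw [← h1, hk]
      exact Dvd.dvd.mul_right (dvd_pow_self p hk0) _
    -- the centralizer of `M`
    set C := centralizer (M : Set G) with hC
    haveI hCn : C.Normal := inferInstance
    have hCA : (A ⊓ C).Normal := by
      apply normalizer_eq_top_iff.mp
      rw [eq_top_iff, ← hAM]
      refine sup_le inf_le_normalizer_of_normal ?_
      refine le_trans ?_ (Subgroup.centralizer_le_normalizer _)
      intro m hm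
      rw [Subgroup.mem_centralizer_iff]
      intro y hy
      exact (Subgroup.mem_centralizer_iff.mp hy.2 m hm).symm
    by_cases hCAb : A ⊓ C = ⊥
    · exfalso
      -- `O_p(A)` centralizes `M`
      have hnP : A ≤ normalizer (part p A : Set G) := le_normalizer_part p A
      have hTn : Group.IsNilpotent (part p A ⊔ M : Subgroup G) := by
        have h1 : IsPGroup p (part p A ⊔ M : Subgroup G) :=
          (part_isPGroup p A).to_sup_of_normal_right hMp
        exact h1.isNilpotent
      have hcn : (⁅M, part p A⁆).Normal := by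
        apply normalizer_eq_top_iff.mp
        rw [eq_top_iff, ← hAM]
        refine sup_le ?_ (left_le_normalizer_commutator M (part p A))
        intro a ha
        rw [mem_normalizer_iff_conj_smul, conj_smul_commutator, conj_smul_normal (N := M),
          mem_normalizer_iff_conj_smul.mp (hnP ha)]
      have h2 : ⁅M, part p A⁆ = ⊥ := by
        rcases hMmin _ hcn (Subgroup.commutator_le_left _ _) with h | h
        · exact h
        · exfalso
          apply hMb
          refine eq_bot_of_commutator_eq_self hTn le_sup_right ?_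
          conv_lhs => rw [← h]
          exact Subgroup.commutator_mono le_rfl le_sup_left
      have h3 : part p A ≤ A ⊓ C := by
        refine le_inf (part_le p A) ?_
        rw [Subgroup.commutator_comm, Subgroup.commutator_eq_bot_iff_le_centralizer] at h2
        exact h2
      rw [hCAb, le_bot_iff] at h3
      exact part_ne_bot hA hpA h3
    · haveI := hCA
      apply hred (A ⊓ C) hCAb
      left
      rw [sup_eq_left.mpr inf_le_left]
      exact hAtop

end Cfsg.Agent.H1
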