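import Cfsg.Agent.H1.LeechQ

set_option autoImplicit false

/-! A totally singular subgroup of the Leech lattice modulo two. -/

namespace Cfsg.Agent.H1.LeechA
open Cfsg Cfsg.Agent.H7 Cfsg.Agent.H29

theorem even_diff {x : GolayPt → ℤ} (hx : x ∈ leechLattice) (i j : GolayPt) : (2 : ℤ) ∣ x i - x j := by
  obtain ⟨m, s, y, h1, h2, h3⟩ := mem_leech.1 hx
  rw [h2 i, h2 j]
  omega

/-- the parity and the class modulo four -/
def hA : leechLattice →+ ZMod 2 × (GolayPt → ZMod 2) :=
  AddMonoidHom.mk' (fun x => ((((x : GolayPt → ℤ) none : ℤ) : ZMod 2),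
    fun i => ((((x : GolayPt → ℤ) i - (x : GolayPt → ℤ) none) / 2 : ℤ) : ZMod 2))) (by
    intro a b
    refine Prod.ext ?_ ?_
    · simp
    · funext i
      simp only [AddSubgroup.coe_add, Pi.add_apply, Prod.snd_add]
      rw [← Int.cast_add]
      congr 1
      have h1 := even_diff a.2 i none
      have h2 := even_diff b.2 i none
      omega)

theorem hA_apply (x : leechLattice) : hA x = ((((x : GolayPt → ℤ) none : ℤ) : ZMod 2),
    fun i => ((((x : GolayPt → ℤ) i - (x : GolayPt → ℤ) none) / 2 : ℤ) : ZMod 2)) := rfl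

theorem mem_ker {x : leechLattice} : x ∈ hA.ker ↔
    (2 : ℤ) ∣ (x : GolayPt → ℤ) none ∧ ∀ i, (4 : ℤ) ∣ (x : GolayPt → ℤ) i - (x : GolayPt → ℤ) none := by
  rw [AddMonoidHom.mem_ker, hA_apply, Prod.mk_eq_zero, ZMod.intCast_zmod_eq_zero_iff_dvd]
  refine and_congr (by norm_num) ?_
  rw [funext_iff]
  refine forall_congr' fun i => ?_
  rw [Pi.zero_apply, ZMod.intCast_zmod_eq_zero_iff_dvd]
  have := even_diff x.2 i none
  push_cast
  omega

/-- the words vanishing at the extra point -/
def T : Set (GolayPt → ZMod 2) := {v | v ∈ golayCode ∧ v none = 0}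

theorem supp_ind (s : Finset GolayPt) : support₂ (fun i => ((ind s i : ℤ) : ZMod 2)) = s := by
  ext i
  unfold support₂ ind
  rw [Finset.mem_filter]
  by_cases h : i ∈ s <;> simp [h]

theorem T_ncard : T.ncard = 2048 := by
  rw [← card_GC_none, ← Set.ncard_image_of_injective T (f := support₂) support₂_injective]
  congr 1
  ext s
  constructor
  · rintro ⟨v, ⟨h1, h2⟩, rfl⟩
    refine ⟨support_mem_GC.2 h1, ?_⟩
    unfold support₂
    rw [Finset.mem_filter, h2]
    simp
  · rintro ⟨h1, h2⟩
    refine ⟨fun i => ((ind s i : ℤ) : ZMod 2), ⟨?_, ?_⟩, supp_ind s⟩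
    · rw [← support_mem_GC, supp_ind]; exact h1
    · simp [ind, h2]

theorem cast_congr {a b : ℤ} (h : (2 : ℤ) ∣ a - b) : (a : ZMod 2) = (b : ZMod 2) := by
  rw [← sub_eq_zero, ← Int.cast_sub, ZMod.intCast_zmod_eq_zero_iff_dvd]
  exact_mod_cast h

theorem mem_T {x : GolayPt → ℤ} (hx : x ∈ leechLattice) :
    (fun i => (((x i - x none) / 2 : ℤ) : ZMod 2)) ∈ T := by
  obtain ⟨m, s, y, h1, h2, h3⟩ := mem_leech.1 hx
  refine ⟨?_, by simp⟩
  by_cases hn : none ∈ s
  · have : (fun i => (((x i - x none) / 2 : ℤ) : ZMod 2)) = fun i => ((ind sᶜ i : ℤ) : ZMod 2) := by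
      funext i
      apply cast_congr
      have e1 : ind sᶜ i = 1 - ind s i := by
        unfold ind; by_cases hi : i ∈ s <;> simp [hi]
      have e2 : ind s none = 1 := by unfold ind; rw [if_pos hn]
      rw [h2 i, h2 none, e1, e2]
      omega
    rw [this, ← support_mem_GC, supp_ind]
    exact GC_compl h1
  · have : (fun i => (((x i - x none) / 2 : ℤ) : ZMod 2)) = fun i => ((ind s i : ℤ) : ZMod 2) := by
      funext i
      apply cast_congr
      have e2 : ind s none = 0 := by unfold ind; rw [if_neg hn]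
      rw [h2 i, h2 none, e2]
      omega
    rw [this, ← support_mem_GC, supp_ind]
    exact h1

theorem range_eq : (hA.range : Set (ZMod 2 × (GolayPt → ZMod 2))) = Set.univ ×ˢ T := by
  ext p
  constructor
  · rintro ⟨x, rfl⟩
    exact ⟨trivial, mem_T x.2⟩
  · rintro ⟨-, h1, h2⟩
    obtain ⟨a, v⟩ := p
    simp only at h1 h2
    -- 2 ind s
    have hs : support₂ v ∈ GC := support_mem_GC.2 h1
    let z : leechLattice := ⟨(2 : ℤ) • ind (support₂ v), leech_two hs⟩
    have hnone : none ∉ support₂ v := by
      unfold support₂; rw [Finset.mem_filter, h2]; simp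
    have hz : hA z = (0, v) := by
      rw [hA_apply]
      refine Prod.ext ?_ ?_
      · show (((2 : ℤ) • ind (support₂ v)) none : ZMod 2) = 0
        simp [ind, hnone]
      · apply support₂_injective
        rw [← supp_ind (support₂ v)]
        congr 1
        funext i
        apply cast_congr
        show (2 : ℤ) ∣ (((2 : ℤ) • ind (support₂ v)) i - ((2 : ℤ) • ind (support₂ v)) none) / 2 - ind (support₂ v) i
        simp only [Pi.smul_apply, smul_eq_mul]
        have : ind (support₂ v) none = 0 := by unfold ind; rw [if_neg hnone]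
        rw [this]
        omega
    rcases (show a = 0 ∨ a = 1 by revert a; decide) with rfl | rfl
    · exact ⟨z, hz⟩
    · have ht : hA t3 = (1, 0) := by
        rw [hA_apply]
        refine Prod.ext ?_ ?_
        · show ((t3 : GolayPt → ℤ) none : ZMod 2) = 1
          rw [t3_apply, if_pos none_eq]
          decide
        · funext i
          show ((((t3 : GolayPt → ℤ) i - (t3 : GolayPt → ℤ) none) / 2 : ℤ) : ZMod 2) = 0
          rw [t3_apply, t3_apply, if_pos none_eq]
          split_ifs <;> decide
      refine ⟨t3 + z, ?_⟩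
      rw [map_add, ht, hz]
      simp

theorem ker_index : hA.ker.index = 2 ^ 12 := by
  rw [AddSubgroup.index_ker]
  have h1 : Nat.card hA.range = (hA.range : Set (ZMod 2 × (GolayPt → ZMod 2))).ncard := rfl
  rw [h1, range_eq, Set.ncard_prod, Set.ncard_univ, Nat.card_zmod, T_ncard]
  norm_num

theorem result_aux : ∃ A : AddSubgroup (Cfsg.GolayPt → ℤ), A ≤ Cfsg.leechLattice ∧
    (∀ v ∈ Cfsg.leechLattice, (2 : ℤ) • v ∈ A) ∧ (A.addSubgroupOf Cfsg.leechLattice).index = 2 ^ 12 ∧
    ∀ v ∈ A, (32 : ℤ) ∣ Cfsg.sqNorm v := by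
  refine ⟨hA.ker.map leechLattice.subtype, ?_, ?_, ?_, ?_⟩
  · rintro _ ⟨x, -, rfl⟩
    exact x.2
  · intro v hv
    refine ⟨⟨(2 : ℤ) • v, leechLattice.zsmul_mem hv 2⟩, ?_, rfl⟩
    refine mem_ker.2 ⟨?_, fun i => ?_⟩
    · show (2 : ℤ) ∣ ((2 : ℤ) • v) none
      simp
    · show (4 : ℤ) ∣ ((2 : ℤ) • v) i - ((2 : ℤ) • v) none
      simp only [Pi.smul_apply, smul_eq_mul]
      have := even_diff hv i none
      omega
  · have : (hA.ker.map leechLattice.subtype).addSubgroupOf leechLattice = hA.ker := by
      unfold AddSubgroup.addSubgroupOf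
      exact AddSubgroup.comap_map_eq_self_of_injective leechLattice.subtype_injective _
    rw [this, ker_index]
  · rintro _ ⟨x, hx, rfl⟩
    obtain ⟨hx1, hx2⟩ := mem_ker.1 hx
    show (32 : ℤ) ∣ sqNorm (x : GolayPt → ℤ)
    have hxL := x.2
    rw [mem_leech_cases] at hxL
    rcases hxL with ⟨s, y, h1, h2, h3⟩ | ⟨s, y, h1, h2, h3⟩
    · have hsq : (2 : ℤ) ∣ ∑ i, y i ^ 2 := by
        have : (2 : ℤ) ∣ ∑ i, (y i ^ 2 - y i) := by
          apply Finset.dvd_sum
          intro i _
          rcases Int.even_or_odd' (y i) with ⟨k, hk | hk⟩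
          · rw [hk]; exact ⟨2 * k ^ 2 - k, by ring⟩
          · rw [hk]; exact ⟨2 * k ^ 2 + k, by ring⟩
        rw [Finset.sum_sub_distrib] at this
        omega
      have hcase : s = ∅ ∨ s = Finset.univ := by
        by_cases hn : none ∈ s
        · right
          rw [Finset.eq_univ_iff_forall]
          intro i
          by_contra hi
          have h4 := hx2 i
          rw [h2 i, h2 none] at h4
          have e1 : ind s i = 0 := by unfold ind; rw [if_neg hi]
          have e2 : ind s none = 1 := by unfold ind; rw [if_pos hn]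
          rw [e1, e2] at h4
          omega
        · left
          rw [Finset.eq_empty_iff_forall_notMem]
          intro i hi
          have h4 := hx2 i
          rw [h2 i, h2 none] at h4
          have e1 : ind s i = 1 := by unfold ind; rw [if_pos hi]
          have e2 : ind s none = 0 := by unfold ind; rw [if_neg hn]
          rw [e1, e2] at h4
          omega
      rw [LP_sqNorm h2]
      have h24 : Fintype.card GolayPt = 24 := by decide
      rcases hcase with rfl | rfl
      · have : ∑ i, ind ∅ i * y i = 0 := by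
          apply Finset.sum_eq_zero; intro i _; simp [ind]
        rw [this]
        simp only [Finset.card_empty]
        push_cast; omega
      · have : ∑ i, ind Finset.univ i * y i = ∑ i, y i := by
          apply Finset.sum_congr rfl; intro i _; simp [ind]
        rw [this, Finset.card_univ, h24]
        push_cast; omega
    · exfalso
      have := h2 none
      omega

end Cfsg.Agent.H1.LeechA
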