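import Cfsg.Agent.H29.LeechMod
import Cfsg.Agent.H29.CoPairs
import Cfsg.Agent.H29.CoStab
import Cfsg.Agent.H7.Conway9

set_option autoImplicit false

/-! Quadratic form on the Leech lattice modulo two. -/

namespace Cfsg.Agent.H1.LeechQ
open Cfsg Cfsg.Agent.H7 Cfsg.Agent.H29

theorem le8 {x : leechLattice} (h : sqNorm (x : GolayPt → ℤ) ≤ 64) : bL x x ≤ 8 := by
  have := bL_self x
  omega

theorem short_classes (x y : Cfsg.GolayPt → ℤ) (hx : x ∈ Cfsg.leechLattice) (hy : y ∈ Cfsg.leechLattice)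
    (hxy : x ≠ y) (hxn : Cfsg.sqNorm x ≤ 64) (hyn : Cfsg.sqNorm y ≤ 64)
    (hc : (∃ z ∈ Cfsg.leechLattice, x - y = 2 • z)) :
    x = -y ∨ (Cfsg.sqNorm x = 64 ∧ Cfsg.sqNorm y = 64 ∧ Cfsg.dotInt x y = 0) := by
  obtain ⟨z, hz, hzz⟩ := hc
  have h := short_cong' (x := ⟨x, hx⟩) (y := ⟨y, hy⟩) (le8 hxn) (le8 hyn)
    ⟨⟨z, hz⟩, Subtype.ext (by show x - y = z + z; rw [hzz, two_smul])⟩
  rcases h with h | h | ⟨h1, h2, h3⟩
  · exact absurd (congrArg Subtype.val h) hxy
  · exact Or.inl (congrArg Subtype.val h)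
  · right
    have e1 := bL_self ⟨x, hx⟩
    have e2 := bL_self ⟨y, hy⟩
    have e3 := bL_mul ⟨x, hx⟩ ⟨y, hy⟩
    rw [h1] at e1
    rw [h2] at e2
    rw [h3] at e3
    exact ⟨e1.symm, e2.symm, e3.symm⟩

theorem sqNorm_neg' (x : GolayPt → ℤ) : sqNorm (-x) = sqNorm x := by
  unfold sqNorm
  simp

theorem short_types (v w : Cfsg.GolayPt → ℤ) (hv : v ∈ Cfsg.leechLattice) (hw : w ∈ Cfsg.leechLattice)
    (hvn : Cfsg.sqNorm v ≤ 64) (hwn : Cfsg.sqNorm w ≤ 64)
    (hc : ∃ z ∈ Cfsg.leechLattice, v - w = 2 • z) :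
    Cfsg.sqNorm v = Cfsg.sqNorm w ∧ (Cfsg.sqNorm v < 64 → w = v ∨ w = -v) := by
  by_cases h : v = w
  · subst h; exact ⟨rfl, fun _ => Or.inl rfl⟩
  rcases short_classes v w hv hw h hvn hwn hc with h | ⟨h1, h2, h3⟩
  · refine ⟨by rw [h, sqNorm_neg'], fun _ => Or.inr (by rw [h, neg_neg])⟩
  · exact ⟨by rw [h1, h2], fun h => by omega⟩

theorem trans8 (v w : ↥Cfsg.leechLattice) (hv : Cfsg.sqNorm (v : Cfsg.GolayPt → ℤ) = 64)
    (hw : Cfsg.sqNorm (w : Cfsg.GolayPt → ℤ) = 64) :
    ∃ g : ↥Cfsg.Co0, ∃ z ∈ Cfsg.leechLattice,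
      ((g • v : ↥Cfsg.leechLattice) : Cfsg.GolayPt → ℤ) - (w : Cfsg.GolayPt → ℤ) = 2 • z := by
  have h1 := bL_self v
  have h2 := bL_self w
  obtain ⟨g, hg⟩ := co0_trans (v := v) (w := w) (by omega) (by omega)
  refine ⟨g, 0, leechLattice.zero_mem, ?_⟩
  rw [hg]; simp

/-! ### the double cover does not split -/

theorem stab_le {K : Subgroup Co0} (hK : K.index = 2) {v : leechLattice}
    (hv : bL v v = 4 ∨ bL v v = 6) : MulAction.stabilizer Co0 v ≤ K := by
  obtain ⟨hs, h23⟩ := stab_simple hv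
  haveI : K.Normal := Subgroup.normal_of_index_eq_two hK
  haveI : (K.subgroupOf (MulAction.stabilizer Co0 v)).Normal := inferInstance
  rcases hs.eq_bot_or_eq_top_of_normal (K.subgroupOf (MulAction.stabilizer Co0 v)) inferInstance with h | h
  · exfalso
    have h1 : (K.subgroupOf (MulAction.stabilizer Co0 v)).index ∣ 2 := by
      rw [← hK]
      exact Subgroup.relIndex_dvd_index_of_normal K _
    rw [h, Subgroup.index_bot] at h1
    have h2 := Nat.le_of_dvd (by norm_num) (h23.trans h1)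
    omega
  · exact Subgroup.subgroupOf_eq_top.1 h

theorem sg_fix {c : Finset GolayPt} (hc : c ∈ GC) {i j : GolayPt} (hi : i ∉ c) (hj : j ∉ c) :
    sgEl c hc • pp i j = pp i j := by
  apply Subtype.ext
  funext k
  rw [sgEl_apply, pp_coe]
  simp only [Pi.smul_apply, Pi.add_apply, smul_eq_mul, ind_single]
  by_cases hk : k ∈ c
  · have h1 : k ≠ i := fun h => hi (h ▸ hk)
    have h2 : k ≠ j := fun h => hj (h ▸ hk)
    simp [h1, h2]
  · simp [ind, hk]

theorem two_out {c : Finset GolayPt} (hc : c.card ≤ 16) : ∃ i j, i ≠ j ∧ i ∉ c ∧ j ∉ c := by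
  have h24 : Fintype.card GolayPt = 24 := by decide
  have h1 : 1 < (cᶜ).card := by
    rw [Finset.card_compl, h24]; omega
  obtain ⟨i, hi, j, hj, hij⟩ := Finset.one_lt_card.1 h1
  exact ⟨i, j, hij, Finset.mem_compl.1 hi, Finset.mem_compl.1 hj⟩

theorem negOne_mem_of_index_two {K : Subgroup Co0} (hK : K.index = 2) : negOne ∈ K := by
  have h24 : Fintype.card GolayPt = 24 := by decide
  have ho := octA_octad
  set o := toSet octA with ho'
  have ho1 : o ∈ GC := ho.1
  have ho2 : o.card = 8 := ho.2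
  have hmem : ∀ c, ∀ hc : c ∈ GC, c.card ≤ 16 → sgEl c hc ∈ K := by
    intro c hc h16
    obtain ⟨i, j, hij, hi, hj⟩ := two_out h16
    have h1 : sgEl c hc ∈ MulAction.stabilizer Co0 (pp i j) := sg_fix hc hi hj
    exact stab_le hK (Or.inl (pp_norm hij)) h1
  have h1 := hmem o ho1 (by omega)
  have h2 := hmem oᶜ (GC_compl ho1) (by rw [Finset.card_compl, h24]; omega)
  have h3 : sgEl o ho1 * sgEl oᶜ (GC_compl ho1) = negOne := by
    apply co0_ext
    intro v
    apply Subtype.ext
    funext k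
    rw [mul_smul, negOne_smul, sgEl_apply, sgEl_apply]
    by_cases hk : k ∈ o
    · simp [ind, hk]
    · simp [ind, hk]
  rw [← h3]
  exact K.mul_mem h1 h2

theorem nonsplit :
    ∃ n : ↥Cfsg.Co0, (∀ v : ↥Cfsg.leechLattice,
      ((n • v : ↥Cfsg.leechLattice) : Cfsg.GolayPt → ℤ) = -(v : Cfsg.GolayPt → ℤ)) ∧
    ∀ K : Subgroup ↥Cfsg.Co0, ¬ (Subgroup.zpowers n).IsComplement' K := by
  refine ⟨negOne, fun v => by rw [negOne_smul]; rfl, fun K hK => ?_⟩
  have hord : Nat.card (Subgroup.zpowers negOne) = 2 := by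
    rw [Nat.card_zpowers]
    apply orderOf_eq_prime
    · rw [pow_two, negOne_sq]
    · exact negOne_ne_one
  have hidx : K.index = 2 := by
    rw [hK.index_eq_card]; exact hord
  have h1 := negOne_mem_of_index_two hidx
  have h2 := hK.disjoint
  rw [Subgroup.disjoint_def] at h2
  exact negOne_ne_one (h2 (Subgroup.mem_zpowers _) h1)

/-! ### the invariant quadratic form -/

theorem zmod2_two (a : ZMod 2) : a + a = 0 := by revert a; decide

theorem pp_apply' (i j k : GolayPt) : (pp i j : GolayPt → ℤ) k =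
    4 * ((if k = i then 1 else 0) + (if k = j then 1 else 0)) := by
  rw [pp_coe]; simp [ind_single]

theorem pm_apply' (i j k : GolayPt) : (pm i j : GolayPt → ℤ) k =
    4 * ((if k = i then 1 else 0) - (if k = j then 1 else 0)) := by
  rw [pm_coe]; simp [ind_single]

theorem twoV_apply (o : Finset GolayPt) (ho : o ∈ octads) (k : GolayPt) :
    (twoV o ho : GolayPt → ℤ) k = 2 * (if k ∈ o then 1 else 0) := by
  show ((2 : ℤ) • ind o) k = _
  simp [ind]

theorem twoV_norm (o : Finset GolayPt) (ho : o ∈ octads) : bL (twoV o ho) (twoV o ho) = 4 := by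
  have h1 := bL_self (twoV o ho)
  have h2 : sqNorm ((twoV o ho : leechLattice) : GolayPt → ℤ) = 32 := by
    show sqNorm ((2 : ℤ) • ind o) = 32
    rw [sqNorm_smul, sqNorm_ind, ho.2]; norm_num
  omega

theorem norm_add (x y : leechLattice) : bL (x + y) (x + y) = bL x x + 2 * bL x y + bL y y := by
  rw [bL_add, bL_add_right, bL_add_right, bL_comm y x]; ring

theorem quad_unique (Q : ↥Cfsg.leechLattice → ZMod 2)
    (hcoset : ∀ v w : ↥Cfsg.leechLattice, Q (v + (w + w)) = Q v)
    (hquad : ∀ u v w : ↥Cfsg.leechLattice, Q (u + v + w) + Q u + Q v + Q w = Q (u + v) + Q (u + w) + Q (v + w))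
    (hinv : ∀ (g : ↥Cfsg.Co0) (v : ↥Cfsg.leechLattice), Q (g • v) = Q v)
    (hne : ∃ v : ↥Cfsg.leechLattice, Q v ≠ 0) (v : ↥Cfsg.leechLattice) :
    Q v = ((Cfsg.sqNorm (v : Cfsg.GolayPt → ℤ) / 16 : ℤ) : ZMod 2) := by
  have hQ0 : Q 0 = 0 := by
    have := hquad 0 0 0
    simp only [add_zero] at this
    generalize Q 0 = a at this
    revert a; decide
  have hcong : ∀ x y : leechLattice, LCong x y → Q x = Q y := by
    rintro x y ⟨u, hu⟩
    have : x = y + (u + u) := by rw [← hu]; abel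
    rw [this, hcoset]
  have hconst : ∀ x y : leechLattice, bL x x = bL y y → (bL x x = 4 ∨ bL x x = 6 ∨ bL x x = 8) → Q x = Q y := by
    intro x y h h'
    obtain ⟨g, hg⟩ := co0_trans h h'
    rw [← hg, hinv]
  -- points
  have ho := octA_octad
  obtain ⟨q, q', hqq, hq, hq'⟩ := two_out (c := toSet octA) (by rw [ho.2]; norm_num)
  obtain ⟨p, hp, p', hp', hpp⟩ := Finset.one_lt_card.1 (show 1 < (toSet octA).card by rw [ho.2]; norm_num)
  have hqp : q ≠ p := fun h => hq (h ▸ hp)
  have hqp' : q ≠ p' := fun h => hq (h ▸ hp')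
  have hq'p : q' ≠ p := fun h => hq' (h ▸ hp)
  have hq'p' : q' ≠ p' := fun h => hq' (h ▸ hp')
  have n1 := pm_norm hqp
  have n2 := pp_norm hqp'
  -- first configuration: type two vectors have Q = 0
  have ha : Q (pm q p) = 0 := by
    set a := twoV (toSet octA) ho with hadef
    have na : bL a a = 4 := twoV_norm _ ho
    have e1 : bL a (pm q p) = -1 := by
      have := two_bL_pm a q p
      rw [hadef, twoV_apply, twoV_apply, if_neg hq, if_pos hp] at this
      rw [hadef]; omega
    have e2 : bL a (-pp q p') = -1 := by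
      have := two_bL_pp a q p'
      rw [hadef, twoV_apply, twoV_apply, if_neg hq, if_pos hp'] at this
      rw [bL_neg_right, hadef]; omega
    have e3 : bL (pm q p) (-pp q p') = -2 := by
      have := two_bL_pp (pm q p) q p'
      rw [pm_apply', pm_apply', if_pos rfl, if_neg hqp, if_neg (Ne.symm hqp'), if_neg (Ne.symm hpp)] at this
      rw [bL_neg_right]; omega
    have n2' : bL (-pp q p') (-pp q p') = 4 := by rw [bL_neg, bL_neg_right, neg_neg]; exact n2
    have h := hquad a (pm q p) (-pp q p')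
    have f1 : Q a = Q (pm q p) := hconst _ _ (by rw [na, n1]) (Or.inl na)
    have f2 : Q (-pp q p') = Q (pm q p) := hconst _ _ (by rw [n2', n1]) (Or.inl n2')
    have m12 : bL (a + pm q p) (a + pm q p) = 6 := by rw [norm_add, na, e1, n1]; norm_num
    have m13 : bL (a + -pp q p') (a + -pp q p') = 6 := by rw [norm_add, na, e2, n2']; norm_num
    have m23 : bL (pm q p + -pp q p') (pm q p + -pp q p') = 4 := by rw [norm_add, n1, e3, n2']; norm_num
    have m123 : bL (a + pm q p + -pp q p') (a + pm q p + -pp q p') = 4 := by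
      rw [norm_add, m12, bL_add, e2, e3, n2']; norm_num
    have f3 : Q (a + -pp q p') = Q (a + pm q p) := hconst _ _ (by rw [m12, m13]) (Or.inr (Or.inl m13))
    have f4 : Q (pm q p + -pp q p') = Q (pm q p) := hconst _ _ (by rw [m23, n1]) (Or.inl m23)
    have f5 : Q (a + pm q p + -pp q p') = Q (pm q p) := hconst _ _ (by rw [m123, n1]) (Or.inl m123)
    rw [f1, f2, f3, f4, f5] at h
    generalize Q (pm q p) = s at h
    generalize Q (a + pm q p) = t at h
    revert s t; decide
  -- second configuration: type four vectors have Q = 0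
  have hc : Q (e8 none) = 0 := by
    -- v = pp p' q', w1 = pm q p, w2 = pm p p'
    have n3 : bL (pm p p') (pm p p') = 4 := pm_norm hpp
    have n4 : bL (pp p' q') (pp p' q') = 4 := pp_norm (Ne.symm hq'p')
    have e1 : bL (pp p' q') (pm q p) = 0 := by
      have := two_bL_pm (pp p' q') q p
      rw [pp_apply', pp_apply', if_neg hqp', if_neg hqq, if_neg hpp, if_neg (Ne.symm hq'p)] at this
      omega
    have e2 : bL (pp p' q') (pm p p') = -2 := by
      have := two_bL_pm (pp p' q') p p'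
      rw [pp_apply', pp_apply', if_neg hpp, if_neg (Ne.symm hq'p), if_pos rfl, if_neg (Ne.symm hq'p')] at this
      omega
    have e3 : bL (pm q p) (pm p p') = -2 := by
      have := two_bL_pm (pm q p) p p'
      rw [pm_apply', pm_apply', if_neg (Ne.symm hqp), if_pos rfl, if_neg (Ne.symm hqp'), if_neg (Ne.symm hpp)] at this
      omega
    have h := hquad (pp p' q') (pm q p) (pm p p')
    have m12 : bL (pp p' q' + pm q p) (pp p' q' + pm q p) = 8 := by rw [norm_add, n4, e1, n1]; norm_num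
    have m13 : bL (pp p' q' + pm p p') (pp p' q' + pm p p') = 4 := by rw [norm_add, n4, e2, n3]; norm_num
    have m23 : bL (pm q p + pm p p') (pm q p + pm p p') = 4 := by rw [norm_add, n1, e3, n3]; norm_num
    have m123 : bL (pp p' q' + pm q p + pm p p') (pp p' q' + pm q p + pm p p') = 4 := by
      rw [norm_add, m12, bL_add, e2, e3, n3]; norm_num
    have f1 : Q (pp p' q') = 0 := by rw [← ha]; exact hconst _ _ (by rw [n4, n1]) (Or.inl n4)
    have f2 : Q (pm p p') = 0 := by rw [← ha]; exact hconst _ _ (by rw [n3, n1]) (Or.inl n3)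
    have f3 : Q (pp p' q' + pm p p') = 0 := by rw [← ha]; exact hconst _ _ (by rw [m13, n1]) (Or.inl m13)
    have f4 : Q (pm q p + pm p p') = 0 := by rw [← ha]; exact hconst _ _ (by rw [m23, n1]) (Or.inl m23)
    have f5 : Q (pp p' q' + pm q p + pm p p') = 0 := by rw [← ha]; exact hconst _ _ (by rw [m123, n1]) (Or.inl m123)
    have f6 : Q (pp p' q' + pm q p) = Q (e8 none) :=
      hconst _ _ (by rw [m12, e8_frame.norm none]) (Or.inr (Or.inr m12))
    rw [f1, ha, f2, f3, f4, f5, f6] at h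
    simpa using h.symm
  -- type three
  have hq4 : ∀ x : leechLattice, bL x x = 4 → Q x = 0 := fun x hx => by
    rw [← ha]; exact hconst _ _ (by rw [hx, n1]) (Or.inl hx)
  have hq8 : ∀ x : leechLattice, bL x x = 8 → Q x = 0 := fun x hx => by
    rw [← hc]; exact hconst _ _ (by rw [hx, e8_frame.norm none]) (Or.inr (Or.inr hx))
  have hq6 : ∀ x : leechLattice, bL x x = 6 → Q x = 1 := by
    intro x hx
    obtain ⟨y, hy⟩ := hne
    obtain ⟨w, hyw, hw⟩ := exists_short y
    rw [hcong y w hyw] at hy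
    have hw6 : bL w w = 6 := by
      rcases hw with h | h | h | h
      · rw [h, hQ0] at hy; exact absurd rfl hy
      · exact absurd (hq4 w h) hy
      · exact h
      · exact absurd (hq8 w h) hy
    rw [hconst x w (by rw [hx, hw6]) (Or.inr (Or.inl hx))]
    generalize Q w = s at hy
    revert s; decide
  obtain ⟨w, hvw, hw⟩ := exists_short v
  have h4 := qf_cong hvw
  have hself := bL_self v
  have hev := bL_even v
  have h16 : sqNorm (v : GolayPt → ℤ) / 16 = bL v v / 2 := by omega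
  rw [hcong v w hvw, h16]
  have h00 : bL (0 : leechLattice) 0 = 0 := leech_LLat.zero_left 0
  rcases hw with h | h | h | h
  · rw [h, hQ0]
    rw [h, h00] at h4
    symm
    rw [ZMod.intCast_zmod_eq_zero_iff_dvd]
    push_cast; omega
  · rw [hq4 w h]
    rw [h] at h4
    symm
    rw [ZMod.intCast_zmod_eq_zero_iff_dvd]
    push_cast; omega
  · rw [hq6 w h]
    rw [h] at h4
    symm
    rw [← sub_eq_zero, show ((bL v v / 2 : ℤ) : ZMod 2) - 1 = ((bL v v / 2 - 1 : ℤ) : ZMod 2) by push_cast; ring,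
      ZMod.intCast_zmod_eq_zero_iff_dvd]
    push_cast; omega
  · rw [hq8 w h]
    rw [h] at h4
    symm
    rw [ZMod.intCast_zmod_eq_zero_iff_dvd]
    push_cast; omega

end Cfsg.Agent.H1.LeechQ
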