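import Cfsg.Agent.S5396
import Cfsg.Agent.S5395
import Cfsg.Agent.S3763
import Cfsg.Prelude.Def_KGroupFacts

set_option autoImplicit false
set_option linter.all false

namespace Cfsg.Agent.H1.OutX

open Cfsg Cfsg.Agent.S5396 Matrix

lemma t2 : ∀ x : ZMod 2, x + x = 0 := by decide

/-- an alternating bilinear form over the field with two elements -/
structure Alt2 (V : Type) [AddCommGroup V] where
  two : ∀ v : V, v + v = 0
  β : V → V → ZMod 2
  l : ∀ a b c, β (a + b) c = β a c + β b c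
  r : ∀ a b c, β a (b + c) = β a b + β a c
  alt : ∀ a, β a a = 0

@[ext] structure Wb {V : Type} [AddCommGroup V] (A : Alt2 V) where
  v : V
  c : ZMod 2

section
variable {V : Type} [AddCommGroup V] {A : Alt2 V}

lemma Alt2.zero_l (A : Alt2 V) (a : V) : A.β 0 a = 0 := by
  have := A.l 0 0 a
  rw [add_zero] at this
  exact left_eq_add.1 this

lemma Alt2.symm (A : Alt2 V) (a b : V) : A.β a b = A.β b a := by
  have h := A.alt (a + b)
  rw [A.l, A.r, A.r, A.alt, A.alt, zero_add, add_zero] at h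
  have h2 := t2 (A.β b a)
  have : A.β a b + A.β b a = A.β b a + A.β b a := by rw [h, h2]
  exact add_right_cancel this

instance : Add (Wb A) := ⟨fun x y => ⟨x.v + y.v, x.c + y.c + A.β x.v y.v⟩⟩
instance : Zero (Wb A) := ⟨⟨0, 0⟩⟩
instance : Neg (Wb A) := ⟨fun x => x⟩

lemma add_v (x y : Wb A) : (x + y).v = x.v + y.v := rfl
lemma add_c (x y : Wb A) : (x + y).c = x.c + y.c + A.β x.v y.v := rfl
lemma zero_v : (0 : Wb A).v = 0 := rfl
lemma zero_c : (0 : Wb A).c = 0 := rfl

lemma wb_two (x : Wb A) : x + x = 0 := by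
  apply Wb.ext
  · exact A.two _
  · rw [add_c, t2, A.alt, add_zero, zero_c]

lemma wb_comm (x y : Wb A) : x + y = y + x := by
  apply Wb.ext
  · rw [add_v, add_v, add_comm]
  · rw [add_c, add_c, A.symm, add_comm x.c]

lemma wb_zero_add (x : Wb A) : 0 + x = x := by
  apply Wb.ext
  · rw [add_v, zero_v, zero_add]
  · rw [add_c, zero_v, zero_c, A.zero_l, zero_add, add_zero]

instance : AddCommGroup (Wb A) where
  add_assoc x y z := by
    apply Wb.ext
    · simp only [add_v, add_assoc]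
    · simp only [add_v, add_c, A.l, A.r]; ring
  zero_add := wb_zero_add
  add_zero x := by rw [wb_comm, wb_zero_add]
  add_comm := wb_comm
  neg_add_cancel := wb_two
  nsmul := nsmulRec
  zsmul := zsmulRec

theorem exists_eta (A : Alt2 V) : ∃ η : V → ZMod 2, ∀ a b, η (a + b) = η a + η b + A.β a b := by
  letI : Module (ZMod 2) V := AddCommGroup.zmodModule (fun v => by rw [two_nsmul]; exact A.two v)
  letI : Module (ZMod 2) (Wb A) := AddCommGroup.zmodModule (fun v => by rw [two_nsmul]; exact wb_two v)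
  let π₀ : Wb A →+ V := { toFun := Wb.v, map_zero' := rfl, map_add' := fun _ _ => rfl }
  let π : Wb A →ₗ[ZMod 2] V := π₀.toZModLinearMap 2
  have hπ : Function.Surjective π := fun v => ⟨⟨v, 0⟩, rfl⟩
  haveI : Fact (Nat.Prime 2) := ⟨Nat.prime_two⟩
  obtain ⟨s, hs⟩ := LinearMap.exists_rightInverse_of_surjective π (LinearMap.range_eq_top.2 hπ)
  have hsv : ∀ v, (s v).v = v := fun v => congrArg (fun f : V →ₗ[ZMod 2] V => f v) hs
  refine ⟨fun v => (s v).c, fun a b => ?_⟩
  show (s (a + b)).c = _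
  rw [map_add, add_c, hsv, hsv]

end

section model

variable {n : ℕ} {ε : ZMod 2}

lemma v_two (v : Fin n → U) : v + v = 0 := by
  funext i
  exact Prod.ext (t2 _) (t2 _)

lemma cen_v {x : Ex n ε} (hx : ∀ y, x * y = y * x) : x.v = 0 := by
  funext i
  apply nd (ei ε i.val)
  intro w
  have h1 := congrArg Ex.c (hx ⟨Pi.single i w, 0⟩)
  rw [mul_c, mul_c] at h1
  change x.c + 0 + Bf ε x.v (Pi.single i w) = 0 + x.c + Bf ε (Pi.single i w) x.v at h1
  rw [Bf_single_right, Bf_single_left, add_zero, zero_add] at h1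
  exact add_left_cancel h1

lemma cen_of {x : Ex n ε} (hx : x.v = 0) (y : Ex n ε) : x * y = y * x := by
  apply Ex.ext
  · rw [mul_v, mul_v, add_comm]
  · rw [mul_c, mul_c, hx, Bf_zero_left, Bf_zero_right, add_comm x.c]

lemma aut_zero (α : MulAut (Ex n ε)) {x : Ex n ε} (hx : x.v = 0) : α x = x := by
  have h0 : ∀ y : Ex n ε, y.v = 0 → (α y).v = 0 := by
    intro y hy
    apply cen_v
    intro w
    obtain ⟨w, rfl⟩ := α.surjective w
    rw [← map_mul, ← map_mul, cen_of hy]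
  have h1 := h0 x hx
  have hc : ∀ c : ZMod 2, c = 0 ∨ c = 1 := by decide
  rcases hc x.c with h | h
  · have : x = 1 := Ex.ext hx h
    rw [this, map_one]
  · have hz : x = zz := Ex.ext hx h
    rcases hc (α x).c with h2 | h2
    · exfalso
      have h3 : α x = 1 := Ex.ext h1 h2
      have h4 : x = 1 := (map_eq_one_iff α α.injective).1 h3
      rw [h4, one_c] at h
      exact zero_ne_one h
    · exact Ex.ext (h1.trans hx.symm) (h2.trans h.symm)

lemma aut_v (α : MulAut (Ex n ε)) {x y : Ex n ε} (h : x.v = y.v) : (α x).v = (α y).v := by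
  have h1 : (x * y⁻¹).v = 0 := by
    rw [mul_v]
    show x.v + -y.v = 0
    rw [h, add_neg_cancel]
  have h2 : α x = α (x * y⁻¹) * α y := by rw [← map_mul, inv_mul_cancel_right]
  rw [h2, aut_zero α h1, mul_v, h1, zero_add]

lemma mem_inn (hn : 1 ≤ n) (α : MulAut (Ex n ε)) : α ∈ Inn (Ex n ε) ↔ ∀ x, (α x).v = x.v := by
  constructor
  · rintro ⟨g, rfl⟩ x
    rw [MulAut.conj_apply, mul_v, mul_v]
    show g.v + x.v + -g.v = x.v
    abel
  · intro h
    obtain ⟨g, hg⟩ := Cfsg.Agent.S5395.result (extra hn) α (by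
      intro x
      rw [Subgroup.mem_center_iff]
      intro y
      refine (cen_of ?_ y).symm
      rw [mul_v, h]
      show x.v + -x.v = 0
      exact add_neg_cancel _)
    exact ⟨g, MulEquiv.ext fun x => (hg x).symm⟩

theorem exists_lift (g : (Fin n → U) ≃+ (Fin n → U)) (hg : ∀ v, Bf ε (g v) (g v) = Bf ε v v) :
    ∃ α : MulAut (Ex n ε), ∀ x, (α x).v = g x.v := by
  let A : Alt2 (Fin n → U) :=
    { two := v_two
      β := fun v w => Bf ε (g v) (g w) + Bf ε v w
      l := fun a b c => by rw [map_add, Bf_add_left, Bf_add_left]; ring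
      r := fun a b c => by rw [map_add, Bf_add_right, Bf_add_right]; ring
      alt := fun a => by rw [hg, t2] }
  obtain ⟨η, hη⟩ := exists_eta A
  have hη' : ∀ a b, η (a + b) + Bf ε a b = η a + η b + Bf ε (g a) (g b) := by
    intro a b
    rw [hη]
    show η a + η b + (Bf ε (g a) (g b) + Bf ε a b) + Bf ε a b = _
    have := t2 (Bf ε a b)
    linear_combination this
  let f : Ex n ε →* Ex n ε := MonoidHom.mk' (fun x => ⟨g x.v, x.c + η x.v⟩) (by
    intro x y
    apply Ex.ext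
    · show g (x * y).v = g x.v + g y.v
      rw [mul_v, map_add]
    · show (x * y).c + η (x * y).v = (x.c + η x.v) + (y.c + η y.v) + Bf ε (g x.v) (g y.v)
      rw [mul_c, mul_v]
      have := hη' x.v y.v
      linear_combination this)
  have hf : Function.Injective f := by
    intro x y h
    have h1 : g x.v = g y.v := congrArg Ex.v h
    have h2 : x.c + η x.v = y.c + η y.v := congrArg Ex.c h
    have h3 := g.injective h1
    rw [h3] at h2
    exact Ex.ext h3 (add_right_cancel h2)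
  exact ⟨MulEquiv.ofBijective f ⟨hf, Finite.surjective_of_injective hf⟩, fun x => rfl⟩

variable {ι : Type} [Fintype ι] [DecidableEq ι] {Q : (ι → ZMod 2) → ZMod 2}

lemma mem_iso {g : GL ι (ZMod 2)} : g ∈ isometryGroup (ZMod 2) Q ↔ ∀ v, Q ((g : Matrix ι ι (ZMod 2)) *ᵥ v) = Q v :=
  ⟨fun h v => h v v, fun h u _ => h u⟩

def glEquiv (g : GL ι (ZMod 2)) : (ι → ZMod 2) ≃+ (ι → ZMod 2) where
  toFun v := (g : Matrix ι ι (ZMod 2)) *ᵥ v
  invFun v := ((g⁻¹ : GL ι (ZMod 2)) : Matrix ι ι (ZMod 2)) *ᵥ v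
  left_inv v := by
    show ((g⁻¹ : GL ι (ZMod 2)) : Matrix ι ι (ZMod 2)) *ᵥ ((g : Matrix ι ι (ZMod 2)) *ᵥ v) = v
    rw [Matrix.mulVec_mulVec, ← Units.val_mul, inv_mul_cancel, Units.val_one, Matrix.one_mulVec]
  right_inv v := by
    show (g : Matrix ι ι (ZMod 2)) *ᵥ (((g⁻¹ : GL ι (ZMod 2)) : Matrix ι ι (ZMod 2)) *ᵥ v) = v
    rw [Matrix.mulVec_mulVec, ← Units.val_mul, mul_inv_cancel, Units.val_one, Matrix.one_mulVec]
  map_add' v w := Matrix.mulVec_add _ _ _

theorem out_model (hn : 1 ≤ n) (L : (Fin n → U) ≃+ (ι → ZMod 2)) (hL : ∀ v, Q (L v) = Bf ε v v) :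
    Nonempty (Out (Ex n ε) ≃* isometryGroup (ZMod 2) Q) := by
  classical
  have hex : ∀ g : isometryGroup (ZMod 2) Q, ∃ α : MulAut (Ex n ε), ∀ x, (α x).v = L.symm ((g : GL ι (ZMod 2)).val *ᵥ L x.v) := by
    intro g
    refine exists_lift (L.trans ((glEquiv (g : GL ι (ZMod 2))).trans L.symm)) ?_
    intro v
    show Bf ε (L.symm ((g : GL ι (ZMod 2)).val *ᵥ L v)) (L.symm ((g : GL ι (ZMod 2)).val *ᵥ L v)) = _
    rw [← hL, AddEquiv.apply_symm_apply, mem_iso.1 g.2, hL]
  choose lift hlift using hex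
  have key : ∀ α β : MulAut (Ex n ε), (∀ x, (α x).v = (β x).v) → (QuotientGroup.mk α : Out (Ex n ε)) = QuotientGroup.mk β := by
    intro α β h
    rw [QuotientGroup.eq, mem_inn hn]
    intro x
    show (α⁻¹ (β x)).v = x.v
    have h1 := aut_v (α⁻¹) (h x).symm
    rw [h1]
    show (α.symm (α x)).v = x.v
    rw [MulEquiv.symm_apply_apply]
  let Λ : isometryGroup (ZMod 2) Q →* Out (Ex n ε) := MonoidHom.mk' (fun g => QuotientGroup.mk (lift g)) (by
    intro g h
    rw [← QuotientGroup.mk_mul]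
    apply key
    intro x
    show (lift (g * h) x).v = (lift g (lift h x)).v
    rw [hlift, hlift, hlift, AddEquiv.apply_symm_apply, Matrix.mulVec_mulVec]
    rfl)
  have hinj : Function.Injective Λ := by
    rw [injective_iff_map_eq_one]
    intro g hg
    have h1 : lift g ∈ Inn (Ex n ε) := (QuotientGroup.eq_one_iff _).1 hg
    rw [mem_inn hn] at h1
    apply Subtype.ext
    apply Units.ext
    apply Matrix.mulVec_injective
    funext v
    have h2 := h1 ⟨L.symm v, 0⟩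
    rw [hlift] at h2
    have h3 := congrArg L h2
    rw [AddEquiv.apply_symm_apply] at h3
    change (g : GL ι (ZMod 2)).val *ᵥ L (L.symm v) = L (L.symm v) at h3
    rw [AddEquiv.apply_symm_apply] at h3
    rw [h3]
    show v = (1 : Matrix ι ι (ZMod 2)) *ᵥ v
    rw [Matrix.one_mulVec]
  have hsurj : Function.Surjective Λ := by
    intro a
    obtain ⟨α, rfl⟩ := QuotientGroup.mk_surjective a
    -- the additive map induced by an automorphism
    have hadd : ∀ (α : MulAut (Ex n ε)) (v w : Fin n → U), (α ⟨v + w, 0⟩).v = (α ⟨v, 0⟩).v + (α ⟨w, 0⟩).v := by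
      intro α v w
      rw [← mul_v, ← map_mul]
      exact aut_v α rfl
    let fb : MulAut (Ex n ε) → (ι → ZMod 2) →ₗ[ZMod 2] (ι → ZMod 2) := fun α =>
      AddMonoidHom.toZModLinearMap 2 (AddMonoidHom.mk' (fun v => L (α ⟨L.symm v, 0⟩).v) (by
        intro v w
        show L (α ⟨L.symm (v + w), 0⟩).v = _
        rw [map_add, hadd, map_add]))
    have hfb : ∀ α v, fb α v = L (α ⟨L.symm v, 0⟩).v := fun _ _ => rfl
    have hcomp : ∀ α β : MulAut (Ex n ε), (∀ x, α (β x) = x) → (fb α) ∘ₗ (fb β) = LinearMap.id := by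
      intro α β hαβ
      apply LinearMap.ext
      intro v
      show fb α (fb β v) = v
      rw [hfb, hfb, AddEquiv.symm_apply_apply]
      have h1 : (α ⟨(β ⟨L.symm v, 0⟩).v, 0⟩).v = (α (β ⟨L.symm v, 0⟩)).v := aut_v α rfl
      rw [h1, hαβ]
      exact AddEquiv.apply_symm_apply L v
    let g : GL ι (ZMod 2) := ⟨LinearMap.toMatrix' (fb α), LinearMap.toMatrix' (fb α⁻¹),
      by rw [← LinearMap.toMatrix'_comp, hcomp α α⁻¹ (fun x => α.apply_symm_apply x), LinearMap.toMatrix'_id],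
      by rw [← LinearMap.toMatrix'_comp, hcomp α⁻¹ α (fun x => α.symm_apply_apply x), LinearMap.toMatrix'_id]⟩
    have hgv : ∀ v, g.val *ᵥ v = L (α ⟨L.symm v, 0⟩).v := fun v => LinearMap.toMatrix'_mulVec (fb α) v
    have hg : g ∈ isometryGroup (ZMod 2) Q := by
      rw [mem_iso]
      intro v
      rw [hgv, hL]
      obtain ⟨w, rfl⟩ := L.surjective v
      rw [AddEquiv.symm_apply_apply, hL, ← sq_c, ← map_mul]
      have h1 : ((⟨w, 0⟩ : Ex n ε) * ⟨w, 0⟩).v = 0 := sq_v _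
      rw [aut_zero α h1, sq_c]
    refine ⟨⟨g, hg⟩, ?_⟩
    apply key
    intro x
    rw [hlift]
    show L.symm (g.val *ᵥ L x.v) = _
    rw [hgv, AddEquiv.symm_apply_apply, AddEquiv.symm_apply_apply]
    exact aut_v α rfl
  exact ⟨(MulEquiv.ofBijective Λ ⟨hinj, hsurj⟩).symm⟩

end model

theorem out_congr {E E' : Type*} [Group E] [Group E'] (e : E ≃* E') : Nonempty (Out E ≃* Out E') := by
  refine ⟨QuotientGroup.congr (Inn E) (Inn E') (MulAut.congr e) ?_⟩
  ext α
  constructor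
  · rintro ⟨_, ⟨g, rfl⟩, rfl⟩
    refine ⟨e g, ?_⟩
    apply MulEquiv.ext
    intro x
    show e g * x * (e g)⁻¹ = e (g * e.symm x * g⁻¹)
    rw [map_mul, map_mul, MulEquiv.apply_symm_apply, map_inv]
  · rintro ⟨g, rfl⟩
    obtain ⟨g, rfl⟩ := e.surjective g
    refine ⟨MulAut.conj g, ⟨g, rfl⟩, ?_⟩
    apply MulEquiv.ext
    intro x
    show e (g * e.symm x * g⁻¹) = e g * x * (e g)⁻¹
    rw [map_mul, map_mul, MulEquiv.apply_symm_apply, map_inv]

def LP (n : ℕ) : (Fin n → U) ≃+ (Fin n ⊕ Fin n → ZMod 2) where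
  toFun v := Sum.elim (fun i => (v i).1) (fun i => (v i).2)
  invFun w := fun i => (w (Sum.inl i), w (Sum.inr i))
  left_inv v := rfl
  right_inv w := by funext i; rcases i with i | i <;> rfl
  map_add' v w := by funext i; rcases i with i | i <;> rfl

lemma LP_Q (n : ℕ) (v : Fin n → U) : quadFormPlus n (ZMod 2) (LP n v) = Bf 0 v v := by
  unfold quadFormPlus Bf
  apply Finset.sum_congr rfl
  intro i _
  have : ei 0 i.val = 0 := by unfold ei; split_ifs <;> rfl
  rw [this]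
  show (v i).1 * (v i).2 = (v i).1 * (v i).2 + 0 * _
  rw [zero_mul, add_zero]

def LM (m : ℕ) : (Fin (m + 1) → U) ≃+ ((Fin m ⊕ Fin m) ⊕ Fin 2 → ZMod 2) where
  toFun v := Sum.elim (Sum.elim (fun i => (v i.succ).1) (fun i => (v i.succ).2)) ![(v 0).1, (v 0).2]
  invFun w := Fin.cons (w (Sum.inr 0), w (Sum.inr 1)) (fun i => (w (Sum.inl (Sum.inl i)), w (Sum.inl (Sum.inr i))))
  left_inv v := by
    funext i
    refine Fin.cases ?_ (fun j => ?_) i
    · rfl
    · rfl
  right_inv w := by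
    funext i
    rcases i with (i | i) | i
    · rfl
    · rfl
    · fin_cases i <;> rfl
  map_add' v w := by
    funext i
    rcases i with (i | i) | i
    · rfl
    · rfl
    · fin_cases i <;> rfl

lemma LM_Q (m : ℕ) (v : Fin (m + 1) → U) : quadFormMinus m (ZMod 2) 1 1 (LM m v) = Bf 1 v v := by
  unfold quadFormMinus Bf
  rw [Fin.sum_univ_succ]
  have h1 : ∀ i : Fin m, bi (ei 1 i.succ.val) (v i.succ) (v i.succ) = (v i.succ).1 * (v i.succ).2 := by
    intro i
    have : ei 1 (i.succ.val) = 0 := by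
      unfold ei
      rw [if_neg]
      simp
    rw [this]
    show (v i.succ).1 * (v i.succ).2 + 0 * _ = _
    rw [zero_mul, add_zero]
  rw [Finset.sum_congr rfl (fun i _ => h1 i)]
  have h2 : bi (ei 1 ((0 : Fin (m + 1)).val)) (v 0) (v 0) = (v 0).1 * (v 0).2 + 1 * ((v 0).1 * (v 0).1 + (v 0).2 * (v 0).2) := rfl
  rw [h2]
  show (∑ i : Fin m, (v i.succ).1 * (v i.succ).2) + ((v 0).1 ^ 2 + 1 * (v 0).1 * (v 0).2 + 1 * (v 0).2 ^ 2) = _
  ring

lemma prank_mono {E : Type*} [Group E] {j k : ℕ} (hjk : j ≤ k) (h : PRankLE 2 j E) : PRankLE 2 k E :=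
  fun A h1 h2 => (h A h1 h2).trans (Nat.pow_le_pow_right (by norm_num) hjk)

lemma rank_plus {E : Type*} [Group E] [Finite E] (hE : Cfsg.IsExtraspecial 2 E) (n : ℕ) (hcard : Nat.card E = 2 ^ (2 * n + 1))
    (hA : ∃ A : Subgroup E, Cfsg.IsElementaryAbelian 2 A ∧ Nat.card ↥A = 2 ^ (n + 1)) (k : ℕ) :
    PRankLE 2 k E ↔ n + 1 ≤ k := by
  obtain ⟨A, hA, hAc⟩ := hA
  have hno : ¬ PRankLE 2 n E := by
    intro h
    have := h A hA.1 hA.2
    rw [hAc] at this
    exact absurd this (not_le.2 (Nat.pow_lt_pow_right (by norm_num) (Nat.lt_succ_self n)))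
  rcases (Cfsg.Agent.S3763.result.{_, 0} hE n hcard).1 with h | h
  · exact absurd h.1 hno
  · constructor
    · intro hk
      by_contra hlt
      exact hno (prank_mono (by omega) hk)
    · intro hk
      exact prank_mono hk h.1

lemma rank_minus {E : Type*} [Group E] [Finite E] (hE : Cfsg.IsExtraspecial 2 E) (n : ℕ) (hn : 1 ≤ n) (hcard : Nat.card E = 2 ^ (2 * n + 1))
    (hA : ¬ ∃ A : Subgroup E, Cfsg.IsElementaryAbelian 2 A ∧ Nat.card ↥A = 2 ^ (n + 1)) (k : ℕ) :
    PRankLE 2 k E ↔ n ≤ k := by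
  rcases (Cfsg.Agent.S3763.result.{_, 0} hE n hcard).1 with h | h
  · constructor
    · intro hk
      by_contra hlt
      exact h.2 (prank_mono (by omega) hk)
    · intro hk
      exact prank_mono hk h.1
  · exfalso
    apply hA
    have h2 := h.2
    unfold PRankLE at h2
    push Not at h2
    obtain ⟨A, hA1, hA2, hA3⟩ := h2
    refine ⟨A, ⟨hA1, hA2⟩, ?_⟩
    have h4 := h.1 A hA1 hA2
    have hp : IsPGroup 2 A := by
      rintro ⟨a, ha⟩
      exact ⟨1, Subtype.ext (by rw [pow_one]; exact hA2 a ha)⟩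
    haveI : Fact (Nat.Prime 2) := ⟨Nat.prime_two⟩
    obtain ⟨j, hj⟩ := IsPGroup.iff_card.1 hp
    rw [hj] at hA3 h4 ⊢
    have h5 := (Nat.pow_lt_pow_iff_right (by norm_num : 1 < 2)).1 hA3
    have h6 := (Nat.pow_le_pow_iff_right (by norm_num : 1 < 2)).1 h4
    congr 1
    omega

theorem main {E : Type*} [Group E] [Finite E] (hE : Cfsg.IsExtraspecial 2 E) (n : ℕ) (hn : 1 ≤ n) (hcard : Nat.card E = 2 ^ (2 * n + 1)) :
    ((∃ A : Subgroup E, Cfsg.IsElementaryAbelian 2 A ∧ Nat.card ↥A = 2 ^ (n + 1)) → Nonempty (Cfsg.Out E ≃* Cfsg.isometryGroup (ZMod 2) (Cfsg.quadFormPlus n (ZMod 2)))) ∧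
    ((¬ ∃ A : Subgroup E, Cfsg.IsElementaryAbelian 2 A ∧ Nat.card ↥A = 2 ^ (n + 1)) → Nonempty (Cfsg.Out E ≃* Cfsg.isometryGroup (ZMod 2) (Cfsg.quadFormMinus (n - 1) (ZMod 2) 1 1))) := by
  constructor
  · intro hA
    obtain ⟨e⟩ := (Cfsg.Agent.S3763.result hE n hcard).2 (Ex n 0) (extra hn) (by rw [card_ex, hcard]) (fun k => by
      rw [rank_plus hE n hcard hA, rank_plus (extra hn) n card_ex (el_plus n)])
    obtain ⟨f⟩ := out_congr e
    obtain ⟨g⟩ := out_model hn (LP n) (LP_Q n)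
    exact ⟨f.trans g⟩
  · intro hA
    obtain ⟨m, rfl⟩ : ∃ m, n = m + 1 := ⟨n - 1, by omega⟩
    obtain ⟨e⟩ := (Cfsg.Agent.S3763.result hE (m + 1) hcard).2 (Ex (m + 1) 1) (extra hn) (by rw [card_ex, hcard]) (fun k => by
      rw [rank_minus hE (m + 1) hn hcard hA, rank_minus (extra hn) (m + 1) hn card_ex (fun ⟨A, h1, h2⟩ => minus_no m A h1 h2)])
    obtain ⟨f⟩ := out_congr e
    obtain ⟨g⟩ := out_model hn (LM m) (LM_Q m)
    exact ⟨f.trans g⟩

end Cfsg.Agent.H1.OutX
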