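import Cfsg.Prelude.Def_Sporadic_a

set_option autoImplicit false

/-! The projective plane of order four. -/

namespace Cfsg.Agent.H1.PG24
open Cfsg Finset

variable {α : Type*} [Fintype α] [DecidableEq α] {L : Set (Finset α)}

structure Pl (L : Set (Finset α)) : Prop where
  card : Fintype.card α = 21
  st : IsSteinerSystem 2 5 L

open Classical in
noncomputable def LF (L : Set (Finset α)) : Finset (Finset α) := Finset.univ.filter fun l => l ∈ L

theorem mem_LF {l : Finset α} : l ∈ LF L ↔ l ∈ L := by classical simp [LF]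

section
variable (h : Pl L)
include h

theorem join {p q : α} (hpq : p ≠ q) : ∃ l ∈ L, p ∈ l ∧ q ∈ l := by
  obtain ⟨l, ⟨hl, hs⟩, -⟩ := h.st.2 {p, q} (Finset.card_pair hpq)
  exact ⟨l, hl, hs (by simp), hs (by simp)⟩

theorem uniq {l m : Finset α} (hl : l ∈ L) (hm : m ∈ L) {p q : α} (hpq : p ≠ q) (h1 : p ∈ l) (h2 : q ∈ l)
    (h3 : p ∈ m) (h4 : q ∈ m) : l = m := by
  obtain ⟨k, -, hk⟩ := h.st.2 {p, q} (Finset.card_pair hpq)
  rw [hk l ⟨hl, by intro x hx; simp at hx; rcases hx with rfl | rfl <;> assumption⟩,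
    hk m ⟨hm, by intro x hx; simp at hx; rcases hx with rfl | rfl <;> assumption⟩]

theorem card5 {l : Finset α} (hl : l ∈ L) : l.card = 5 := h.st.1 l hl

theorem lines_through (p : α) : ((LF L).filter (fun l => p ∈ l)).card = 5 := by
  classical
  have := Finset.card_mul_eq_card_mul (s := (LF L).filter (fun l => p ∈ l)) (t := Finset.univ.erase p)
    (fun l q => q ∈ l) (m := 4) (n := 1) ?_ ?_
  · rw [Finset.card_erase_of_mem (Finset.mem_univ _), Finset.card_univ, h.card] at this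
    omega
  · intro l hl
    rw [Finset.mem_filter, mem_LF] at hl
    have e : Finset.bipartiteAbove (fun (l : Finset α) q => q ∈ l) (Finset.univ.erase p) l = l.erase p := by
      ext q
      simp only [Finset.mem_bipartiteAbove, Finset.mem_erase, Finset.mem_univ, and_true]
    rw [e, Finset.card_erase_of_mem hl.2, card5 h hl.1]
  · intro q hq
    rw [Finset.mem_erase] at hq
    obtain ⟨l, hl, hp, hq'⟩ := join h hq.1.symm
    rw [Finset.card_eq_one]
    refine ⟨l, ?_⟩
    ext m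
    simp only [Finset.mem_bipartiteBelow, Finset.mem_filter, mem_LF, Finset.mem_singleton]
    constructor
    · rintro ⟨⟨hm, hpm⟩, hqm⟩
      exact uniq h hm hl hq.1.symm hpm hqm hp hq'
    · rintro rfl
      exact ⟨⟨hl, hp⟩, hq'⟩

theorem nlines : (LF L).card = 21 := by
  classical
  have := Finset.card_mul_eq_card_mul (s := LF L) (t := (Finset.univ : Finset α))
    (fun l q => q ∈ l) (m := 5) (n := 5) ?_ ?_
  · rw [Finset.card_univ, h.card] at this
    omega
  · intro l hl
    rw [mem_LF] at hl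
    have e : Finset.bipartiteAbove (fun (l : Finset α) q => q ∈ l) Finset.univ l = l := by
      ext q
      simp only [Finset.mem_bipartiteAbove, Finset.mem_univ, true_and]
    rw [e, card5 h hl]
  · intro q _
    exact lines_through h q

/-- two lines meet -/
theorem meet {l m : Finset α} (hl : l ∈ L) (hm : m ∈ L) : ∃ p, p ∈ l ∧ p ∈ m := by
  classical
  by_contra hne
  push Not at hne
  obtain ⟨p, hp⟩ : m.Nonempty := by
    rw [← Finset.card_pos, card5 h hm]; norm_num
  have hpl : p ∉ l := fun h' => hne p h' hp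
  have hj : ∀ q, ∃ k, q ∈ l → k ∈ L ∧ p ∈ k ∧ q ∈ k := by
    intro q
    by_cases hq : q ∈ l
    · obtain ⟨k, hk, h1, h2⟩ := join h (p := p) (q := q) (by rintro rfl; exact hpl hq)
      exact ⟨k, fun _ => ⟨hk, h1, h2⟩⟩
    · exact ⟨∅, fun h' => absurd h' hq⟩
  choose k hk using hj
  obtain ⟨x, hx, y, hy, hxy, hkxy⟩ := Finset.exists_ne_map_eq_of_card_lt_of_maps_to
    (s := l) (t := ((LF L).filter (fun l => p ∈ l)).erase m) (f := k) (by
      rw [Finset.card_erase_of_mem (by rw [Finset.mem_filter, mem_LF]; exact ⟨hm, hp⟩), lines_through h,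
        card5 h hl]; norm_num) (by
      intro q hq
      have hq' : q ∈ l := hq
      obtain ⟨h1, h2, h3⟩ := hk q hq'
      show k q ∈ _
      rw [Finset.mem_coe, Finset.mem_erase, Finset.mem_filter, mem_LF]
      refine ⟨?_, h1, h2⟩
      rintro e
      rw [e] at h3
      exact hne q hq' h3)
  obtain ⟨h1, h2, h3⟩ := hk x hx
  obtain ⟨h4, h5, h6⟩ := hk y hy
  rw [← hkxy] at h6
  have : k x = l := uniq h h1 hl hxy h3 h6 hx hy
  rw [this] at h2
  exact hpl h2

end

/-! ### labelled hyperovals -/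

structure HO (L : Set (Finset α)) (f : Fin 6 → α) : Prop where
  inj : Function.Injective f
  two : ∀ l ∈ L, ∀ i j k, f i ∈ l → f j ∈ l → f k ∈ l → i = j ∨ i = k ∨ j = k

section
variable (h : Pl L) {f : Fin 6 → α} (hf : HO L f)
include h hf

/-- every line through a point of the hyperoval is a secant -/
theorem second {l : Finset α} (hl : l ∈ L) {i : Fin 6} (hi : f i ∈ l) : ∃ j, j ≠ i ∧ f j ∈ l := by
  classical
  by_contra hne
  push Not at hne
  have hj : ∀ j, ∃ k, j ≠ i → k ∈ L ∧ f i ∈ k ∧ f j ∈ k := by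
    intro j
    by_cases hji : j = i
    · exact ⟨∅, fun h' => absurd hji h'⟩
    · obtain ⟨k, hk, h1, h2⟩ := join h (p := f i) (q := f j) (fun e => hji (hf.inj e).symm)
      exact ⟨k, fun _ => ⟨hk, h1, h2⟩⟩
  choose k hk using hj
  obtain ⟨x, hx, y, hy, hxy, hkxy⟩ := Finset.exists_ne_map_eq_of_card_lt_of_maps_to
    (s := Finset.univ.erase i) (t := ((LF L).filter (fun l => f i ∈ l)).erase l) (f := k) (by
      rw [Finset.card_erase_of_mem (by rw [Finset.mem_filter, mem_LF]; exact ⟨hl, hi⟩), lines_through h,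
        Finset.card_erase_of_mem (Finset.mem_univ _), Finset.card_univ, Fintype.card_fin]; norm_num) (by
      intro q hq
      have hq' : q ≠ i := (Finset.mem_erase.1 hq).1
      obtain ⟨h1, h2, h3⟩ := hk q hq'
      show k q ∈ _
      rw [Finset.mem_coe, Finset.mem_erase, Finset.mem_filter, mem_LF]
      refine ⟨?_, h1, h2⟩
      rintro e
      rw [e] at h3
      exact hne q hq' h3)
  have hx' := (Finset.mem_erase.1 hx).1
  have hy' := (Finset.mem_erase.1 hy).1
  obtain ⟨h1, h2, h3⟩ := hk x hx'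
  obtain ⟨h4, h5, h6⟩ := hk y hy'
  rw [← hkxy] at h6
  rcases hf.two _ h1 i x y h2 h3 h6 with e | e | e
  · exact hx' e.symm
  · exact hy' e.symm
  · exact hxy e

/-- collinearity of `p`, `f i`, `f j` -/
def Col (L : Set (Finset α)) (f : Fin 6 → α) (p : α) (i j : Fin 6) : Prop := ∃ l ∈ L, p ∈ l ∧ f i ∈ l ∧ f j ∈ l

omit [Fintype α] [DecidableEq α] h hf in
theorem Col.symm {p : α} {i j : Fin 6} (hc : Col L f p i j) : Col L f p j i := by
  obtain ⟨l, h1, h2, h3, h4⟩ := hc
  exact ⟨l, h1, h2, h4, h3⟩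

theorem col_exists {p : α} (hp : ∀ i, f i ≠ p) (i : Fin 6) : ∃ j, j ≠ i ∧ Col L f p i j := by
  obtain ⟨l, hl, h1, h2⟩ := join h (hp i)
  obtain ⟨j, hj, h3⟩ := second h hf hl h1
  exact ⟨j, hj, l, hl, h2, h1, h3⟩

theorem col_unique {p : α} (hp : ∀ i, f i ≠ p) {i j k : Fin 6} (hj : j ≠ i) (hk : k ≠ i)
    (h1 : Col L f p i j) (h2 : Col L f p i k) : j = k := by
  obtain ⟨l, hl, a1, a2, a3⟩ := h1
  obtain ⟨m, hm, b1, b2, b3⟩ := h2
  have e : l = m := uniq h hl hm (hp i) a2 a1 b2 b1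
  subst e
  rcases hf.two l hl i j k a2 a3 b3 with e | e | e
  · exact absurd e.symm hj
  · exact absurd e.symm hk
  · exact e

end

/-- synthemes -/
abbrev Syn : Type := {τ : Equiv.Perm (Fin 6) // (∀ i, τ (τ i) = i) ∧ ∀ i, τ i ≠ i}

set_option maxRecDepth 100000 in
theorem card_Syn : Fintype.card Syn = 15 := by decide +kernel

section
variable (h : Pl L) {f : Fin 6 → α} (hf : HO L f)

/-- the syntheme of a point off the hyperoval -/
noncomputable def tau (p : {p : α // ∀ i, f i ≠ p}) : Syn :=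
  let t : Fin 6 → Fin 6 := fun i => (col_exists h hf p.2 i).choose
  have ht1 : ∀ i, t i ≠ i := fun i => (col_exists h hf p.2 i).choose_spec.1
  have ht2 : ∀ i, Col L f p i (t i) := fun i => (col_exists h hf p.2 i).choose_spec.2
  have ht3 : Function.Involutive t := fun i =>
    col_unique h hf p.2 (ht1 (t i)) (ht1 i).symm (ht2 (t i)) (ht2 i).symm
  ⟨ht3.toPerm, fun i => ht3 i, ht1⟩

theorem tau_ne (p : {p : α // ∀ i, f i ≠ p}) (i : Fin 6) : (tau h hf p).1 i ≠ i := (tau h hf p).2.2 i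

theorem tau_col (p : {p : α // ∀ i, f i ≠ p}) (i : Fin 6) : Col L f p i ((tau h hf p).1 i) :=
  (col_exists h hf p.2 i).choose_spec.2

theorem tau_iff (p : {p : α // ∀ i, f i ≠ p}) {i j : Fin 6} : (tau h hf p).1 i = j ↔ j ≠ i ∧ Col L f p i j := by
  constructor
  · rintro rfl
    exact ⟨tau_ne h hf p i, tau_col h hf p i⟩
  · rintro ⟨h1, h2⟩
    exact col_unique h hf p.2 (tau_ne h hf p i) h1 (tau_col h hf p i) h2

theorem tau_inj : Function.Injective (tau h hf) := by
  intro p q hpq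
  by_contra hne
  have hne' : (p : α) ≠ q := fun e => hne (Subtype.ext e)
  have key : ∀ i, ∃ l ∈ L, (p : α) ∈ l ∧ (q : α) ∈ l ∧ f i ∈ l := by
    intro i
    obtain ⟨l, hl, a1, a2, a3⟩ := tau_col h hf p i
    obtain ⟨m, hm, b1, b2, b3⟩ := tau_col h hf q i
    rw [← hpq] at b3
    have e : l = m := uniq h hl hm (fun e => tau_ne h hf p i (hf.inj e).symm) a2 a3 b2 b3
    subst e
    exact ⟨l, hl, a1, b1, a2⟩
  obtain ⟨l, hl, a1, a2, a3⟩ := key 0
  have hall : ∀ i, f i ∈ l := by
    intro i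
    obtain ⟨m, hm, b1, b2, b3⟩ := key i
    have e : l = m := uniq h hl hm hne' a1 a2 b1 b2
    rw [e]; exact b3
  rcases hf.two l hl 0 1 2 (hall 0) (hall 1) (hall 2) with e | e | e <;> revert e <;> decide

include h hf in
theorem card_off : Fintype.card {p : α // ∀ i, f i ≠ p} = 15 := by
  classical
  have h1 : Fintype.card {p : α // ∀ i, f i ≠ p} = ((Finset.univ.image f)ᶜ).card := by
    rw [Fintype.card_subtype]
    congr 1
    ext p
    simp
  rw [h1, Finset.card_compl, h.card, Finset.card_image_of_injective _ hf.inj, Finset.card_univ, Fintype.card_fin]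

theorem tau_bij : Function.Bijective (tau h hf) := by
  rw [Fintype.bijective_iff_injective_and_card]
  exact ⟨tau_inj h hf, by rw [card_off h hf, card_Syn]⟩

/-- coordinates -/
noncomputable def crd (x : α) : Fin 6 ⊕ Syn := by
  classical
  exact if hx : ∃ i, f i = x then Sum.inl hx.choose else Sum.inr (tau h hf ⟨x, fun i hi => hx ⟨i, hi⟩⟩)

theorem crd_on (i : Fin 6) : crd h hf (f i) = Sum.inl i := by
  classical
  have hx : ∃ j, f j = f i := ⟨i, rfl⟩
  unfold crd
  rw [dif_pos hx]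
  congr 1
  exact hf.inj hx.choose_spec

theorem crd_off {x : α} (hx : ∀ i, f i ≠ x) : crd h hf x = Sum.inr (tau h hf ⟨x, hx⟩) := by
  classical
  have hx' : ¬ ∃ i, f i = x := fun ⟨i, hi⟩ => hx i hi
  unfold crd
  rw [dif_neg hx']

theorem crd_bij : Function.Bijective (crd h hf) := by
  constructor
  · intro x y hxy
    by_cases hx : ∃ i, f i = x
    · obtain ⟨i, rfl⟩ := hx
      rw [crd_on] at hxy
      by_cases hy : ∃ j, f j = y
      · obtain ⟨j, rfl⟩ := hy
        rw [crd_on] at hxy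
        rw [Sum.inl.inj hxy]
      · rw [crd_off h hf (fun i hi => hy ⟨i, hi⟩)] at hxy
        cases hxy
    · have hx' : ∀ i, f i ≠ x := fun i hi => hx ⟨i, hi⟩
      rw [crd_off h hf hx'] at hxy
      by_cases hy : ∃ j, f j = y
      · obtain ⟨j, rfl⟩ := hy
        rw [crd_on] at hxy
        cases hxy
      · rw [crd_off h hf (fun i hi => hy ⟨i, hi⟩)] at hxy
        exact congrArg Subtype.val (tau_inj h hf (Sum.inr.inj hxy))
  · rintro (i | τ)
    · exact ⟨f i, crd_on h hf i⟩
    · obtain ⟨p, rfl⟩ := (tau_bij h hf).2 τ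
      exact ⟨p, crd_off h hf p.2⟩

noncomputable def E : α ≃ Fin 6 ⊕ Syn := Equiv.ofBijective _ (crd_bij h hf)

theorem E_on (i : Fin 6) : E h hf (f i) = Sum.inl i := crd_on h hf i
theorem E_off {x : α} (hx : ∀ i, f i ≠ x) : E h hf x = Sum.inr (tau h hf ⟨x, hx⟩) := crd_off h hf hx

/-- the model secants -/
def sec (i j : Fin 6) : Finset (Fin 6 ⊕ Syn) :=
  Finset.univ.filter fun x => x = Sum.inl i ∨ x = Sum.inl j ∨ ∃ τ : Syn, x = Sum.inr τ ∧ τ.1 i = j

/-- the model plane -/
def Mod : Set (Finset (Fin 6 ⊕ Syn)) :=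
  {s | (∃ i j, i ≠ j ∧ s = sec i j) ∨ (s.card = 5 ∧ (∀ i, Sum.inl i ∉ s) ∧
    ∀ τ τ' : Syn, Sum.inr τ ∈ s → Sum.inr τ' ∈ s → τ ≠ τ' → ∀ i, τ.1 i ≠ τ'.1 i)}

theorem mem_sec_iff {l : Finset α} (hl : l ∈ L) {i j : Fin 6} (hij : i ≠ j) (hi : f i ∈ l) (hj : f j ∈ l) :
    l.image (E h hf) = sec i j := by
  ext y
  obtain ⟨x, rfl⟩ := (E h hf).surjective y
  rw [Finset.mem_image]
  have h0 : (∃ a ∈ l, E h hf a = E h hf x) ↔ x ∈ l := by
    constructor
    · rintro ⟨a, ha, e⟩
      rwa [← (E h hf).injective e]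
    · intro hx; exact ⟨x, hx, rfl⟩
  rw [h0]
  unfold sec
  rw [Finset.mem_filter]
  simp only [Finset.mem_univ, true_and]
  by_cases hx : ∃ k, f k = x
  · obtain ⟨k, rfl⟩ := hx
    rw [E_on]
    constructor
    · intro hk
      rcases hf.two l hl i j k hi hj hk with e | e | e
      · exact absurd e hij
      · left; rw [e]
      · right; left; rw [e]
    · rintro (e | e | ⟨τ, e, -⟩)
      · rw [Sum.inl.inj e]; exact hi
      · rw [Sum.inl.inj e]; exact hj
      · cases e
  · have hx' : ∀ i, f i ≠ x := fun i hi => hx ⟨i, hi⟩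
    rw [E_off h hf hx']
    constructor
    · intro hxl
      right; right
      exact ⟨_, rfl, (tau_iff h hf ⟨x, hx'⟩).2 ⟨hij.symm, l, hl, hxl, hi, hj⟩⟩
    · rintro (e | e | ⟨τ, e, hτ⟩)
      · cases e
      · cases e
      · rw [← Sum.inr.inj e] at hτ
        obtain ⟨-, m, hm, a1, a2, a3⟩ := (tau_iff h hf ⟨x, hx'⟩).1 hτ
        have : l = m := uniq h hl hm (fun e => hij (hf.inj e)) hi hj a2 a3
        rw [this]; exact a1

include h hf in
theorem secants_through {p : α} (hp : ∀ i, f i ≠ p) :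
    ((LF L).filter (fun l => p ∈ l ∧ ∀ i, f i ∉ l)).card = 2 := by
  classical
  have h5 := lines_through h p
  have h3 : ((LF L).filter (fun l => p ∈ l ∧ ∃ i, f i ∈ l)).card = 3 := by
    have := Finset.card_mul_eq_card_mul (s := (LF L).filter (fun l => p ∈ l ∧ ∃ i, f i ∈ l))
      (t := (Finset.univ : Finset (Fin 6))) (fun l i => f i ∈ l) (m := 2) (n := 1) ?_ ?_
    · rw [Finset.card_univ, Fintype.card_fin] at this
      omega
    · intro l hl
      rw [Finset.mem_filter, mem_LF] at hl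
      obtain ⟨hl, hp, i, hi⟩ := hl
      obtain ⟨j, hj, hjl⟩ := second h hf hl hi
      rw [Finset.card_eq_two]
      refine ⟨i, j, hj.symm, ?_⟩
      ext k
      simp only [Finset.mem_bipartiteAbove, Finset.mem_univ, true_and, Finset.mem_insert, Finset.mem_singleton]
      constructor
      · intro hk
        rcases hf.two l hl i j k hi hjl hk with e | e | e
        · exact absurd e.symm hj
        · left; exact e.symm
        · right; exact e.symm
      · rintro (rfl | rfl) <;> assumption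
    · intro i _
      obtain ⟨l, hl, h1, h2⟩ := join h (hp i)
      rw [Finset.card_eq_one]
      refine ⟨l, ?_⟩
      ext m
      simp only [Finset.mem_bipartiteBelow, Finset.mem_filter, mem_LF, Finset.mem_singleton]
      constructor
      · rintro ⟨⟨hm, hpm, -⟩, him⟩
        exact uniq h hm hl (hp i) him hpm h1 h2
      · rintro rfl
        exact ⟨⟨hl, h2, i, h1⟩, h1⟩
  have hsplit : (LF L).filter (fun l => p ∈ l) = (LF L).filter (fun l => p ∈ l ∧ ∃ i, f i ∈ l) ∪
      (LF L).filter (fun l => p ∈ l ∧ ∀ i, f i ∉ l) := by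
    ext l
    simp only [Finset.mem_filter, Finset.mem_union]
    constructor
    · rintro ⟨h1, h2⟩
      by_cases h3 : ∃ i, f i ∈ l
      · exact Or.inl ⟨h1, h2, h3⟩
      · exact Or.inr ⟨h1, h2, fun i hi => h3 ⟨i, hi⟩⟩
    · rintro (⟨h1, h2, -⟩ | ⟨h1, h2, -⟩) <;> exact ⟨h1, h2⟩
  have hdis : Disjoint ((LF L).filter (fun l => p ∈ l ∧ ∃ i, f i ∈ l))
      ((LF L).filter (fun l => p ∈ l ∧ ∀ i, f i ∉ l)) := by
    rw [Finset.disjoint_left]
    intro l h1 h2
    rw [Finset.mem_filter] at h1 h2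
    obtain ⟨-, -, i, hi⟩ := h1
    exact h2.2.2 i hi
  rw [hsplit, Finset.card_union_of_disjoint hdis, h3] at h5
  omega

include h hf in
/-- among the external lines through `p`, at most two -/
theorem ext_third {p : α} (hp : ∀ i, f i ≠ p) {a b c : Finset α} (ha : a ∈ L) (hb : b ∈ L) (hc : c ∈ L)
    (hap : p ∈ a) (hbp : p ∈ b) (hcp : p ∈ c) (hae : ∀ i, f i ∉ a) (hbe : ∀ i, f i ∉ b) (hce : ∀ i, f i ∉ c)
    (hab : a ≠ b) : c = a ∨ c = b := by
  classical
  by_contra hne
  push Not at hne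
  have h2 := secants_through h hf hp
  have h3 : ({a, b, c} : Finset (Finset α)) ⊆ (LF L).filter (fun l => p ∈ l ∧ ∀ i, f i ∉ l) := by
    intro l hl
    simp only [Finset.mem_insert, Finset.mem_singleton] at hl
    rw [Finset.mem_filter, mem_LF]
    rcases hl with rfl | rfl | rfl
    · exact ⟨ha, hap, hae⟩
    · exact ⟨hb, hbp, hbe⟩
    · exact ⟨hc, hcp, hce⟩
  have h4 := Finset.card_le_card h3
  rw [h2, Finset.card_eq_three.2 ⟨a, b, c, hab, hne.1.symm, hne.2.symm, rfl⟩] at h4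
  omega

include h hf in
/-- five points pairwise joined by external lines are an external line -/
theorem star {P : Finset α} (hP : P.card = 5) (hoff : ∀ p ∈ P, ∀ i, f i ≠ p)
    (hext : ∀ p ∈ P, ∀ q ∈ P, p ≠ q → ∃ l ∈ L, p ∈ l ∧ q ∈ l ∧ ∀ i, f i ∉ l) : P ∈ L := by
  classical
  -- it is enough that P is contained in a line
  have hfin : ∀ l ∈ L, P ⊆ l → P ∈ L := by
    intro l hl hle
    have : P = l := Finset.eq_of_subset_of_card_le hle (by rw [card5 h hl, hP])
    rw [this]; exact hl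
  obtain ⟨p, hp⟩ : P.Nonempty := by rw [← Finset.card_pos, hP]; norm_num
  obtain ⟨q, hq⟩ : (P.erase p).Nonempty := by
    rw [← Finset.card_pos, Finset.card_erase_of_mem hp, hP]; norm_num
  rw [Finset.mem_erase] at hq
  obtain ⟨m1, hm1, hp1, hq1, he1⟩ := hext p hp q hq.2 hq.1.symm
  by_cases hall : P ⊆ m1
  · exact hfin m1 hm1 hall
  obtain ⟨r, hr, hr1⟩ := Finset.not_subset.1 hall
  have hrp : r ≠ p := by rintro rfl; exact hr1 hp1
  have hrq : r ≠ q := by rintro rfl; exact hr1 hq1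
  obtain ⟨m2, hm2, hp2, hr2, he2⟩ := hext p hp r hr hrp.symm
  have h12 : m1 ≠ m2 := by rintro rfl; exact hr1 hr2
  have hq2 : q ∉ m2 := by
    intro hq2
    exact h12 (uniq h hm1 hm2 hq.1 hq1 hp1 hq2 hp2)
  obtain ⟨m3, hm3, hq3, hr3, he3⟩ := hext q hq.2 r hr hrq.symm
  have h13 : m1 ≠ m3 := by rintro rfl; exact hr1 hr3
  have h23 : m2 ≠ m3 := by rintro rfl; exact hq2 hq3
  -- a further point
  obtain ⟨s, hs⟩ : (((P.erase p).erase q).erase r).Nonempty := by
    rw [← Finset.card_pos, Finset.card_erase_of_mem, Finset.card_erase_of_mem, Finset.card_erase_of_mem hp, hP]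
    · norm_num
    · exact Finset.mem_erase.2 hq
    · exact Finset.mem_erase.2 ⟨hrq, Finset.mem_erase.2 ⟨hrp, hr⟩⟩
  simp only [Finset.mem_erase] at hs
  obtain ⟨hsr, hsq, hsp, hs⟩ := hs
  exfalso
  obtain ⟨m, hm, hpm, hsm, hem⟩ := hext p hp s hs hsp.symm
  rcases ext_third h hf (hoff p hp) hm1 hm2 hm hp1 hp2 hpm he1 he2 hem h12 with e | e
  · -- s ∈ m1
    rw [e] at hsm
    obtain ⟨n, hn, hrn, hsn, hen⟩ := hext r hr s hs hsr.symm
    rcases ext_third h hf (hoff r hr) hm2 hm3 hn hr2 hr3 hrn he2 he3 hen h23 with e' | e'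
    · rw [e'] at hsn
      exact h12 (uniq h hm1 hm2 hsp hsm hp1 hsn hp2)
    · rw [e'] at hsn
      exact h13 (uniq h hm1 hm3 hsq hsm hq1 hsn hq3)
  · rw [e] at hsm
    obtain ⟨n, hn, hqn, hsn, hen⟩ := hext q hq.2 s hs hsq.symm
    rcases ext_third h hf (hoff q hq.2) hm1 hm3 hn hq1 hq3 hqn he1 he3 hen h13 with e' | e'
    · rw [e'] at hsn
      exact h12 (uniq h hm1 hm2 hsp hsn hp1 hsm hp2)
    · rw [e'] at hsn
      exact h23 (uniq h hm2 hm3 hsr hsm hr2 hsn hr3)

theorem image_mem_Mod (l : Finset α) : l.image (E h hf) ∈ Mod ↔ l ∈ L := by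
  classical
  have hmem : ∀ x, E h hf x ∈ l.image (E h hf) ↔ x ∈ l := by
    intro x
    rw [Finset.mem_image]
    constructor
    · rintro ⟨a, ha, e⟩
      rwa [← (E h hf).injective e]
    · intro hx; exact ⟨x, hx, rfl⟩
  constructor
  · rintro (⟨i, j, hij, hs⟩ | ⟨h5, h6, h7⟩)
    · obtain ⟨m, hm, h1, h2⟩ := join h (p := f i) (q := f j) (fun e => hij (hf.inj e))
      rw [← mem_sec_iff h hf hm hij h1 h2] at hs
      have : l = m := Finset.image_injective (E h hf).injective hs
      rw [this]; exact hm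
    · rw [Finset.card_image_of_injective _ (E h hf).injective] at h5
      have hoff : ∀ p ∈ l, ∀ i, f i ≠ p := by
        rintro p hp i rfl
        apply h6 i
        rw [← E_on h hf i]
        exact (hmem _).2 hp
      apply star h hf h5 hoff
      intro p hp q hq hpq
      obtain ⟨m, hm, h1, h2⟩ := join h hpq
      refine ⟨m, hm, h1, h2, fun i hi => ?_⟩
      obtain ⟨j, hj, hjm⟩ := second h hf hm hi
      have hτ := h7 (tau h hf ⟨p, hoff p hp⟩) (tau h hf ⟨q, hoff q hq⟩)
        (by rw [← E_off]; exact (hmem _).2 hp) (by rw [← E_off]; exact (hmem _).2 hq)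
        (fun e => hpq (congrArg Subtype.val (tau_inj h hf e))) i
      apply hτ
      rw [(tau_iff h hf ⟨p, hoff p hp⟩).2 ⟨hj, m, hm, h1, hi, hjm⟩,
        (tau_iff h hf ⟨q, hoff q hq⟩).2 ⟨hj, m, hm, h2, hi, hjm⟩]
  · intro hl
    by_cases hc : ∃ i, f i ∈ l
    · obtain ⟨i, hi⟩ := hc
      obtain ⟨j, hj, hjl⟩ := second h hf hl hi
      exact Or.inl ⟨i, j, hj.symm, mem_sec_iff h hf hl hj.symm hi hjl⟩
    · push Not at hc
      right
      refine ⟨by rw [Finset.card_image_of_injective _ (E h hf).injective, card5 h hl], ?_, ?_⟩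
      · intro i hi
        rw [← E_on h hf i, hmem] at hi
        exact hc i hi
      · intro τ τ' h1 h2 hne i he
        obtain ⟨p, rfl⟩ := (tau_bij h hf).2 τ
        obtain ⟨q, rfl⟩ := (tau_bij h hf).2 τ'
        rw [← E_off h hf p.2, hmem] at h1
        rw [← E_off h hf q.2, hmem] at h2
        have hpq : (p : α) ≠ q := fun e => hne (congrArg _ (Subtype.ext e))
        obtain ⟨m, hm, a1, a2, a3⟩ := tau_col h hf p i
        obtain ⟨n, hn, b1, b2, b3⟩ := tau_col h hf q i
        rw [← he] at b3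
        have e1 : m = n := uniq h hm hn (fun e => tau_ne h hf p i (hf.inj e).symm) a2 a3 b2 b3
        rw [← e1] at b1
        have e2 : l = m := uniq h hl hm hpq h1 h2 a1 b1
        apply hc i
        rw [e2]; exact a2

end

/-! ### consequences -/

theorem iso_of_labels {β : Type*} [Fintype β] [DecidableEq β] {L' : Set (Finset β)} (h : Pl L) (h' : Pl L')
    {f : Fin 6 → α} {f' : Fin 6 → β} (hf : HO L f) (hf' : HO L' f') :
    ∃ e : α ≃ β, (∀ l, l.image e ∈ L' ↔ l ∈ L) ∧ ∀ i, e (f i) = f' i := by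
  refine ⟨(E h hf).trans (E h' hf').symm, fun l => ?_, fun i => ?_⟩
  · rw [← image_mem_Mod h hf l, ← image_mem_Mod h' hf' (l.image _), Finset.image_image]
    have : (⇑(E h' hf') ∘ ⇑((E h hf).trans (E h' hf').symm)) = ⇑(E h hf) := by
      funext x; simp
    rw [this]
  · rw [Equiv.trans_apply, E_on, ← E_on h' hf' i, Equiv.symm_apply_apply]

theorem iso_unique {β : Type*} [Fintype β] [DecidableEq β] {L' : Set (Finset β)} (h : Pl L) (h' : Pl L')
    {f : Fin 6 → α} {f' : Fin 6 → β} (hf : HO L f) (hf' : HO L' f') (e : α ≃ β)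
    (he : ∀ l, l ∈ L → l.image e ∈ L') (hef : ∀ i, e (f i) = f' i) (x : α) :
    E h' hf' (e x) = E h hf x := by
  by_cases hx : ∃ i, f i = x
  · obtain ⟨i, rfl⟩ := hx
    rw [hef, E_on, E_on]
  · have hx' : ∀ i, f i ≠ x := fun i hi => hx ⟨i, hi⟩
    have hx'' : ∀ i, f' i ≠ e x := by
      intro i hi
      rw [← hef] at hi
      exact hx' i (e.injective hi)
    rw [E_off h hf hx', E_off h' hf' hx'']
    congr 1
    apply Subtype.ext
    apply Equiv.ext
    intro i
    rw [tau_iff]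
    refine ⟨tau_ne h hf ⟨x, hx'⟩ i, ?_⟩
    obtain ⟨l, hl, a1, a2, a3⟩ := tau_col h hf ⟨x, hx'⟩ i
    refine ⟨l.image e, he l hl, Finset.mem_image_of_mem _ a1, ?_, ?_⟩
    · rw [← hef]; exact Finset.mem_image_of_mem _ a2
    · rw [← hef]; exact Finset.mem_image_of_mem _ a3

end Cfsg.Agent.H1.PG24
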