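import Cfsg.Agent.H1.PG24

set_option autoImplicit false

/-! The projective plane of order four: counting quadrangles and hyperovals. -/

namespace Cfsg.Agent.H1.PG24
open Cfsg Finset
open scoped Pointwise

variable {α : Type*} [Fintype α] [DecidableEq α] {L : Set (Finset α)}

/-- independent sets -/
def Ind (L : Set (Finset α)) (S : Finset α) : Prop := ∀ l ∈ L, (l ∩ S).card ≤ 2

open Classical in
/-- points on no line joining two points of `S` -/
noncomputable def FF (L : Set (Finset α)) (S : Finset α) : Finset α :=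
  Finset.univ.filter fun p => ∀ m ∈ L, p ∈ m → (m ∩ S).card ≤ 1

theorem mem_FF {S : Finset α} {p : α} : p ∈ FF L S ↔ ∀ m ∈ L, p ∈ m → (m ∩ S).card ≤ 1 := by
  classical
  simp [FF]

omit [Fintype α] in
theorem Ind.mono {S T : Finset α} (h : Ind L S) (hT : T ⊆ S) : Ind L T := fun l hl =>
  (Finset.card_le_card (Finset.inter_subset_inter_left hT)).trans (h l hl)

omit [Fintype α] in
theorem two_le_inter {S m : Finset α} {b c : α} (hbc : b ≠ c) (hb : b ∈ S) (hc : c ∈ S) (hbm : b ∈ m)
    (hcm : c ∈ m) : 2 ≤ (m ∩ S).card := by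
  have : ({b, c} : Finset α) ⊆ m ∩ S := by
    intro x hx
    simp only [Finset.mem_insert, Finset.mem_singleton] at hx
    rcases hx with rfl | rfl
    · exact Finset.mem_inter.2 ⟨hbm, hb⟩
    · exact Finset.mem_inter.2 ⟨hcm, hc⟩
  have h2 := Finset.card_le_card this
  rwa [Finset.card_pair hbc] at h2

omit [Fintype α] in
theorem three_le_inter {S m : Finset α} {a b c : α} (hab : a ≠ b) (hac : a ≠ c) (hbc : b ≠ c) (ha : a ∈ S)
    (hb : b ∈ S) (hc : c ∈ S) (ham : a ∈ m) (hbm : b ∈ m) (hcm : c ∈ m) : 3 ≤ (m ∩ S).card := by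
  have : ({a, b, c} : Finset α) ⊆ m ∩ S := by
    intro x hx
    simp only [Finset.mem_insert, Finset.mem_singleton] at hx
    rcases hx with rfl | rfl | rfl
    · exact Finset.mem_inter.2 ⟨ham, ha⟩
    · exact Finset.mem_inter.2 ⟨hbm, hb⟩
    · exact Finset.mem_inter.2 ⟨hcm, hc⟩
  have h2 := Finset.card_le_card this
  rwa [Finset.card_eq_three.2 ⟨a, b, c, hab, hac, hbc, rfl⟩] at h2

section
variable (h : Pl L) {S : Finset α} (hS : Ind L S)
include h hS

theorem tan_count {a : α} (ha : a ∈ S) :
    ((LF L).filter (fun l => a ∈ l ∧ (l ∩ S).card = 1)).card + (S.card - 1) = 5 := by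
  classical
  have h5 := lines_through h a
  have hsec : ((LF L).filter (fun l => a ∈ l ∧ (l ∩ S).card = 2)).card = S.card - 1 := by
    have := Finset.card_mul_eq_card_mul (s := (LF L).filter (fun l => a ∈ l ∧ (l ∩ S).card = 2))
      (t := S.erase a) (fun l b => b ∈ l) (m := 1) (n := 1) ?_ ?_
    · rw [Finset.card_erase_of_mem ha] at this
      omega
    · intro l hl
      rw [Finset.mem_filter, mem_LF] at hl
      obtain ⟨hl, hal, h2⟩ := hl
      have e : Finset.bipartiteAbove (fun (l : Finset α) b => b ∈ l) (S.erase a) l = (l ∩ S).erase a := by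
        ext q
        simp only [Finset.mem_bipartiteAbove, Finset.mem_erase, Finset.mem_inter]
        tauto
      rw [e, Finset.card_erase_of_mem (Finset.mem_inter.2 ⟨hal, ha⟩), h2]
    · intro b hb
      rw [Finset.mem_erase] at hb
      obtain ⟨l, hl, h1, h2⟩ := join h hb.1
      rw [Finset.card_eq_one]
      refine ⟨l, ?_⟩
      ext m
      simp only [Finset.mem_bipartiteBelow, Finset.mem_filter, mem_LF, Finset.mem_singleton]
      constructor
      · rintro ⟨⟨hm, ham, -⟩, hbm⟩
        exact uniq h hm hl hb.1 hbm ham h1 h2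
      · rintro rfl
        refine ⟨⟨hl, h2, ?_⟩, h1⟩
        exact le_antisymm (hS m hl) (two_le_inter hb.1 hb.2 ha h1 h2)
  have hsplit : (LF L).filter (fun l => a ∈ l) = (LF L).filter (fun l => a ∈ l ∧ (l ∩ S).card = 1) ∪
      (LF L).filter (fun l => a ∈ l ∧ (l ∩ S).card = 2) := by
    ext l
    simp only [Finset.mem_filter, Finset.mem_union, mem_LF]
    constructor
    · rintro ⟨h1, h2⟩
      have h3 := hS l h1
      have h4 : 1 ≤ (l ∩ S).card := Finset.card_pos.2 ⟨a, Finset.mem_inter.2 ⟨h2, ha⟩⟩
      rcases (show (l ∩ S).card = 1 ∨ (l ∩ S).card = 2 by omega) with h5 | h5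
      · exact Or.inl ⟨h1, h2, h5⟩
      · exact Or.inr ⟨h1, h2, h5⟩
    · rintro (⟨h1, h2, -⟩ | ⟨h1, h2, -⟩) <;> exact ⟨h1, h2⟩
  have hdis : Disjoint ((LF L).filter (fun l => a ∈ l ∧ (l ∩ S).card = 1))
      ((LF L).filter (fun l => a ∈ l ∧ (l ∩ S).card = 2)) := by
    rw [Finset.disjoint_left]
    intro l h1 h2
    rw [Finset.mem_filter] at h1 h2
    omega
  rw [hsplit, Finset.card_union_of_disjoint hdis, hsec] at h5
  exact h5

theorem not_mem_FF (h2 : 2 ≤ S.card) {a : α} (ha : a ∈ S) : a ∉ FF L S := by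
  rw [mem_FF]
  intro hall
  obtain ⟨b, hb⟩ : (S.erase a).Nonempty := by
    rw [← Finset.card_pos, Finset.card_erase_of_mem ha]; omega
  rw [Finset.mem_erase] at hb
  obtain ⟨m, hm, hbm, ham⟩ := join h hb.1
  have h2 := hall m hm ham
  have h3 := two_le_inter hb.1 hb.2 ha hbm ham
  omega

theorem on_tan (hcard2 : 2 ≤ S.card) (hcard : S.card ≤ 4) {a : α} (ha : a ∈ S) {l : Finset α} (hl : l ∈ L) (hal : a ∈ l)
    (h1 : (l ∩ S).card = 1) :
    ((FF L S).filter (fun p => p ∈ l)).card + (S.card - 1).choose 2 = 4 := by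
  classical
  have honly : ∀ b ∈ S, b ∈ l → b = a := by
    intro b hb hbl
    by_contra hne
    have := two_le_inter hne hb ha hbl hal
    omega
  have haF : a ∉ FF L S := not_mem_FF h hS hcard2 ha
  have key : ((l.erase a).filter (fun p => p ∉ FF L S)).card = (S.card - 1).choose 2 := by
    have := Finset.card_mul_eq_card_mul (s := (l.erase a).filter (fun p => p ∉ FF L S))
      (t := (S.erase a).powersetCard 2) (fun p D => ∃ m ∈ L, p ∈ m ∧ D ⊆ m) (m := 1) (n := 1) ?_ ?_
    · rw [Finset.card_powersetCard, Finset.card_erase_of_mem ha] at this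
      omega
    · intro p hp
      rw [Finset.mem_filter, Finset.mem_erase, mem_FF] at hp
      obtain ⟨⟨hpa, hpl⟩, hpF⟩ := hp
      push Not at hpF
      obtain ⟨m, hm, hpm, h2⟩ := hpF
      have hpS : p ∉ S := fun hpS => hpa (honly p hpS hpl)
      have ham : a ∉ m := by
        intro ham
        have : m = l := uniq h hm hl hpa hpm ham hpl hal
        rw [this] at h2
        omega
      have hm2 : (m ∩ S).card = 2 := le_antisymm (hS m hm) h2
      rw [Finset.card_eq_one]
      refine ⟨m ∩ S, ?_⟩
      ext D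
      simp only [Finset.mem_bipartiteAbove, Finset.mem_powersetCard, Finset.mem_singleton]
      constructor
      · rintro ⟨⟨hD1, hD2⟩, m', hm', hpm', hDm'⟩
        -- D and m ∩ S meet
        have hsub : (m ∩ S) ∪ D ⊆ S.erase a := by
          apply Finset.union_subset _ hD1
          intro x hx
          rw [Finset.mem_inter] at hx
          exact Finset.mem_erase.2 ⟨fun e => ham (e ▸ hx.1), hx.2⟩
        have hne : ((m ∩ S) ∩ D).Nonempty := by
          rw [← Finset.card_pos]
          have h3 := Finset.card_union_add_card_inter (m ∩ S) D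
          have h4 := Finset.card_le_card hsub
          rw [Finset.card_erase_of_mem ha] at h4
          omega
        obtain ⟨x, hx⟩ := hne
        rw [Finset.mem_inter, Finset.mem_inter] at hx
        have hxp : x ≠ p := fun e => hpS (e ▸ hx.1.2)
        have e : m = m' := uniq h hm hm' hxp hx.1.1 hpm (hDm' hx.2) hpm'
        subst e
        apply Finset.eq_of_subset_of_card_le
        · intro y hy
          exact Finset.mem_inter.2 ⟨hDm' hy, (Finset.mem_erase.1 (hD1 hy)).2⟩
        · rw [hm2, hD2]
      · rintro rfl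
        refine ⟨⟨?_, hm2⟩, m, hm, hpm, Finset.inter_subset_left⟩
        intro x hx
        rw [Finset.mem_inter] at hx
        exact Finset.mem_erase.2 ⟨fun e => ham (e ▸ hx.1), hx.2⟩
    · intro D hD
      rw [Finset.mem_powersetCard] at hD
      obtain ⟨b, c, hbc, rfl⟩ := Finset.card_eq_two.1 hD.2
      have hb : b ≠ a ∧ b ∈ S := Finset.mem_erase.1 (hD.1 (by simp))
      have hc : c ≠ a ∧ c ∈ S := Finset.mem_erase.1 (hD.1 (by simp))
      obtain ⟨m, hm, hbm, hcm⟩ := join h hbc
      have ham : a ∉ m := by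
        intro ham
        have := three_le_inter hb.1.symm hc.1.symm hbc ha hb.2 hc.2 ham hbm hcm
        have := hS m hm
        omega
      have hlm : l ≠ m := fun e => ham (e ▸ hal)
      obtain ⟨p, hpl, hpm⟩ := meet h hl hm
      rw [Finset.card_eq_one]
      refine ⟨p, ?_⟩
      ext q
      simp only [Finset.mem_bipartiteBelow, Finset.mem_filter, Finset.mem_erase, Finset.mem_singleton]
      constructor
      · rintro ⟨⟨⟨hqa, hql⟩, -⟩, m', hm', hqm', hDm'⟩
        have e : m = m' := uniq h hm hm' hbc hbm hcm (hDm' (by simp)) (hDm' (by simp))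
        subst e
        by_contra hqp
        exact hlm (uniq h hl hm hqp hql hpl hqm' hpm)
      · rintro rfl
        refine ⟨⟨⟨fun e => ham (e ▸ hpm), hpl⟩, ?_⟩, m, hm, hpm, ?_⟩
        · rw [mem_FF]
          intro hall
          have h2 := hall m hm hpm
          have h3 := two_le_inter hbc hb.2 hc.2 hbm hcm
          omega
        · intro x hx
          simp only [Finset.mem_insert, Finset.mem_singleton] at hx
          rcases hx with rfl | rfl <;> assumption
  have h2 : (l.erase a).filter (fun p => ¬ p ∉ FF L S) = (FF L S).filter (fun p => p ∈ l) := by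
    ext p
    simp only [Finset.mem_filter, Finset.mem_erase, not_not]
    constructor
    · rintro ⟨⟨-, h2⟩, h3⟩; exact ⟨h3, h2⟩
    · rintro ⟨h2, h3⟩
      exact ⟨⟨fun e => haF (e ▸ h2), h3⟩, h2⟩
  have h3 := Finset.card_filter_add_card_filter_not (s := l.erase a) (fun p => p ∉ FF L S)
  rw [h2, key, Finset.card_erase_of_mem hal, card5 h hl] at h3
  omega

theorem card_FF (hcard2 : 3 ≤ S.card) (hcard : S.card ≤ 4) :
    (6 - S.card) * (4 - (S.card - 1).choose 2) = (FF L S).card := by
  classical
  obtain ⟨a, ha⟩ : S.Nonempty := by rw [← Finset.card_pos]; omega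
  have htan := tan_count h hS ha
  have := Finset.card_mul_eq_card_mul (s := (LF L).filter (fun l => a ∈ l ∧ (l ∩ S).card = 1))
    (t := FF L S) (fun l p => p ∈ l) (m := 4 - (S.card - 1).choose 2) (n := 1) ?_ ?_
  · rw [mul_one] at this
    rw [← this]
    congr 1
    omega
  · intro l hl
    rw [Finset.mem_filter, mem_LF] at hl
    have h2 := on_tan h hS (by omega) hcard ha hl.1 hl.2.1 hl.2.2
    have e : Finset.bipartiteAbove (fun (l : Finset α) p => p ∈ l) (FF L S) l = (FF L S).filter (fun p => p ∈ l) := rfl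
    rw [e]
    omega
  · intro p hp
    have hpa : p ≠ a := fun e => not_mem_FF h hS (by omega) ha (e ▸ hp)
    obtain ⟨l, hl, hpl, hal⟩ := join h hpa
    rw [Finset.card_eq_one]
    refine ⟨l, ?_⟩
    ext m
    simp only [Finset.mem_bipartiteBelow, Finset.mem_filter, mem_LF, Finset.mem_singleton]
    constructor
    · rintro ⟨⟨hm, ham, -⟩, hpm⟩
      exact uniq h hm hl hpa hpm ham hpl hal
    · rintro rfl
      refine ⟨⟨hl, hal, ?_⟩, hpl⟩
      have h1 := (mem_FF.1 hp) m hl hpl
      have h2 : 0 < (m ∩ S).card := Finset.card_pos.2 ⟨a, Finset.mem_inter.2 ⟨hal, ha⟩⟩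
      omega

theorem FF_inter (hcard2 : 3 ≤ S.card) : Disjoint S (FF L S) := by
  rw [Finset.disjoint_left]
  intro a ha
  exact not_mem_FF h hS (by omega) ha

end

section quad
variable (h : Pl L) {S : Finset α} (hS : Ind L S) (h4 : S.card = 4)
include h hS h4

theorem FF_two : (FF L S).card = 2 := by
  have := card_FF h hS (by omega) (by omega)
  rw [h4] at this
  rw [← this]
  decide

theorem hyp_card : (S ∪ FF L S).card = 6 := by
  rw [Finset.card_union_of_disjoint (FF_inter h hS (by omega)), h4, FF_two h hS h4]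

theorem hyp_ind : Ind L (S ∪ FF L S) := by
  classical
  intro l hl
  have h1 : (l ∩ (S ∪ FF L S)).card ≤ (l ∩ S).card + (l ∩ FF L S).card := by
    rw [Finset.inter_union_distrib_left]
    exact Finset.card_union_le _ _
  have h2 := hS l hl
  rcases (show (l ∩ S).card = 0 ∨ (l ∩ S).card = 1 ∨ (l ∩ S).card = 2 by omega) with h3 | h3 | h3
  · have h5 : (l ∩ FF L S).card ≤ (FF L S).card := Finset.card_le_card Finset.inter_subset_right
    rw [FF_two h hS h4] at h5
    omega
  · obtain ⟨a, ha⟩ : (l ∩ S).Nonempty := by rw [← Finset.card_pos]; omega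
    rw [Finset.mem_inter] at ha
    have h5 := on_tan h hS (by omega) (by omega) ha.2 hl ha.1 h3
    rw [h4] at h5
    have h6 : (3 : ℕ).choose 2 = 3 := rfl
    have h7 : l ∩ FF L S = (FF L S).filter (fun p => p ∈ l) := by
      ext p; simp [Finset.mem_inter, Finset.mem_filter, and_comm]
    rw [h7] at h1
    simp only [Nat.add_one_sub_one, Nat.reduceSub] at h5
    omega
  · have h5 : l ∩ FF L S = ∅ := by
      rw [Finset.eq_empty_iff_forall_notMem]
      intro p hp
      rw [Finset.mem_inter, mem_FF] at hp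
      have := hp.2 l hl hp.1
      omega
    rw [h5, Finset.card_empty] at h1
    omega

theorem hyp_unique {H : Finset α} (hH : H.card = 6) (hI : Ind L H) (hSH : S ⊆ H) : H = S ∪ FF L S := by
  apply Finset.eq_of_subset_of_card_le
  · intro p hp
    by_cases hpS : p ∈ S
    · exact Finset.mem_union_left _ hpS
    · apply Finset.mem_union_right
      rw [mem_FF]
      intro m hm hpm
      have h1 := hI m hm
      have h2 : insert p (m ∩ S) ⊆ m ∩ H := by
        intro x hx
        rw [Finset.mem_insert] at hx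
        rcases hx with rfl | hx
        · exact Finset.mem_inter.2 ⟨hpm, hp⟩
        · rw [Finset.mem_inter] at hx
          exact Finset.mem_inter.2 ⟨hx.1, hSH hx.2⟩
      have h3 := Finset.card_le_card h2
      rw [Finset.card_insert_of_notMem (fun h' => hpS (Finset.mem_inter.1 h').2)] at h3
      omega
  · rw [hyp_card h hS h4, hH]

end quad

open Classical in
noncomputable def IF (L : Set (Finset α)) (k : ℕ) : Finset (Finset α) :=
  (Finset.univ.powersetCard k).filter fun S => Ind L S

theorem mem_IF {k : ℕ} {S : Finset α} : S ∈ IF L k ↔ S.card = k ∧ Ind L S := by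
  classical
  simp [IF, Finset.mem_powersetCard]

section count
variable (h : Pl L)
include h

omit h in
theorem not_ind_three {T : Finset α} (hT : T.card = 3) : ¬ Ind L T ↔ ∃ l ∈ L, T ⊆ l := by
  unfold Ind
  push Not
  constructor
  · rintro ⟨l, hl, h2⟩
    refine ⟨l, hl, ?_⟩
    have : l ∩ T = T := Finset.eq_of_subset_of_card_le Finset.inter_subset_right (by omega)
    rw [← this]; exact Finset.inter_subset_left
  · rintro ⟨l, hl, h2⟩
    refine ⟨l, hl, ?_⟩
    rw [Finset.inter_eq_right.2 h2, hT]; norm_num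

theorem card_tri : (IF L 3).card = 1120 := by
  classical
  have hcol : ((Finset.univ.powersetCard 3).filter fun S => ¬ Ind L S).card = 210 := by
    have := Finset.card_mul_eq_card_mul (s := LF L)
      (t := (Finset.univ.powersetCard 3).filter fun S => ¬ Ind L S) (fun l T => T ⊆ l) (m := 10) (n := 1) ?_ ?_
    · rw [nlines h] at this; omega
    · intro l hl
      rw [mem_LF] at hl
      have e : Finset.bipartiteAbove (fun (l : Finset α) T => T ⊆ l)
          ((Finset.univ.powersetCard 3).filter fun S => ¬ Ind L S) l = l.powersetCard 3 := by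
        ext T
        simp only [Finset.mem_bipartiteAbove, Finset.mem_filter, Finset.mem_powersetCard]
        constructor
        · rintro ⟨⟨⟨-, h2⟩, -⟩, h3⟩; exact ⟨h3, h2⟩
        · rintro ⟨h3, h2⟩
          exact ⟨⟨⟨Finset.subset_univ _, h2⟩, (not_ind_three h2).2 ⟨l, hl, h3⟩⟩, h3⟩
      rw [e, Finset.card_powersetCard, card5 h hl]
      rfl
    · intro T hT
      rw [Finset.mem_filter, Finset.mem_powersetCard] at hT
      obtain ⟨l, hl, hTl⟩ := (not_ind_three hT.1.2).1 hT.2
      rw [Finset.card_eq_one]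
      refine ⟨l, ?_⟩
      ext m
      simp only [Finset.mem_bipartiteBelow, mem_LF, Finset.mem_singleton]
      constructor
      · rintro ⟨hm, hTm⟩
        obtain ⟨a, b, c, hab, -, -, rfl⟩ := Finset.card_eq_three.1 hT.1.2
        exact uniq h hm hl hab (hTm (by simp)) (hTm (by simp)) (hTl (by simp)) (hTl (by simp))
      · rintro rfl; exact ⟨hl, hTl⟩
  have h3 := Finset.card_filter_add_card_filter_not (s := (Finset.univ : Finset α).powersetCard 3) (fun S => Ind L S)
  rw [hcol, Finset.card_powersetCard, Finset.card_univ, h.card] at h3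
  have h4 : (21 : ℕ).choose 3 = 1330 := by decide
  have h5 : (IF L 3).card = ((Finset.univ.powersetCard 3).filter fun S => Ind L S).card := by
    congr
  rw [h5]
  omega

theorem card_quad : (IF L 4).card = 2520 := by
  classical
  have := Finset.card_mul_eq_card_mul (s := IF L 3) (t := IF L 4) (fun T S => T ⊆ S) (m := 9) (n := 4) ?_ ?_
  · rw [card_tri h] at this; omega
  · intro T hT
    rw [mem_IF] at hT
    have hF := card_FF h hT.2 (by omega) (by omega)
    rw [hT.1] at hF
    have h9 : (FF L T).card = 9 := by rw [← hF]; rfl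
    rw [← h9]
    symm
    refine Finset.card_bij (fun p _ => insert p T) ?_ ?_ ?_
    · intro p hp
      have hpT : p ∉ T := fun h' => Finset.disjoint_left.1 (FF_inter h hT.2 (by omega)) h' hp
      rw [Finset.mem_bipartiteAbove, mem_IF]
      refine ⟨⟨by rw [Finset.card_insert_of_notMem hpT, hT.1], ?_⟩, Finset.subset_insert _ _⟩
      intro l hl
      by_cases hpl : p ∈ l
      · have h1 := (mem_FF.1 hp) l hl hpl
        rw [Finset.inter_insert_of_mem hpl]
        exact (Finset.card_insert_le _ _).trans (by omega)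
      · rw [Finset.inter_insert_of_notMem hpl]
        exact hT.2 l hl
    · intro p hp q hq hpq
      have hpT : p ∉ T := fun h' => Finset.disjoint_left.1 (FF_inter h hT.2 (by omega)) h' hp
      have h1 : p ∈ insert q T := by rw [← hpq]; exact Finset.mem_insert_self _ _
      rw [Finset.mem_insert] at h1
      exact h1.resolve_right hpT
    · intro S hS
      rw [Finset.mem_bipartiteAbove, mem_IF] at hS
      obtain ⟨⟨hS4, hSI⟩, hTS⟩ := hS
      obtain ⟨p, hp⟩ : (S \ T).Nonempty := by
        rw [← Finset.card_pos, Finset.card_sdiff_of_subset hTS]; omega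
      rw [Finset.mem_sdiff] at hp
      have hins : insert p T = S := by
        apply Finset.eq_of_subset_of_card_le (Finset.insert_subset hp.1 hTS)
        rw [Finset.card_insert_of_notMem hp.2]; omega
      refine ⟨p, ?_, hins⟩
      rw [mem_FF]
      intro m hm hpm
      have h1 := hSI m hm
      rw [← hins, Finset.inter_insert_of_mem hpm, Finset.card_insert_of_notMem
        (fun h' => hp.2 (Finset.mem_inter.1 h').2)] at h1
      omega
  · intro S hS
    rw [mem_IF] at hS
    have e : Finset.bipartiteBelow (fun (T : Finset α) S => T ⊆ S) (IF L 3) S = S.powersetCard 3 := by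
      ext T
      simp only [Finset.mem_bipartiteBelow, mem_IF, Finset.mem_powersetCard]
      constructor
      · rintro ⟨⟨h2, -⟩, h3⟩; exact ⟨h3, h2⟩
      · rintro ⟨h3, h2⟩; exact ⟨⟨h2, hS.2.mono h3⟩, h3⟩
    rw [e, Finset.card_powersetCard, hS.1]
    rfl

theorem exists_unique_hyp {S : Finset α} (hS : S.card = 4 ∧ Ind L S) :
    ∃! H : Finset α, (H.card = 6 ∧ Ind L H) ∧ S ⊆ H := by
  refine ⟨S ∪ FF L S, ⟨⟨hyp_card h hS.2 hS.1, hyp_ind h hS.2 hS.1⟩, Finset.subset_union_left⟩, ?_⟩
  rintro H ⟨⟨h1, h2⟩, h3⟩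
  exact hyp_unique h hS.2 hS.1 h1 h2 h3

theorem card_hyp : (IF L 6).card = 168 := by
  classical
  have := Finset.card_mul_eq_card_mul (s := IF L 4) (t := IF L 6) (fun T S => T ⊆ S) (m := 1) (n := 15) ?_ ?_
  · rw [card_quad h] at this; omega
  · intro S hS
    rw [mem_IF] at hS
    obtain ⟨H, hH, hu⟩ := exists_unique_hyp h hS
    rw [Finset.card_eq_one]
    refine ⟨H, ?_⟩
    ext H'
    rw [Finset.mem_bipartiteAbove, mem_IF, Finset.mem_singleton]
    constructor
    · intro h'; exact hu H' h'
    · rintro rfl; exact hH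
  · intro H hH
    rw [mem_IF] at hH
    have e : Finset.bipartiteBelow (fun (T : Finset α) S => T ⊆ S) (IF L 4) H = H.powersetCard 4 := by
      ext T
      simp only [Finset.mem_bipartiteBelow, mem_IF, Finset.mem_powersetCard]
      constructor
      · rintro ⟨⟨h2, -⟩, h3⟩; exact ⟨h3, h2⟩
      · rintro ⟨h3, h2⟩; exact ⟨⟨h2, hH.2.mono h3⟩, h3⟩
    rw [e, Finset.card_powersetCard, hH.1]
    rfl

end count

/-! ### statements -/

theorem ncard_IF (k : ℕ) : {S : Finset α | (S.card = k ∧ ∀ l ∈ L, (l ∩ S).card ≤ 2)}.ncard = (IF L k).card := by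
  rw [← Set.ncard_coe_finset]
  congr 1
  ext S
  rw [Finset.mem_coe, mem_IF]
  rfl

omit [Fintype α] in
theorem ho_of {H : Finset α} (hI : Ind L H) {f : Fin 6 → α} (hf : Function.Injective f)
    (hfH : ∀ i, f i ∈ H) : HO L f := by
  refine ⟨hf, ?_⟩
  intro l hl i j k hi hj hk
  by_contra hne
  push Not at hne
  have h1 := three_le_inter (S := H) (m := l) (fun e => hne.1 (hf e)) (fun e => hne.2.1 (hf e))
    (fun e => hne.2.2 (hf e)) (hfH i) (hfH j) (hfH k) hi hj hk
  have := hI l hl
  omega

theorem exists_ho (h : Pl L) : ∃ f : Fin 6 → α, HO L f := by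
  have h1 := card_hyp h
  obtain ⟨H, hH⟩ : (IF L 6).Nonempty := by rw [← Finset.card_pos, h1]; norm_num
  rw [mem_IF] at hH
  let e := (H.equivFinOfCardEq hH.1).symm
  exact ⟨fun i => (e i : α), ho_of hH.2 (fun i j hij => e.injective (Subtype.ext hij)) (fun i => (e i).2)⟩

theorem unique_plane {β : Type*} [Fintype β] [DecidableEq β] {L' : Set (Finset β)} (h : Pl L) (h' : Pl L') :
    SetSystemIso L L' := by
  obtain ⟨f, hf⟩ := exists_ho h
  obtain ⟨f', hf'⟩ := exists_ho h'
  obtain ⟨e, he, -⟩ := iso_of_labels h h' hf hf'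
  refine ⟨e, ?_⟩
  ext m
  constructor
  · rintro ⟨l, hl, rfl⟩
    exact (he l).2 hl
  · intro hm
    refine ⟨m.image e.symm, ?_, ?_⟩
    · rw [← he, Finset.image_image]
      simpa using hm
    · show (m.image e.symm).image e = m
      rw [Finset.image_image]
      simp

theorem mem_aut_iff {g : Equiv.Perm α} : g ∈ setSystemAut L ↔ ∀ l, l.image g ∈ L ↔ l ∈ L := by
  rw [MulAction.mem_stabilizer_iff]
  have hsm : ∀ l : Finset α, g • l = l.image g := fun l => rfl
  constructor
  · intro hg l
    rw [← hsm]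
    conv_lhs => rw [← hg]
    exact Set.smul_mem_smul_set_iff
  · intro hall
    ext l
    rw [Set.mem_smul_set_iff_inv_smul_mem, ← hall, ← hsm, smul_inv_smul]

theorem hyp_aut (h : Pl L) (H : Finset α) (hH : H.card = 6 ∧ Ind L H) (σ : Equiv.Perm H) :
    ∃! g : Equiv.Perm α, g ∈ setSystemAut L ∧ ∀ p : H, g p = σ p := by
  let e := (H.equivFinOfCardEq hH.1).symm
  let f : Fin 6 → α := fun i => (e i : α)
  let f' : Fin 6 → α := fun i => (σ (e i) : α)
  have hf : HO L f := ho_of hH.2 (fun i j hij => e.injective (Subtype.ext hij)) (fun i => (e i).2)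
  have hf' : HO L f' := ho_of hH.2 (fun i j hij => e.injective (σ.injective (Subtype.ext hij)))
    (fun i => (σ (e i)).2)
  obtain ⟨g, hg, hgf⟩ := iso_of_labels h h hf hf'
  refine ⟨g, ⟨mem_aut_iff.2 hg, ?_⟩, ?_⟩
  · intro p
    have := hgf (e.symm p)
    simpa [f, f'] using this
  · rintro k ⟨hk, hkp⟩
    apply Equiv.ext
    intro x
    have hkf : ∀ i, k (f i) = f' i := fun i => hkp (e i)
    have h1 := iso_unique h h hf hf' k (fun l hl => (mem_aut_iff.1 hk l).2 hl) hkf x
    have h2 := iso_unique h h hf hf' g (fun l hl => (hg l).2 hl) hgf x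
    exact (E h hf').injective (by rw [h1, h2])

end Cfsg.Agent.H1.PG24
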