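import Cfsg.Agent.H1.PG24b
import Cfsg.Agent.H5.PSLSimple

set_option autoImplicit false
set_option linter.all false

namespace Cfsg.Agent.H1.Pln

open Cfsg Cfsg.Agent.H1.PG24 Module
open scoped LinearAlgebra.Projectivization

variable {F : Type} [Field F] [Fintype F] [Fintype (ℙ F (Fin 3 → F))] [DecidableEq (ℙ F (Fin 3 → F))]

omit [Fintype F] [Fintype (ℙ F (Fin 3 → F))] [DecidableEq (ℙ F (Fin 3 → F))] in
def LL (F : Type) [Field F] : Set (Finset (ℙ F (Fin 3 → F))) :=
  {l | ∃ W : Submodule F (Fin 3 → F), finrank F W = 2 ∧ ∀ P, P ∈ l ↔ P.submodule ≤ W}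

theorem card_pts (hF : Fintype.card F = 4) : Fintype.card (ℙ F (Fin 3 → F)) = 21 := by
  have h1 := Projectivization.card' (k := F) (V := Fin 3 → F)
  rw [Nat.card_fun, Nat.card_fin, Nat.card_eq_fintype_card, Nat.card_eq_fintype_card, hF] at h1
  norm_num at h1
  omega

omit [Fintype (ℙ F (Fin 3 → F))] [DecidableEq (ℙ F (Fin 3 → F))] in
theorem card_line (hF : Fintype.card F = 4) {W : Submodule F (Fin 3 → F)} (hW : finrank F W = 2) :
    Nat.card {P : ℙ F (Fin 3 → F) // P.submodule ≤ W} = 5 := by
  have h1 := Projectivization.card' (k := F) (V := W)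
  rw [Module.natCard_eq_pow_finrank (K := F), hW, Nat.card_eq_fintype_card (α := F), hF] at h1
  have h2 : Nat.card (ℙ F W) = 5 := by norm_num at h1; omega
  rw [← h2]
  symm
  apply Nat.card_congr
  have hmem : ∀ p : ℙ F W, (Projectivization.map W.subtype (Submodule.injective_subtype W) p).submodule ≤ W := by
    intro p
    induction p with
    | h v hv =>
      rw [Projectivization.map_mk, Projectivization.submodule_mk, Submodule.span_singleton_le_iff_mem]
      exact v.2
  refine Equiv.ofBijective (fun p => ⟨Projectivization.map W.subtype (Submodule.injective_subtype W) p, hmem p⟩) ⟨?_, ?_⟩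
  · intro p q h
    exact Projectivization.map_injective W.subtype (Submodule.injective_subtype W) (congrArg Subtype.val h)
  · rintro ⟨P, hP⟩
    induction P with
    | h v hv =>
      rw [Projectivization.submodule_mk, Submodule.span_singleton_le_iff_mem] at hP
      have hv' : (⟨v, hP⟩ : W) ≠ 0 := fun h => hv (congrArg Subtype.val h)
      refine ⟨Projectivization.mk F (⟨v, hP⟩ : W) hv', ?_⟩
      apply Subtype.ext
      exact Projectivization.map_mk W.subtype (Submodule.injective_subtype W) (⟨v, hP⟩ : W) hv'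

theorem pl (hF : Fintype.card F = 4) : Pl (LL F) := by
  classical
  refine ⟨card_pts hF, ?_, ?_⟩
  · rintro l ⟨W, hW, hl⟩
    rw [← card_line hF hW]
    rw [← Nat.card_congr (Equiv.subtypeEquivRight hl), Nat.card_eq_fintype_card, Fintype.card_coe]
  · intro T hT
    obtain ⟨P, Q, hPQ, rfl⟩ := Finset.card_eq_two.1 hT
    have hP : finrank F P.submodule = 1 := Projectivization.finrank_submodule P
    have hQ : finrank F Q.submodule = 1 := Projectivization.finrank_submodule Q
    have h1 := Submodule.finrank_sup_add_finrank_inf_eq P.submodule Q.submodule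
    have h2 : finrank F (P.submodule ⊓ Q.submodule : Submodule F (Fin 3 → F)) = 0 := by
      by_contra h3
      have h4 : finrank F (P.submodule ⊓ Q.submodule : Submodule F (Fin 3 → F)) ≤ 1 := by
        rw [← hP]; exact Submodule.finrank_mono inf_le_left
      have h5 : finrank F (P.submodule ⊓ Q.submodule : Submodule F (Fin 3 → F)) = 1 := by omega
      have h6 := Submodule.eq_of_le_of_finrank_eq (inf_le_left : P.submodule ⊓ Q.submodule ≤ P.submodule) (by rw [h5, hP])
      have h7 := Submodule.eq_of_le_of_finrank_eq (inf_le_right : P.submodule ⊓ Q.submodule ≤ Q.submodule) (by rw [h5, hQ])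
      exact hPQ (Projectivization.submodule_injective (h6.symm.trans h7))
    have h3 : finrank F (P.submodule ⊔ Q.submodule : Submodule F (Fin 3 → F)) = 2 := by omega
    refine ⟨Finset.univ.filter (fun R => R.submodule ≤ P.submodule ⊔ Q.submodule), ⟨⟨_, h3, fun R => by simp⟩, ?_⟩, ?_⟩
    · intro R hR
      rw [Finset.mem_insert, Finset.mem_singleton] at hR
      rw [Finset.mem_filter]
      refine ⟨Finset.mem_univ _, ?_⟩
      rcases hR with rfl | rfl
      · exact le_sup_left
      · exact le_sup_right
    · rintro l ⟨⟨W, hW, hl⟩, hT⟩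
      have h4 : P.submodule ≤ W := (hl P).1 (hT (by simp))
      have h5 : Q.submodule ≤ W := (hl Q).1 (hT (by simp))
      have h6 := Submodule.eq_of_le_of_finrank_eq (sup_le h4 h5) (by rw [h3, hW])
      ext R
      rw [hl, Finset.mem_filter, h6]
      simp

omit [Fintype F] in
theorem smul_mem_LL (g : Matrix.ProjectiveSpecialLinearGroup (Fin 3) F) {l : Finset (ℙ F (Fin 3 → F))} (hl : l ∈ LL F) :
    l.image (fun P => g • P) ∈ LL F := by
  obtain ⟨A, rfl⟩ := QuotientGroup.mk_surjective g
  obtain ⟨W, hW, hl⟩ := hl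
  refine ⟨W.map (Matrix.SpecialLinearGroup.toLin' A : (Fin 3 → F) →ₗ[F] (Fin 3 → F)), ?_, ?_⟩
  · rw [← hW]; exact LinearEquiv.finrank_map_eq _ _
  · intro P
    rw [Finset.mem_image]
    constructor
    · rintro ⟨Q, hQ, rfl⟩
      rw [hl] at hQ
      rw [Matrix.ProjectiveSpecialLinearGroup.smul_proj_mk]
      induction Q with
      | h v hv =>
        rw [Projectivization.smul_mk, Projectivization.submodule_mk, Submodule.span_singleton_le_iff_mem]
        rw [Projectivization.submodule_mk, Submodule.span_singleton_le_iff_mem] at hQ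
        exact ⟨v, hQ, rfl⟩
    · intro hP
      induction P with
      | h v hv =>
        rw [Projectivization.submodule_mk, Submodule.span_singleton_le_iff_mem] at hP
        obtain ⟨w, hw, rfl⟩ := hP
        have hw0 : w ≠ 0 := by rintro rfl; exact hv (map_zero _)
        refine ⟨Projectivization.mk F w hw0, ?_, ?_⟩
        · rw [hl, Projectivization.submodule_mk, Submodule.span_singleton_le_iff_mem]; exact hw
        · rw [Matrix.ProjectiveSpecialLinearGroup.smul_proj_mk, Projectivization.smul_mk]; rfl

omit [Fintype F] in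
theorem psl_mem (g : Matrix.ProjectiveSpecialLinearGroup (Fin 3) F) :
    MulAction.toPermHom (Matrix.ProjectiveSpecialLinearGroup (Fin 3) F) (ℙ F (Fin 3 → F)) g ∈ setSystemAut (LL F) := by
  rw [mem_aut_iff]
  intro l
  constructor
  · intro h
    have h1 := smul_mem_LL g⁻¹ h
    rw [Finset.image_image] at h1
    convert h1 using 1
    ext P
    simp
  · intro h
    exact smul_mem_LL g h

theorem card_PSL34 (hF : Fintype.card F = 4) : Nat.card (Matrix.ProjectiveSpecialLinearGroup (Fin 3) F) = 20160 := by
  have h1 := Cfsg.Agent.H5.card_PSL_mul hF 3 (by norm_num)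
  rw [Fin.prod_univ_three] at h1
  norm_num at h1
  omega

/-- the automorphism group of a plane of order 4 has order at most `168 · 720` -/
theorem card_aut {α : Type*} [Fintype α] [DecidableEq α] {L : Set (Finset α)} (h : Pl L) : Nat.card (setSystemAut L) ≤ 120960 := by
  classical
  obtain ⟨f, hf⟩ := exists_ho h
  -- labelled hyperovals
  have himg : ∀ g : setSystemAut L, HO L (fun i => (g : Equiv.Perm α) (f i)) := by
    intro g
    refine ⟨fun i j hij => hf.inj (g.1.injective hij), ?_⟩
    intro l hl i j k hi hj hk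
    have h1 : l.image (g⁻¹ : setSystemAut L).1 ∈ L := (mem_aut_iff.1 (g⁻¹ : setSystemAut L).2 l).2 hl
    have h2 : ∀ i, g.1 (f i) ∈ l → f i ∈ l.image (g⁻¹ : setSystemAut L).1 := by
      intro i hi
      rw [Finset.mem_image]
      refine ⟨_, hi, ?_⟩
      show (g.1⁻¹ : Equiv.Perm α) (g.1 (f i)) = f i
      rw [← Equiv.Perm.mul_apply, inv_mul_cancel]; rfl
    exact hf.two _ h1 i j k (h2 i hi) (h2 j hj) (h2 k hk)
  have hmem : ∀ g : setSystemAut L, (Finset.univ.image fun i => (g : Equiv.Perm α) (f i)) ∈ IF L 6 := by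
    intro g
    have h0 := himg g
    rw [mem_IF]
    refine ⟨?_, ?_⟩
    · rw [Finset.card_image_of_injective _ h0.inj, Finset.card_univ, Fintype.card_fin]
    · intro l hl
      by_contra hcon
      push Not at hcon
      obtain ⟨a, ha, b, hb, c, hc, hab, hac, hbc⟩ := Finset.two_lt_card.1 hcon
      rw [Finset.mem_inter, Finset.mem_image] at ha hb hc
      obtain ⟨ha1, i, -, rfl⟩ := ha
      obtain ⟨hb1, j, -, rfl⟩ := hb
      obtain ⟨hc1, k, -, rfl⟩ := hc
      rcases h0.two l hl i j k ha1 hb1 hc1 with e | e | e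
      · exact hab (by rw [e])
      · exact hac (by rw [e])
      · exact hbc (by rw [e])
  let Φ : setSystemAut L → Σ H : {H // H ∈ IF L 6}, (Fin 6 ↪ H.1) := fun g =>
    ⟨⟨_, hmem g⟩, ⟨fun i => ⟨g.1 (f i), Finset.mem_image_of_mem _ (Finset.mem_univ i)⟩, fun i j hij => (himg g).inj (congrArg Subtype.val hij)⟩⟩
  have hΦ : Function.Injective Φ := by
    intro g k hgk
    have h1 : ∀ i, g.1 (f i) = k.1 (f i) := by
      intro i
      have : ∀ (x y : Σ H : {H // H ∈ IF L 6}, (Fin 6 ↪ H.1)), x = y → (x.2 i : α) = (y.2 i : α) := by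
        rintro x y rfl; rfl
      exact this _ _ hgk
    apply Subtype.ext
    apply Equiv.ext
    intro x
    have h2 := iso_unique h h hf (himg g) g.1 (fun l hl => (mem_aut_iff.1 g.2 l).2 hl) (fun i => rfl) x
    have h3 := iso_unique h h hf (himg g) k.1 (fun l hl => (mem_aut_iff.1 k.2 l).2 hl) (fun i => (h1 i).symm) x
    exact (E h (himg g)).injective (by rw [h2, h3])
  have h4 := Nat.card_le_card_of_injective Φ hΦ
  refine h4.trans ?_
  rw [Nat.card_sigma]
  have h5 : ∀ H : {H // H ∈ IF L 6}, Nat.card (Fin 6 ↪ H.1) = 720 := by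
    intro H
    rw [Nat.card_eq_fintype_card, Fintype.card_embedding_eq, Fintype.card_coe, (mem_IF.1 H.2).1, Fintype.card_fin]
    rfl
  rw [Finset.sum_congr rfl (fun H _ => h5 H), Finset.sum_const, Finset.card_univ, Fintype.card_coe, card_hyp h]
  norm_num

end Cfsg.Agent.H1.Pln
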