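import Cfsg.Agent.H1.PG24b
import Cfsg.Agent.H7.GolayM12
import Cfsg.Agent.H7.GolayM24c

set_option autoImplicit false
set_option linter.all false

namespace Cfsg.Agent.H1.Pln

open Cfsg Cfsg.Agent.H1.PG24 Cfsg.Agent.H7

section derived

variable {γ : Type*} [Fintype γ] [DecidableEq γ] {B : Set (Finset γ)} {T : Finset γ}

def DD (B : Set (Finset γ)) (T : Finset γ) : Set (Finset {x : γ // x ∉ T}) := {l | l.map (Function.Embedding.subtype _) ∪ T ∈ B}

lemma card_mapU (l : Finset {x : γ // x ∉ T}) : (l.map (Function.Embedding.subtype _) ∪ T).card = l.card + T.card := by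
  rw [Finset.card_union_of_disjoint, Finset.card_map]
  rw [Finset.disjoint_left]
  intro x hx
  rw [Finset.mem_map] at hx
  obtain ⟨y, -, rfl⟩ := hx
  exact y.2

theorem dd_steiner (hB : IsSteinerSystem 5 8 B) (hT : T.card = 3) : IsSteinerSystem 2 5 (DD B T) := by
  refine ⟨?_, ?_⟩
  · intro l hl
    have h1 := hB.1 _ hl
    rw [card_mapU, hT] at h1
    omega
  · intro S hS
    have h1 : (S.map (Function.Embedding.subtype _) ∪ T).card = 5 := by rw [card_mapU, hS, hT]
    obtain ⟨b, ⟨hb, hsub⟩, huniq⟩ := hB.2 _ h1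
    have hTb : T ⊆ b := Finset.subset_union_right.trans hsub
    have hSb : S.map (Function.Embedding.subtype _) ⊆ b := Finset.subset_union_left.trans hsub
    have hbb : (b.subtype (fun x => x ∉ T)).map (Function.Embedding.subtype _) ∪ T = b := by
      ext x
      rw [Finset.mem_union, Finset.mem_map]
      constructor
      · rintro (⟨y, hy, rfl⟩ | hx)
        · exact Finset.mem_subtype.1 hy
        · exact hTb hx
      · intro hx
        by_cases hxT : x ∈ T
        · exact Or.inr hxT
        · exact Or.inl ⟨⟨x, hxT⟩, Finset.mem_subtype.2 hx, rfl⟩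
    refine ⟨b.subtype (fun x => x ∉ T), ⟨?_, ?_⟩, ?_⟩
    · show _ ∈ B
      rw [hbb]; exact hb
    · intro x hx
      rw [Finset.mem_subtype]
      exact hSb (Finset.mem_map_of_mem _ hx)
    · rintro l ⟨hl, hSl⟩
      have h2 := huniq _ ⟨hl, Finset.union_subset_union_left (Finset.map_subset_map.2 hSl)⟩
      ext x
      rw [Finset.mem_subtype, ← h2, Finset.mem_union, Finset.mem_map]
      constructor
      · intro hx; exact Or.inl ⟨x, hx, rfl⟩
      · rintro (⟨y, hy, hyx⟩ | hx)
        · have : y = x := Subtype.ext hyx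
          rwa [← this]
        · exact absurd hx x.2

end derived

noncomputable def T3 : Finset GolayPt := {bp 0, bp 1, bp 2}

lemma card_T3 : T3.card = 3 := by
  unfold T3
  have h : ∀ i j : ℕ, i < 3 → j < 3 → i ≠ j → bp i ≠ bp j := by
    intro i j hi hj hij he
    exact hij (bp_injOn i (by omega) j (by omega) he)
  rw [Finset.card_insert_of_notMem, Finset.card_insert_of_notMem, Finset.card_singleton]
  · rw [Finset.mem_singleton]; exact h 1 2 (by omega) (by omega) (by omega)
  · rw [Finset.mem_insert, Finset.mem_singleton, not_or]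
    exact ⟨h 0 1 (by omega) (by omega) (by omega), h 0 2 (by omega) (by omega) (by omega)⟩

abbrev A21 := {x : GolayPt // x ∉ T3}

theorem pl_m24 : Pl (DD octads T3) := by
  refine ⟨?_, dd_steiner octads_steiner card_T3⟩
  have h1 : Fintype.card GolayPt = 24 := by decide
  have h2 : Fintype.card {x : GolayPt // x ∉ T3} = Fintype.card GolayPt - Fintype.card {x : GolayPt // x ∈ T3} := Fintype.card_subtype_compl _
  rw [h2, h1, Fintype.card_coe, card_T3]

lemma fix3 (σ : SB 3) {x : GolayPt} (hx : x ∈ T3) : (σ : Equiv.Perm GolayPt) x = x := by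
  have h := (mem_SB.1 σ.2).2
  unfold T3 at hx
  simp only [Finset.mem_insert, Finset.mem_singleton] at hx
  rcases hx with rfl | rfl | rfl
  · exact h 0 (by norm_num)
  · exact h 1 (by norm_num)
  · exact h 2 (by norm_num)

lemma inv3 (σ : SB 3) (x : GolayPt) : x ∉ T3 ↔ (σ : Equiv.Perm GolayPt) x ∉ T3 := by
  rw [not_iff_not]
  constructor
  · intro h; rw [fix3 σ h]; exact h
  · intro h
    have := fix3 σ h
    rw [← (σ : Equiv.Perm GolayPt).injective this]
    exact h

noncomputable def rho : SB 3 →* Equiv.Perm A21 where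
  toFun σ := (σ : Equiv.Perm GolayPt).subtypePerm (fun x => (inv3 σ x).symm)
  map_one' := by ext x; rfl
  map_mul' a b := by ext x; rfl

lemma rho_apply (σ : SB 3) (x : A21) : ((rho σ x : A21) : GolayPt) = (σ : Equiv.Perm GolayPt) x := rfl

lemma rho_inj : Function.Injective rho := by
  intro a b h
  apply Subtype.ext
  apply Equiv.ext
  intro x
  by_cases hx : x ∈ T3
  · rw [fix3 a hx, fix3 b hx]
  · have := congrArg Subtype.val (congrFun (congrArg (fun f : Equiv.Perm A21 => (f : A21 → A21)) h) ⟨x, hx⟩)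
    exact this

lemma rho_mem (σ : SB 3) : rho σ ∈ setSystemAut (DD octads T3) := by
  rw [mem_aut_iff]
  intro l
  have h1 : (σ : Equiv.Perm GolayPt) ∈ setSystemAut octads := by
    rw [← M24_eq_octad_aut]; exact (mem_SB.1 σ.2).1
  rw [mem_aut_iff] at h1
  have h2 : (l.map (Function.Embedding.subtype _) ∪ T3).image (σ : Equiv.Perm GolayPt) = (l.image (rho σ)).map (Function.Embedding.subtype _) ∪ T3 := by
    rw [Finset.image_union]
    congr 1
    · ext x
      simp only [Finset.mem_image, Finset.mem_map]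
      constructor
      · rintro ⟨_, ⟨y, hy, rfl⟩, rfl⟩
        exact ⟨rho σ y, ⟨y, hy, rfl⟩, rfl⟩
      · rintro ⟨_, ⟨y, hy, rfl⟩, rfl⟩
        exact ⟨_, ⟨y, hy, rfl⟩, rfl⟩
    · ext x
      rw [Finset.mem_image]
      constructor
      · rintro ⟨y, hy, rfl⟩
        rw [fix3 σ hy]; exact hy
      · intro hx
        exact ⟨x, hx, fix3 σ hx⟩
  show (_ ∈ octads) ↔ (_ ∈ octads)
  rw [← h2]
  exact h1 _

end Cfsg.Agent.H1.Pln
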