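import Cfsg.Agent.H1.PlnA
import Cfsg.Agent.H1.PlnB

set_option autoImplicit false
set_option linter.all false

namespace Cfsg.Agent.H1.Pln

open Cfsg Cfsg.Agent.H1.PG24 Cfsg.Agent.H7 Module
open scoped LinearAlgebra.Projectivization

/-- a simple group of order `20160` embedded in a group `A` lies in every subgroup of index at most `6` -/
theorem le_of_index {A P : Type*} [Group A] [Finite A] [Group P] [Finite P] [IsSimpleGroup P] (hP : 720 < Nat.card P)
    (f : P →* A) (M : Subgroup A) (hM : M.index ≤ 6) (x : P) : f x ∈ M := by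
  classical
  let φ : P →* Equiv.Perm (A ⧸ M) := (MulAction.toPermHom A (A ⧸ M)).comp f
  have h1 : φ.ker = ⊤ := by
    rcases IsSimpleGroup.eq_bot_or_eq_top_of_normal φ.ker inferInstance with h | h
    · exfalso
      have hinj : Function.Injective φ := (MonoidHom.ker_eq_bot_iff φ).1 h
      have h2 := Nat.card_le_card_of_injective φ hinj
      haveI : Fintype (A ⧸ M) := Fintype.ofFinite _
      rw [Nat.card_eq_fintype_card (α := Equiv.Perm (A ⧸ M)), Fintype.card_perm] at h2
      have h3 : Fintype.card (A ⧸ M) ≤ 6 := by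
        rw [← Nat.card_eq_fintype_card]; exact hM
      have h4 : (Fintype.card (A ⧸ M)).factorial ≤ Nat.factorial 6 := Nat.factorial_le h3
      have h5 : Nat.factorial 6 = 720 := by decide
      omega
    · exact h
  have h2 : φ x = 1 := by rw [← MonoidHom.mem_ker, h1]; trivial
  have h3 : φ x ((1 : A) : A ⧸ M) = ((1 : A) : A ⧸ M) := by rw [h2]; rfl
  have h4 : ((f x * 1 : A) : A ⧸ M) = ((1 : A) : A ⧸ M) := h3
  rw [mul_one, eq_comm, QuotientGroup.eq, inv_one, one_mul] at h4
  exact h4

theorem m21 (F : Type) [Field F] [Fintype F] (hF : Fintype.card F = 4) : Nonempty (SB 3 ≃* Matrix.ProjectiveSpecialLinearGroup (Fin 3) F) := by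
  classical
  haveI : Fintype (ℙ F (Fin 3 → F)) := Fintype.ofFinite _
  have hβ := pl (F := F) hF
  have hα := pl_m24
  obtain ⟨f, hf⟩ := exists_ho hα
  obtain ⟨f', hf'⟩ := exists_ho hβ
  obtain ⟨e, he, -⟩ := iso_of_labels hα hβ hf hf'
  -- the image of `M21`
  have hmem : ∀ σ : SB 3, e.permCongrHom (rho σ) ∈ setSystemAut (LL F) := by
    intro σ
    rw [mem_aut_iff]
    intro l
    have h1 := (mem_aut_iff.1 (rho_mem σ)) (l.image e.symm)
    have h2 : l.image (e.permCongrHom (rho σ)) = ((l.image e.symm).image (rho σ)).image e := by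
      rw [Finset.image_image, Finset.image_image]; rfl
    have h3 : l = (l.image e.symm).image e := by
      rw [Finset.image_image]; simp
    rw [h2, he, h1]
    conv_rhs => rw [h3]
    rw [he]
  let g : SB 3 →* setSystemAut (LL F) := ((e.permCongrHom.toMonoidHom).comp rho).codRestrict _ hmem
  have hg : Function.Injective g := by
    intro a b hab
    have h1 := congrArg Subtype.val hab
    exact rho_inj (e.permCongrHom.injective h1)
  let k : Matrix.ProjectiveSpecialLinearGroup (Fin 3) F →* setSystemAut (LL F) :=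
    (MulAction.toPermHom (Matrix.ProjectiveSpecialLinearGroup (Fin 3) F) (ℙ F (Fin 3 → F))).codRestrict _ psl_mem
  have hk : Function.Injective k := by
    intro a b hab
    have h1 := congrArg Subtype.val hab
    exact MulAction.toPerm_injective h1
  haveI : IsSimpleGroup (Matrix.ProjectiveSpecialLinearGroup (Fin 3) F) := Cfsg.Agent.H5.PSL_isSimple_of_three (by simp)
  have hcP := card_PSL34 (F := F) hF
  haveI : Finite (Matrix.ProjectiveSpecialLinearGroup (Fin 3) F) := Nat.finite_of_card_ne_zero (by rw [hcP]; norm_num)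
  have hcM : Nat.card g.range = 20160 := by
    rw [← Nat.card_congr (MonoidHom.ofInjective hg).toEquiv, card_SB3]
  have hcK : Nat.card k.range = 20160 := by
    rw [← Nat.card_congr (MonoidHom.ofInjective hk).toEquiv, hcP]
  have hidx : g.range.index ≤ 6 := by
    have h1 := g.range.card_mul_index
    have h2 := card_aut hβ
    rw [← h1, hcM] at h2
    omega
  have hle : k.range ≤ g.range := by
    rintro _ ⟨x, rfl⟩
    exact le_of_index (by rw [hcP]; norm_num) k g.range hidx x
  have heq : k.range = g.range := Subgroup.eq_of_le_of_card_ge hle (by rw [hcM, hcK])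
  exact ⟨(MonoidHom.ofInjective hg).trans ((MulEquiv.subgroupCongr heq.symm).trans (MonoidHom.ofInjective hk).symm)⟩

theorem s0380 (p q r : Cfsg.GolayPt) (hpq : p ≠ q) (hpr : p ≠ r) (hqr : q ≠ r) (F : Type) [Field F] [Fintype F] (hF : Fintype.card F = 4) :
    Nonempty (↥(MulAction.stabilizer Cfsg.M24 p ⊓ MulAction.stabilizer Cfsg.M24 q ⊓ MulAction.stabilizer Cfsg.M24 r) ≃* Matrix.ProjectiveSpecialLinearGroup (Fin 3) F) := by
  obtain ⟨e⟩ := M21_equiv p q r hpq hpr hqr
  obtain ⟨e'⟩ := m21 F hF
  exact ⟨e.trans e'⟩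

end Cfsg.Agent.H1.Pln
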