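import Cfsg.Agent.H1.Struct1
import Mathlib.GroupTheory.GroupAction.Primitive

/-!
# Primitive solvable groups (helper1)
-/

set_option autoImplicit false
set_option linter.all false

open Cfsg

namespace Cfsg.Agent.H1

open Subgroup
open scoped Pointwise commutatorElement

variable {G : Type*} [Group G]

theorem stabilizer_normalCore_eq_bot {Ω : Type*} [MulAction G Ω] [FaithfulSMul G Ω]
    [MulAction.IsPretransitive G Ω] (ω : Ω) : (MulAction.stabilizer G ω).normalCore = ⊥ := by
  rw [eq_bot_iff]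
  intro g hg
  rw [Subgroup.mem_bot]
  apply FaithfulSMul.eq_of_smul_eq_smul (α := Ω)
  intro x
  obtain ⟨k, rfl⟩ := MulAction.exists_smul_eq G ω x
  rw [one_smul]
  have h1 : k⁻¹ * g * k ∈ (MulAction.stabilizer G ω).normalCore := by
    have := (Subgroup.normalCore_normal (MulAction.stabilizer G ω)).conj_mem g hg k⁻¹
    simpa using this
  have h2 := (Subgroup.normalCore_le _) h1
  rw [MulAction.mem_stabilizer_iff] at h2
  rw [mul_smul, mul_smul, inv_smul_eq_iff] at h2
  exact h2

theorem nontrivial_of_faithful_ne_bot {Ω : Type*} [MulAction G Ω] [FaithfulSMul G Ω]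
    {M : Subgroup G} (hM : M ≠ ⊥) : Nontrivial Ω := by
  by_contra h
  rw [not_nontrivial_iff_subsingleton] at h
  apply hM
  rw [eq_bot_iff]
  intro g _
  rw [Subgroup.mem_bot]
  apply FaithfulSMul.eq_of_smul_eq_smul (α := Ω)
  intro x
  exact Subsingleton.elim _ _

theorem prim_solvable [Finite G] (hs : Group.IsSolvable G) {Ω : Type*} [MulAction G Ω]
    [FaithfulSMul G Ω] (hprim : MulAction.IsPreprimitive G Ω) {M : Subgroup G} (hMn : M.Normal)
    (hM : M ≠ ⊥) (hmin : ∀ K : Subgroup G, K.Normal → K ≤ M → K = ⊥ ∨ K = M) (ω : Ω) :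
    IsCoatom (MulAction.stabilizer G ω) ∧ (MulAction.stabilizer G ω).normalCore = ⊥ ∧
    M ⊔ MulAction.stabilizer G ω = ⊤ ∧ M ⊓ MulAction.stabilizer G ω = ⊥ ∧ IsMulCommutative M ∧
    Subgroup.centralizer (M : Set G) = M := by
  haveI := hprim
  haveI := nontrivial_of_faithful_ne_bot (Ω := Ω) hM
  have h1 : IsCoatom (MulAction.stabilizer G ω) :=
    MulAction.IsPreprimitive.isCoatom_stabilizer_of_isPreprimitive G ω
  have h2 : (MulAction.stabilizer G ω).normalCore = ⊥ := stabilizer_normalCore_eq_bot ω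
  obtain ⟨hMc, p, hp, hMp, -⟩ := minimal_normal_solvable hMn hM hmin inferInstance
  have h3 := sup_eq_top_of_coreFree h1 h2 hMn hM
  have h4 := centralizer_eq_self_coreFree h1 h2 hMn hM hMc
  have h5 := centralizer_inf_coreFree h1 h2 hMn hM
  rw [h4] at h5
  exact ⟨h1, h2, h3, h5, hMc, h4⟩

end Cfsg.Agent.H1
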