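import Cfsg.Agent.H1.Coprime2

set_option autoImplicit false

/-! S0057: coprime action with fixed points of prime index (helper1). -/

namespace Cfsg.Agent.H1

open Subgroup
open scoped Pointwise commutatorElement

universe u

variable {G : Type u} [Group G] [Finite G]

theorem prime_index_commutator (A K : Subgroup G) (hAK : A ≤ normalizer (K : Set G))
    (hcop : (Nat.card A).Coprime (Nat.card K)) (hsolv : Group.IsSolvable A ∨ Group.IsSolvable K)
    (p : ℕ) (hp : p.Prime) (hidx : (K ⊓ centralizer (A : Set G)).relIndex K = p) :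
    Nat.card (⁅K, A⁆ : Subgroup G) = p := by
  haveI : Fact p.Prime := ⟨hp⟩
  set C : Subgroup G := K ⊓ centralizer (A : Set G) with hC
  have hCK : C ≤ K := inf_le_left
  have hCA : ∀ c ∈ C, ∀ a ∈ A, a * c = c * a := fun c hc a ha => mem_centralizer_iff.1 hc.2 a ha
  obtain ⟨P, hP⟩ := exists_invariant_sylow A K hAK hcop hsolv p
  set Q : Subgroup G := (P : Subgroup K).map K.subtype with hQ
  have hQK : Q ≤ K := map_subtype_le _
  have hQp : IsPGroup p Q := P.2.map _
  have hQidx : ¬ p ∣ Q.relIndex K := by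
    have h1 : Q.relIndex K = (P : Subgroup K).index := by
      rw [relIndex, hQ, subgroupOf, comap_map_eq_self_of_injective K.subtype_injective]
    rw [h1]
    exact P.not_dvd_index
  have hcopQ : (Nat.card A).Coprime (Nat.card Q) :=
    Nat.Coprime.coprime_dvd_right (card_dvd_of_le hQK) hcop
  -- the index of `C` in `Q` is `p`
  set D : Subgroup G := Q ⊓ C with hD
  have hDQ : D ≤ Q := inf_le_left
  have hle : C.relIndex Q ≤ p := by
    rw [← hidx]
    exact relIndex_le_of_le_right hQK (by rw [hidx]; exact hp.ne_zero)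
  have hDidx : D.relIndex Q = C.relIndex Q := inf_relIndex_left Q C
  have hpow : ∃ n : ℕ, D.relIndex Q = p ^ n := by
    obtain ⟨n, hn⟩ := IsPGroup.iff_card.1 hQp
    have h1 : D.relIndex Q ∣ p ^ n := by
      rw [← hn]; exact Subgroup.relIndex_dvd_card _ _
    obtain ⟨m, -, hm⟩ := (Nat.dvd_prime_pow hp).1 h1
    exact ⟨m, hm⟩
  have hne1 : D.relIndex Q ≠ 1 := by
    intro h
    rw [relIndex_eq_one] at h
    have h2 : Q ≤ C := h.trans inf_le_right
    apply hQidx
    have h3 := relIndex_mul_relIndex Q C K h2 hCK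
    rw [hidx] at h3
    exact ⟨_, by rw [← h3, mul_comm]⟩
  have hDp : D.relIndex Q = p := by
    obtain ⟨n, hn⟩ := hpow
    rw [hDidx] at hn hne1 ⊢
    rcases n with _ | n
    · rw [pow_zero] at hn; exact absurd hn hne1
    · rcases n with _ | n
      · rw [hn]; simp
      · exfalso
        have h1 : p ^ 2 ≤ p := by
          calc p ^ 2 ≤ p ^ (n + 1 + 1) := Nat.pow_le_pow_right hp.pos (by omega)
            _ = C.relIndex Q := hn.symm
            _ ≤ p := hle
        nlinarith [hp.one_lt]
  -- `D` is normal in `Q`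
  have hDn : (D.subgroupOf Q).Normal := by
    apply normal_of_index_eq_minFac_card
    have h1 : (D.subgroupOf Q).index = p := hDp
    obtain ⟨n, hn⟩ := IsPGroup.iff_card.1 hQp
    have hn0 : n ≠ 0 := by
      rintro rfl
      rw [pow_zero] at hn
      have h2 : D.relIndex Q ∣ 1 := by rw [← hn]; exact Subgroup.relIndex_dvd_card _ _
      rw [hDp] at h2
      exact hp.one_lt.ne' (Nat.dvd_one.1 h2)
    rw [h1, hn, hp.pow_minFac hn0]
  have hQD : Q ≤ normalizer (D : Set G) := (normal_subgroupOf_iff_le_normalizer hDQ).1 hDn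
  -- `[Q, A]` centralizes `D`
  have h3 : ⁅⁅Q, A⁆, D⁆ = ⊥ := by
    apply commutator_commutator_eq_bot_of_rotate
    · have h4 : ⁅A, D⁆ = ⊥ := by
        rw [commutator_eq_bot_iff_le_centralizer]
        intro a ha
        rw [mem_centralizer_iff]
        intro d hd
        exact (hCA d hd.2 a ha).symm
      rw [h4, commutator_bot_left]
    · have h4 : ⁅D, Q⁆ ≤ D := commutator_le_left_of_le_normalizer hQD
      rw [eq_bot_iff]
      calc ⁅⁅D, Q⁆, A⁆ ≤ ⁅D, A⁆ := commutator_mono h4 le_rfl
        _ = ⊥ := by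
          rw [commutator_comm, commutator_eq_bot_iff_le_centralizer]
          intro a ha
          rw [mem_centralizer_iff]
          intro d hd
          exact (hCA d hd.2 a ha).symm
  set R : Subgroup G := ⁅Q, A⁆ with hR
  have hRQ : R ≤ Q := commutator_le_left_of_le_normalizer hP
  have hAR : A ≤ normalizer (R : Set G) := right_le_normalizer_commutator Q A
  have hsQ : Group.IsSolvable Q := by
    haveI := hQp.isNilpotent
    infer_instance
  have hRA : ⁅R, A⁆ = R := commutator_commutator_eq A Q hP hcopQ (Or.inr hsQ)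
  have hcopR : (Nat.card A).Coprime (Nat.card R) :=
    Nat.Coprime.coprime_dvd_right (card_dvd_of_le hRQ) hcopQ
  have hRp : IsPGroup p R := hQp.to_le hRQ
  have hRne : R ≠ ⊥ := by
    intro h
    rw [hR, commutator_comm, commutator_eq_bot_iff_le_centralizer] at h
    apply hne1
    rw [relIndex_eq_one]
    refine le_inf le_rfl (le_inf hQK ?_)
    intro x hx
    rw [mem_centralizer_iff]
    intro a ha
    exact (mem_centralizer_iff.1 (h ha) x hx).symm
  -- `R` is abelian
  have hER : (C.relIndex R) ≤ p := by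
    rw [← hidx]
    exact relIndex_le_of_le_right (hRQ.trans hQK) (by rw [hidx]; exact hp.ne_zero)
  have hCen : C.subgroupOf R ≤ center R := by
    intro x hx
    rw [mem_center_iff]
    intro y
    apply Subtype.ext
    have h4 : (x : G) ∈ D := ⟨hRQ x.2, mem_subgroupOf.1 hx⟩
    have h5 := commutator_eq_bot_iff_le_centralizer.1 h3 y.2
    exact (mem_centralizer_iff.1 h5 x h4).symm
  have hRab : IsMulCommutative R := by
    haveI : (C.subgroupOf R).Normal := by
      refine ⟨fun n hn g => ?_⟩
      have h4 := mem_center_iff.1 (hCen hn) g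
      rw [h4, mul_inv_cancel_right]; exact hn
    have hcyc : IsCyclic (R ⧸ C.subgroupOf R) := by
      have h4 : Nat.card (R ⧸ C.subgroupOf R) ≤ p := hER
      have h5 : ∃ n : ℕ, Nat.card (R ⧸ C.subgroupOf R) = p ^ n := by
        haveI : IsPGroup p (R ⧸ C.subgroupOf R) := hRp.to_quotient _
        exact IsPGroup.iff_card.1 this
      obtain ⟨n, hn⟩ := h5
      rcases n with _ | n
      · rw [pow_zero] at hn
        haveI : Subsingleton (R ⧸ C.subgroupOf R) := (Nat.card_eq_one_iff_unique.1 hn).1
        infer_instance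
      · rcases n with _ | n
        · rw [zero_add, pow_one] at hn
          exact isCyclic_of_prime_card hn
        · exfalso
          have h6 : p ^ 2 ≤ p := by
            calc p ^ 2 ≤ p ^ (n + 1 + 1) := Nat.pow_le_pow_right hp.pos (by omega)
              _ = Nat.card (R ⧸ C.subgroupOf R) := hn.symm
              _ ≤ p := h4
          nlinarith [hp.one_lt]
    refine ⟨⟨fun a b => ?_⟩⟩
    exact commutative_of_cyclic_center_quotient (QuotientGroup.mk' (C.subgroupOf R))
      (by rw [QuotientGroup.ker_mk']; exact hCen) a b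
  have hdec := (abelian_coprime_decomposition A R hAR hcopR).1
  rw [hRA] at hdec
  have hRC : R ⊓ C = ⊥ := by
    rw [eq_bot_iff, ← hdec]
    rintro x ⟨hx1, hx2⟩
    exact ⟨⟨hx1, hx2.2⟩, hx1⟩
  have hcardR : Nat.card R = p := by
    have h4 : C.relIndex R = Nat.card R := by
      rw [← inf_relIndex_left R C, hRC, relIndex_bot_left]
    rw [h4] at hER
    obtain ⟨n, hn⟩ := IsPGroup.iff_card.1 hRp
    rcases n with _ | n
    · rw [pow_zero] at hn; exact absurd (Subgroup.card_eq_one.1 hn) hRne
    · have h5 : p ∣ Nat.card R := by rw [hn, pow_succ]; exact dvd_mul_left _ _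
      exact le_antisymm hER (Nat.le_of_dvd Nat.card_pos h5)
  -- `K = R C`
  have hsurj : ∀ k ∈ K, ∃ r ∈ R, ∃ c ∈ C, k = r * c := by
    let f : R × C → K := fun x => ⟨(x.1 : G) * x.2, mul_mem (hQK (hRQ x.1.2)) (hCK x.2.2)⟩
    have hinj : Function.Injective f := by
      rintro ⟨a, b⟩ ⟨c, d⟩ h
      have h4 : (a : G) * b = c * d := congrArg Subtype.val h
      have h5 : (c : G)⁻¹ * a = d * (b : G)⁻¹ := by
        rw [inv_mul_eq_iff_eq_mul, ← mul_assoc, ← h4]; group
      have h6 : (c : G)⁻¹ * a ∈ R ⊓ C := Subgroup.mem_inf.2 ⟨mul_mem (inv_mem c.2) a.2, by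
        rw [h5]; exact mul_mem d.2 (inv_mem b.2)⟩
      rw [hRC, mem_bot] at h6
      rw [h6] at h5
      have h7 : a = c := Subtype.ext (inv_mul_eq_one.1 h6).symm
      have h8 : b = d := Subtype.ext (mul_inv_eq_one.1 h5.symm).symm
      rw [h7, h8]
    have hcard : Nat.card (R × C) = Nat.card K := by
      have h4 := (C.subgroupOf K).card_mul_index
      have h5 : (C.subgroupOf K).index = p := hidx
      rw [card_subgroupOf hCK, h5] at h4
      rw [Nat.card_prod, hcardR, ← h4, mul_comm]
    have hbij := (Nat.bijective_iff_injective_and_card f).2 ⟨hinj, hcard⟩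
    intro k hk
    obtain ⟨⟨r, c⟩, h⟩ := hbij.2 ⟨k, hk⟩
    exact ⟨r, r.2, c, c.2, (congrArg Subtype.val h).symm⟩
  have hfin : ⁅K, A⁆ = R := by
    apply le_antisymm
    · rw [commutator_le]
      intro k hk a ha
      obtain ⟨r, hr, c, hc, rfl⟩ := hsurj k hk
      have h4 : ⁅r * c, a⁆ = ⁅r, a⁆ := by
        simp only [commutatorElement_def, mul_inv_rev]
        calc r * c * a * (c⁻¹ * r⁻¹) * a⁻¹ = r * (c * a) * c⁻¹ * r⁻¹ * a⁻¹ := by group
          _ = r * (a * c) * c⁻¹ * r⁻¹ * a⁻¹ := by rw [hCA c hc a ha]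
          _ = r * a * r⁻¹ * a⁻¹ := by group
      rw [h4]
      have h5 := commutator_mem_commutator hr ha
      rw [hRA] at h5
      exact h5
    · exact commutator_mono hQK le_rfl
  rw [hfin, hcardR]

end Cfsg.Agent.H1
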