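import Mathlib
import Cfsg.Agent.H2.Basic

set_option autoImplicit false

/-! Unitriangular matrices and root elements in `SL_n(K)` (helper1). -/

namespace Cfsg.Agent.H1.SLn

open Matrix

variable {n : ℕ} {K : Type*} [Field K]

local notation "SL" => Matrix.SpecialLinearGroup (Fin n) K
local notation "Mn" => Matrix (Fin n) (Fin n) K

/-- column transvection `1 + v ⊗ e_a` -/
def colM (a : Fin n) (v : Fin n → K) : Mn := Matrix.of fun r s => (1 : Mn) r s + if s = a then v r else 0

theorem colM_apply (a : Fin n) (v : Fin n → K) (r s : Fin n) :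
    colM a v r s = (1 : Mn) r s + if s = a then v r else 0 := rfl

theorem colM_det {a : Fin n} {v : Fin n → K} (hv : v a = 0) : (colM a v).det = 1 := by
  have h1 : colM a v = 1 + Matrix.replicateCol Unit v * Matrix.replicateRow Unit (Pi.single a (1 : K)) := by
    ext r s
    rw [colM_apply, Matrix.add_apply, Matrix.mul_apply]
    simp [Pi.single_apply]
  rw [h1, Matrix.det_one_add_replicateCol_mul_replicateRow]
  simp [hv]

theorem colM_mul_apply (a : Fin n) (v : Fin n → K) (M : Mn) (r s : Fin n) :
    (colM a v * M) r s = M r s + v r * M a s := by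
  rw [Matrix.mul_apply]
  have h1 : ∀ k : Fin n, colM a v r k * M k s = (1 : Mn) r k * M k s + (if k = a then v r * M k s else 0) := by
    intro k
    rw [colM_apply, add_mul]
    congr 1
    split_ifs <;> simp
  simp_rw [h1]
  rw [Finset.sum_add_distrib, ← Matrix.mul_apply, Matrix.one_mul]
  congr 1
  rw [Finset.sum_ite_eq' Finset.univ a]
  simp

theorem mul_colM_apply (a : Fin n) (v : Fin n → K) (M : Mn) (r s : Fin n) :
    (M * colM a v) r s = M r s + if s = a then (M.mulVec v) r else 0 := by
  rw [Matrix.mul_apply]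
  have h1 : ∀ k : Fin n, M r k * colM a v k s = M r k * (1 : Mn) k s + (if s = a then M r k * v k else 0) := by
    intro k
    rw [colM_apply, mul_add]
    congr 1
    split_ifs <;> simp
  simp_rw [h1]
  rw [Finset.sum_add_distrib, ← Matrix.mul_apply, Matrix.mul_one]
  congr 1
  split_ifs with h
  · rfl
  · simp

/-- as an element of `SL_n` -/
def cE (a : Fin n) (v : Fin n → K) (hv : v a = 0) : SL := ⟨colM a v, colM_det hv⟩

theorem cE_coe (a : Fin n) (v : Fin n → K) (hv : v a = 0) : ((cE a v hv : SL) : Mn) = colM a v := rfl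

theorem cE_mul {a : Fin n} {v w : Fin n → K} (hv : v a = 0) (hw : w a = 0) :
    cE a v hv * cE a w hw = cE a (v + w) (by rw [Pi.add_apply, hv, hw, add_zero]) := by
  apply Subtype.ext
  show colM a v * colM a w = colM a (v + w)
  ext r s
  rw [colM_mul_apply, colM_apply, colM_apply, colM_apply, hw]
  by_cases hs : s = a
  · subst hs
    rw [Matrix.one_apply_eq]
    simp only [if_true, Pi.add_apply, add_zero]
    ring
  · rw [Matrix.one_apply_ne (fun h => hs h.symm)]
    simp [hs]

theorem cE_zero (a : Fin n) : cE a (0 : Fin n → K) rfl = 1 := by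
  apply Subtype.ext
  show colM a 0 = 1
  ext r s
  rw [colM_apply]; simp

theorem cE_inv {a : Fin n} {v : Fin n → K} (hv : v a = 0) :
    (cE a v hv)⁻¹ = cE a (-v) (by rw [Pi.neg_apply, hv, neg_zero]) := by
  rw [inv_eq_iff_mul_eq_one, cE_mul]
  have : v + -v = 0 := by abel
  simp only [this]
  exact cE_zero a

theorem cE_pow {a : Fin n} {v : Fin n → K} (hv : v a = 0) (k : ℕ) :
    (cE a v hv) ^ k = cE a ((k : K) • v) (by rw [Pi.smul_apply, hv, smul_zero]) := by
  induction k with
  | zero =>
    rw [pow_zero]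
    have : ((0 : ℕ) : K) • v = 0 := by simp
    simp only [this]
    exact (cE_zero a).symm
  | succ k ih =>
    rw [pow_succ, ih, cE_mul]
    congr 1
    push_cast
    rw [add_smul, one_smul]

/-- root elements -/
theorem single_ne {i j : Fin n} (hij : i ≠ j) (c : K) : (Pi.single i c : Fin n → K) j = 0 := by
  simp [Pi.single_apply, hij.symm]

def xr (i j : Fin n) (hij : i ≠ j) (c : K) : SL := cE j (Pi.single i c) (single_ne hij c)

theorem xr_apply {i j : Fin n} (hij : i ≠ j) (c : K) (r s : Fin n) :
    ((xr i j hij c : SL) : Mn) r s = (1 : Mn) r s + if s = j ∧ r = i then c else 0 := by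
  show colM j (Pi.single i c) r s = _
  rw [colM_apply, Pi.single_apply]
  by_cases h1 : s = j <;> by_cases h2 : r = i <;> simp [h1, h2]

theorem xr_mul_apply {i j : Fin n} (hij : i ≠ j) (c : K) (M : Mn) (r s : Fin n) :
    (((xr i j hij c : SL) : Mn) * M) r s = M r s + if r = i then c * M j s else 0 := by
  show (colM j (Pi.single i c) * M) r s = _
  rw [colM_mul_apply, Pi.single_apply]
  split_ifs <;> simp

theorem mul_xr_apply {i j : Fin n} (hij : i ≠ j) (c : K) (M : Mn) (r s : Fin n) :
    (M * ((xr i j hij c : SL) : Mn)) r s = M r s + if s = j then M r i * c else 0 := by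
  show (M * colM j (Pi.single i c)) r s = _
  rw [mul_colM_apply]
  congr 1
  split_ifs
  · rw [Matrix.mulVec_single]; simp
  · rfl

theorem xr_inv {i j : Fin n} (hij : i ≠ j) (c : K) : (xr i j hij c : SL)⁻¹ = xr i j hij (-c) := by
  unfold xr
  rw [cE_inv]
  congr 1
  rw [← Pi.single_neg]

theorem xr_zero {i j : Fin n} (hij : i ≠ j) : (xr i j hij 0 : SL) = 1 := by
  unfold xr
  simp only [Pi.single_zero]
  exact cE_zero j

theorem xr_p {p : ℕ} [CharP K p] {i j : Fin n} (hij : i ≠ j) (c : K) : (xr i j hij c : SL) ^ p = 1 := by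
  unfold xr
  rw [cE_pow]
  simp only [CharP.cast_eq_zero, zero_smul]
  exact cE_zero j

/-- two permutations: a permutation with prescribed values at two points -/
theorem exists_perm {lo hi i j : Fin n} (hlh : lo ≠ hi) (hij : i ≠ j) : ∃ σ : Equiv.Perm (Fin n), σ lo = i ∧ σ hi = j := by
  refine ⟨Equiv.swap (Equiv.swap lo i hi) j * Equiv.swap lo i, ?_, ?_⟩
  · rw [Equiv.Perm.mul_apply, Equiv.swap_apply_left]
    apply Equiv.swap_apply_of_ne_of_ne
    · intro h
      apply hlh
      have h2 := congrArg (Equiv.swap lo i) h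
      rw [Equiv.swap_apply_right, Equiv.swap_apply_self] at h2
      exact h2
    · exact hij
  · rw [Equiv.Perm.mul_apply, Equiv.swap_apply_left]

/-- all root elements are conjugate (`n ≥ 3`) -/
theorem xr_conj {lo hi i j k : Fin n} (hlh : lo ≠ hi) (hij : i ≠ j) (hki : k ≠ i) (hkj : k ≠ j) {a b : K} (ha : a ≠ 0)
    (hb : b ≠ 0) : ∃ g : SL, g * xr lo hi hlh a * g⁻¹ = xr i j hij b := by
  obtain ⟨σ, h1, h2⟩ := exists_perm hlh hij
  obtain ⟨s, hs⟩ : ∃ s : K, s = ((Equiv.Perm.sign σ : ℤˣ) : ℤ) := ⟨_, rfl⟩
  have hss : s * s = 1 := by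
    rw [hs, ← Int.cast_mul, ← Units.val_mul, Int.units_mul_self]; simp
  let d : Fin n → K := fun r => if r = i then b / a else if r = k then s * (a / b) else 1
  have hd : ∏ r, d r = s := by
    have h3 : ∀ r, d r = (if r = i then b / a else 1) * (if r = k then s * (a / b) else 1) := by
      intro r
      by_cases hr : r = i
      · have : r ≠ k := by rw [hr]; exact hki.symm
        simp [d, hr, hki.symm]
      · by_cases hr' : r = k
        · simp [d, hr', hki]
        · simp [d, hr, hr']
    rw [Finset.prod_congr rfl (fun r _ => h3 r), Finset.prod_mul_distrib, Finset.prod_ite_eq', Finset.prod_ite_eq']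
    simp only [Finset.mem_univ, if_true]
    field_simp
  let M : Mn := Matrix.diagonal d * (σ⁻¹).permMatrix K
  have hM : ∀ r t, M r t = d r * (if σ⁻¹ r = t then 1 else 0) := by
    intro r t
    show (Matrix.diagonal d * (σ⁻¹).permMatrix K) r t = _
    rw [Matrix.diagonal_mul]
    congr 1
    simp [Equiv.Perm.permMatrix, PEquiv.toMatrix_apply, Equiv.toPEquiv_apply, eq_comm]
  have hdet : M.det = 1 := by
    show (Matrix.diagonal d * (σ⁻¹).permMatrix K).det = 1
    rw [Matrix.det_mul, Matrix.det_diagonal, hd, Matrix.det_permutation, Equiv.Perm.sign_inv, ← hs, hss]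
  refine ⟨(⟨M, hdet⟩ : SL), ?_⟩
  refine mul_inv_eq_iff_eq_mul.2 ?_
  apply Subtype.ext
  show M * ((xr lo hi hlh a : SL) : Mn) = ((xr i j hij b : SL) : Mn) * M
  ext r t
  rw [mul_xr_apply, xr_mul_apply]
  congr 1
  rw [hM, hM]
  have e1 : σ⁻¹ j = hi := by rw [← h2]; simp
  have e2 : σ⁻¹ r = lo ↔ r = i := by
    rw [← h1]; constructor
    · intro h; rw [← h]; simp
    · intro h; rw [h]; simp
  rw [e1]
  have e3 : d i = b / a := by simp [d]
  have e4 : d j = 1 := by simp [d, hij.symm, hkj.symm]
  by_cases ht : t = hi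
  · by_cases hr : r = i
    · rw [if_pos ht, if_pos (e2.2 hr), if_pos hr, if_pos ht.symm, hr, e3, e4]
      field_simp
    · rw [if_pos ht, if_neg (fun h => hr (e2.1 h)), if_neg hr, mul_zero, zero_mul]
  · have ht' : ¬ hi = t := fun h => ht h.symm
    simp [ht, ht']

/-- unitriangular -/
def IsU (g : Mn) : Prop := ∀ i j, j ≤ i → g i j = (1 : Mn) i j

theorem IsU.one : IsU (1 : Mn) := fun _ _ _ => rfl

theorem IsU.mul {g h : Mn} (hg : IsU g) (hh : IsU h) : IsU (g * h) := by
  intro i j hji
  rw [Matrix.mul_apply]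
  have h1 : ∀ k, g i k * h k j = (1 : Mn) i k * (1 : Mn) k j := by
    intro k
    rcases le_or_gt k i with hk | hk
    · rcases le_or_gt j k with hk' | hk'
      · rw [hg i k hk, hh k j hk']
      · have e1 : (1 : Mn) i k = 0 := Matrix.one_apply_ne (by rintro rfl; exact absurd hji (not_le.2 hk'))
        rw [hg i k hk, e1, zero_mul, zero_mul]
    · have e1 : (1 : Mn) k j = 0 := Matrix.one_apply_ne (by rintro rfl; exact absurd hji (not_le.2 hk))
      rw [hh k j (hji.trans hk.le), e1, mul_zero, mul_zero]
  rw [Finset.sum_congr rfl (fun k _ => h1 k), ← Matrix.mul_apply, Matrix.one_mul]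

theorem IsU.pow {g : Mn} (hg : IsU g) (k : ℕ) : IsU (g ^ k) := by
  induction k with
  | zero => rw [pow_zero]; exact IsU.one
  | succ k ih => rw [pow_succ]; exact ih.mul hg

variable [Finite K]

/-- the unitriangular group -/
def UU (n : ℕ) (K : Type*) [Field K] [Finite K] : Subgroup (Matrix.SpecialLinearGroup (Fin n) K) where
  carrier := {g | IsU (g : Matrix (Fin n) (Fin n) K)}
  one_mem' := IsU.one
  mul_mem' := fun hg hh => IsU.mul hg hh
  inv_mem' := by
    intro g hg
    have h1 : g⁻¹ = g ^ (orderOf g - 1) := by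
      rw [inv_eq_iff_mul_eq_one, ← pow_succ']
      have : orderOf g - 1 + 1 = orderOf g := Nat.sub_add_cancel (orderOf_pos g)
      rw [this, pow_orderOf_eq_one]
    rw [h1]
    show IsU ((g ^ (orderOf g - 1) : Matrix.SpecialLinearGroup (Fin n) K) : Matrix (Fin n) (Fin n) K)
    rw [Matrix.SpecialLinearGroup.coe_pow]
    exact IsU.pow hg _

theorem mem_UU {g : SL} : g ∈ UU n K ↔ IsU (g : Mn) := Iff.rfl

theorem cE_mem {a : Fin n} {v : Fin n → K} (hv : ∀ r, a ≤ r → v r = 0) : cE a v (hv a le_rfl) ∈ UU n K := by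
  intro i j hji
  show colM a v i j = _
  rw [colM_apply]
  by_cases hj : j = a
  · rw [if_pos hj, hv i (by rw [← hj]; exact hji), add_zero]
  · rw [if_neg hj, add_zero]

theorem xr_mem {i j : Fin n} (hij : i < j) (c : K) : xr i j hij.ne c ∈ UU n K := by
  apply cE_mem
  intro r hr
  rw [Pi.single_apply, if_neg]
  rintro rfl
  exact absurd hr (not_le.2 hij)

/-- a subgroup containing all root elements contains `U` -/
theorem UU_le {T : Subgroup (SL)} (hT : ∀ i j : Fin n, ∀ hij : i < j, ∀ c : K, xr i j hij.ne c ∈ T) : UU n K ≤ T := by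
  -- columns
  have hcol : ∀ (a : Fin n) (v : Fin n → K) (hv : ∀ r, a ≤ r → v r = 0), cE a v (hv a le_rfl) ∈ T := by
    intro a v hv
    have key : ∃ h : (∑ i, Pi.single i (v i) : Fin n → K) a = 0, cE a (∑ i, Pi.single i (v i)) h ∈ T := by
      apply Finset.sum_induction (fun i => (Pi.single i (v i) : Fin n → K))
        (fun w : Fin n → K => ∃ h : w a = 0, cE a w h ∈ T)
      · rintro v w ⟨h1, h2⟩ ⟨h3, h4⟩
        refine ⟨by rw [Pi.add_apply, h1, h3, add_zero], ?_⟩
        have := mul_mem h2 h4
        rwa [cE_mul] at this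
      · exact ⟨rfl, by rw [cE_zero]; exact one_mem _⟩
      · intro i _
        rcases lt_or_ge i a with hi | hi
        · exact ⟨single_ne hi.ne _, hT i a hi (v i)⟩
        · have h0 : (Pi.single i (v i) : Fin n → K) = 0 := by rw [hv i hi, Pi.single_zero]
          rw [h0]
          exact ⟨rfl, by rw [cE_zero]; exact one_mem _⟩
    have hsum : (∑ i, Pi.single i (v i) : Fin n → K) = v := Finset.univ_sum_single v
    obtain ⟨h, hk⟩ := key
    convert hk using 2
    exact hsum.symm
  have key : ∀ s : Finset (Fin n), ∀ g : SL, g ∈ UU n K → (∀ j ∉ s, ∀ i, i < j → (g : Mn) i j = 0) → g ∈ T := by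
    intro s
    induction s using Finset.induction_on_max with
    | empty =>
      intro g hg h
      have : g = 1 := by
        apply Subtype.ext
        ext i j
        rcases le_or_gt j i with hji | hji
        · rw [hg i j hji]; rfl
        · rw [h j (by simp) i hji]
          exact (Matrix.one_apply_ne hji.ne).symm
      rw [this]; exact one_mem _
    | insert a s hs ih =>
      intro g hg h
      obtain ⟨v, hv⟩ : ∃ v : Fin n → K, v = fun r => if r < a then (g : Mn) r a else 0 := ⟨_, rfl⟩
      have hv0 : ∀ r, a ≤ r → v r = 0 := by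
        intro r hr; rw [hv]; simp [not_lt.2 hr]
      have hva : ∀ r, r < a → v r = (g : Mn) r a := by
        intro r hr; rw [hv]; simp [hr]
      have hrow : ∀ t, (g : Mn) a t = (1 : Mn) a t := by
        intro t
        rcases le_or_gt t a with ht | ht
        · exact hg a t ht
        · rw [h t ?_ a ht, Matrix.one_apply_ne ht.ne]
          rw [Finset.mem_insert, not_or]
          exact ⟨ht.ne', fun h2 => absurd (hs t h2) (not_lt.2 ht.le)⟩
      have hc := hcol a v hv0
      have h1 : (cE a v (hv0 a le_rfl))⁻¹ * g ∈ T := by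
        apply ih
        · exact mul_mem (inv_mem (cE_mem hv0)) hg
        · intro j hj i hij
          rw [cE_inv]
          show (colM a (-v) * (g : Mn)) i j = 0
          rw [colM_mul_apply, hrow, Pi.neg_apply]
          by_cases hja : j = a
          · subst hja
            rw [Matrix.one_apply_eq, hva i hij]; ring
          · rw [Matrix.one_apply_ne (fun h => hja h.symm), h j (by rw [Finset.mem_insert, not_or]; exact ⟨hja, hj⟩) i hij]
            ring
      have h2 : g = cE a v (hv0 a le_rfl) * ((cE a v (hv0 a le_rfl))⁻¹ * g) := by group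
      rw [h2]; exact mul_mem hc h1
  intro g hg
  exact key Finset.univ g hg (fun j hj => absurd (Finset.mem_univ j) hj)

end Cfsg.Agent.H1.SLn
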