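import Cfsg.Agent.H1.Part
import Cfsg.Agent.H1.Coprime
import Cfsg.Agent.H1.Chief

/-!
# Products of nilpotent groups of coprime orders (helper1)

Analysis of a minimal counterexample to Wielandt's theorem.
-/

set_option autoImplicit false
set_option linter.all false

open Cfsg

namespace Cfsg.Agent.H1

open Subgroup
open scoped Pointwise commutatorElement

universe u v

/-- The minimal counterexample situation. -/
structure WSetup {G : Type*} [Group G] (A B : Subgroup G) : Prop where
  nilA : Group.IsNilpotent A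
  nilB : Group.IsNilpotent B
  cop : (Nat.card A).Coprime (Nat.card B)
  fac : ∀ g : G, ∃ a ∈ A, ∃ b ∈ B, g = a * b
  simp : ∀ N : Subgroup G, N.Normal → N = ⊥ ∨ N = ⊤
  minS : ∀ U : Subgroup G, U ≠ ⊤ → (∀ g ∈ U, ∃ a ∈ A ⊓ U, ∃ b ∈ B ⊓ U, g = a * b) →
    Group.IsSolvable U
  gen : ∀ (p q : ℕ) [Fact p.Prime] [Fact q.Prime], p ∣ Nat.card A → q ∣ Nat.card B →
    ∀ x y : G, MulAut.conj x • part p A ⊔ MulAut.conj y • part q B = ⊤
  twoA : ∀ p : ℕ, ∃ r, r.Prime ∧ r ∣ Nat.card A ∧ r ≠ p
  twoB : ∀ p : ℕ, ∃ r, r.Prime ∧ r ∣ Nat.card B ∧ r ≠ p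

namespace WSetup

variable {G : Type*} [Group G] [Finite G] {A B : Subgroup G}

omit [Finite G] in
theorem symm (h : WSetup A B) : WSetup B A where
  nilA := h.nilB
  nilB := h.nilA
  cop := h.cop.symm
  fac := factor_comm h.fac
  simp := h.simp
  minS := by
    intro U hU hf
    refine h.minS U hU ?_
    intro g hg
    obtain ⟨b, hb, a, ha, he⟩ := hf g⁻¹ (inv_mem hg)
    refine ⟨a⁻¹, inv_mem ha, b⁻¹, inv_mem hb, ?_⟩
    rw [← mul_inv_rev, ← he, inv_inv]
  gen := by
    intro p q _ _ hp hq x y
    rw [sup_comm]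
    exact h.gen q p hq hp y x
  twoA := h.twoB
  twoB := h.twoA

theorem inf_eq_bot (h : WSetup A B) : A ⊓ B = ⊥ := inf_eq_bot_of_card_coprime h.cop

theorem card_eq (h : WSetup A B) : Nat.card G = Nat.card A * Nat.card B := by
  have h1 := card_of_factor h.fac
  rwa [h.inf_eq_bot, Subgroup.card_bot, mul_one] at h1

theorem indexA (h : WSetup A B) : A.index = Nat.card B := by
  have h1 := A.card_mul_index
  rw [h.card_eq] at h1
  exact Nat.eq_of_mul_eq_mul_left Nat.card_pos h1

theorem indexB (h : WSetup A B) : B.index = Nat.card A := h.symm.indexA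

theorem hallA (h : WSetup A B) : (Nat.card A).Coprime A.index := by rw [h.indexA]; exact h.cop

theorem hallB (h : WSetup A B) : (Nat.card B).Coprime B.index := h.symm.hallA

theorem not_dvd_B (h : WSetup A B) {p : ℕ} (hp : p.Prime) (hpA : p ∣ Nat.card A) :
    ¬ p ∣ Nat.card B := by
  intro hpB
  have := Nat.dvd_gcd hpA hpB
  rw [h.cop] at this
  exact hp.not_dvd_one this

theorem dvd_or (h : WSetup A B) {p : ℕ} (hp : p.Prime) (hpG : p ∣ Nat.card G) :
    p ∣ Nat.card A ∨ p ∣ Nat.card B := by
  rw [h.card_eq] at hpG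
  exact hp.dvd_mul.mp hpG

theorem not_dvd_index_part (h : WSetup A B) {p : ℕ} [hp : Fact p.Prime] (hpA : p ∣ Nat.card A) :
    ¬ p ∣ (part p A).index := H1.not_dvd_index_part h.nilA h.hallA hpA

/-- A `π(B)`-subgroup normalized by a Sylow `r`-subgroup, `r ∈ π(A)`, is trivial (prime power
case). -/
theorem no_norm (h : WSetup A B) {q r : ℕ} [hq : Fact q.Prime] [hr : Fact r.Prime]
    (hqB : q ∣ Nat.card B) (hrA : r ∣ Nat.card A) {Q : Subgroup G} (hQ : IsPGroup q Q) (x : G)
    (hn : MulAut.conj x • part r A ≤ normalizer (Q : Set G)) : Q = ⊥ := by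
  obtain ⟨s, hs, hsB, hsq⟩ := h.twoB q
  haveI : Fact s.Prime := ⟨hs⟩
  obtain ⟨g, hg⟩ := exists_conj_le_of_not_dvd_index hQ (h.symm.not_dvd_index_part hqB)
  have h1 : MulAut.conj g⁻¹ • part s B ≤ centralizer (Q : Set G) := by
    intro t ht
    rw [mem_conj_smul, inv_inv] at ht
    rw [Subgroup.mem_centralizer_iff]
    intro y hy
    have h2 : g * y * g⁻¹ ∈ part q B := hg (conj_mem_conj_smul hy)
    have h3 := Subgroup.mem_centralizer_iff.mp
      (part_le_centralizer_part (p := q) (q := s) (A := B) (Ne.symm hsq) ht) _ h2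
    calc y * t = g⁻¹ * ((g * y * g⁻¹) * (g * t * g⁻¹)) * g := by group
      _ = g⁻¹ * ((g * t * g⁻¹) * (g * y * g⁻¹)) * g := by rw [h3]
      _ = t * y := by group
  have h2 : normalizer (Q : Set G) = ⊤ := by
    rw [← top_le_iff, ← h.gen r s hrA hsB x g⁻¹]
    exact sup_le hn (h1.trans (Subgroup.centralizer_le_normalizer _))
  have h3 : Q.Normal := normalizer_eq_top_iff.mp h2
  rcases h.simp Q h3 with h4 | h4
  · exact h4
  · exfalso
    subst h4
    obtain ⟨k, hk⟩ := IsPGroup.iff_card.mp hQ
    rw [Subgroup.card_top] at hk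
    have h5 : r ∣ Nat.card G := hrA.trans (Subgroup.card_subgroup_dvd_card A)
    rw [hk] at h5
    have h6 : r = q := (Nat.prime_dvd_prime_iff_eq hr.out hq.out).mp (hr.out.dvd_of_dvd_pow h5)
    subst h6
    exact h.not_dvd_B hr.out hrA hqB

/-- A subgroup of order prime to `r` normalized by a Sylow `r`-subgroup has order dividing a power
of `|A|`. -/
theorem no_norm' (h : WSetup A B) {r : ℕ} [hr : Fact r.Prime] (hrA : r ∣ Nat.card A)
    {K : Subgroup G} (hK : ¬ r ∣ Nat.card K) (hn : part r A ≤ normalizer (K : Set G)) {q : ℕ}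
    (hq : q.Prime) (hqB : q ∣ Nat.card B) : ¬ q ∣ Nat.card K := by
  intro hqK
  haveI : Fact q.Prime := ⟨hq⟩
  have hcop : (Nat.card (part r A)).Coprime (Nat.card K) := by
    obtain ⟨k, hk⟩ := IsPGroup.iff_card.mp (part_isPGroup r A)
    rw [hk]
    exact Nat.Coprime.pow_left _ ((Nat.Prime.coprime_iff_not_dvd hr.out).mpr hK)
  have hs : Group.IsSolvable (part r A) := by
    haveI := (part_isPGroup r A).isNilpotent
    infer_instance
  obtain ⟨P, hP⟩ := exists_invariant_sylow (part r A) K hn hcop (Or.inl hs) q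
  have h1 : (P : Subgroup K).map K.subtype = ⊥ :=
    h.no_norm hqB hrA (P.isPGroup'.map _) 1 (by rw [conj_one_smul]; exact hP)
  have h2 : (P : Subgroup K) = ⊥ := (Subgroup.map_eq_bot_iff_of_injective _ K.subtype_injective).mp h1
  have h3 := P.not_dvd_index
  rw [h2, Subgroup.index_bot] at h3
  exact h3 hqK

theorem centralizer_part_le (h : WSetup A B) {r : ℕ} [hr : Fact r.Prime] (hrA : r ∣ Nat.card A) :
    centralizer (part r A : Set G) ≤ A := by
  set C := centralizer (part r A : Set G) with hC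
  have hC1 : ∀ q : ℕ, q.Prime → q ∣ Nat.card C → ¬ q ∣ Nat.card B := by
    intro q hq hqC hqB
    haveI : Fact q.Prime := ⟨hq⟩
    obtain ⟨c, hc, hco⟩ := exists_mem_orderOf_prime hq hqC
    have h1 := h.no_norm hqB hrA (Q := zpowers c)
      (isPGroup_zpowers_of_orderOf (k := 1) (by rw [hco, pow_one])) 1 (by
        rw [conj_one_smul]
        refine le_trans ?_ (Subgroup.centralizer_le_normalizer _)
        intro a ha
        rw [Subgroup.mem_centralizer_iff]
        intro y hy
        obtain ⟨k, rfl⟩ := Subgroup.mem_zpowers_iff.mp hy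
        have h2 : a * c = c * a := Subgroup.mem_centralizer_iff.mp hc a ha
        exact ((Commute.zpow_right (show Commute a c from h2) k).eq).symm)
    rw [Subgroup.zpowers_eq_bot] at h1
    rw [h1, orderOf_one] at hco
    exact hq.one_lt.ne hco
  have hAC : A ≤ normalizer (C : Set G) := by
    have h1 : A ≤ normalizer (part r A : Set G) := le_normalizer_part r A
    intro a ha
    rw [mem_normalizer_iff_conj_smul, hC, conj_smul_centralizer,
      mem_normalizer_iff_conj_smul.mp (h1 ha)]
  have h1 : Nat.card (A ⊔ C : Subgroup G) ∣ Nat.card A * Nat.card C :=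
    card_sup_dvd_of_le_normalizer A C hAC
  have h2 : (Nat.card (A ⊔ C : Subgroup G)).Coprime (Nat.card B) :=
    Nat.Coprime.coprime_dvd_left h1 (Nat.Coprime.mul_left h.cop (coprime_of_forall_prime hC1))
  have h3 : A.relIndex (A ⊔ C) ∣ Nat.card B := by
    rw [← h.indexA]; exact Subgroup.relIndex_dvd_index_of_le le_sup_left
  have h4 : A.relIndex (A ⊔ C) = 1 :=
    Nat.eq_one_of_dvd_coprimes h2 (Subgroup.relIndex_dvd_card _ _) h3
  exact le_sup_right.trans (Subgroup.relIndex_eq_one.mp h4)

theorem normalizer_part_le (h : WSetup A B) {r : ℕ} [hr : Fact r.Prime] (hrA : r ∣ Nat.card A) :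
    normalizer (part r A : Set G) ≤ normalizer (A : Set G) := by
  intro g hg
  have key : ∀ g ∈ normalizer (part r A : Set G), A ≤ MulAut.conj g⁻¹ • A := by
    intro g hg
    apply le_of_part_le h.nilA
    intro t ht htA
    have h1 : MulAut.conj g • part t A ≤ part t A := by
      by_cases htr : t = r
      · subst htr
        exact (mem_normalizer_iff_conj_smul.mp hg).le
      · apply conj_part_le h.nilA le_rfl
        refine le_trans ?_ (h.centralizer_part_le hrA)
        have h2 : part t A ≤ centralizer (part r A : Set G) :=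
          part_le_centralizer_part (p := r) (q := t) (Ne.symm htr)
        have h3 := conj_smul_le_conj_smul_iff (g := g) |>.mpr h2
        rwa [conj_smul_centralizer, mem_normalizer_iff_conj_smul.mp hg] at h3
    have h4 : part t A ≤ MulAut.conj g⁻¹ • part t A := by
      rw [map_inv]
      exact Subgroup.pointwise_smul_subset_iff.mp h1
    exact h4.trans (conj_smul_le_conj_smul_iff.mpr (part_le t A))
  have h1 := key g⁻¹ (inv_mem hg)
  rw [inv_inv] at h1
  rw [mem_normalizer_iff_conj_smul]
  exact (Subgroup.eq_of_le_of_card_ge h1 (by rw [card_conj_smul])).symm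

/-- strong control of fusion of `p`-elements, `p ∈ π(A)` -/
theorem fusion (h : WSetup A B) {p : ℕ} [hp : Fact p.Prime] {x : G} (hx : x ∈ part p A)
    (g : G) (hg : x ∈ MulAut.conj g • part p A) :
    ∃ c ∈ centralizer ({x} : Set G), c * g ∈ normalizer (A : Set G) := by
  obtain ⟨r, hr, hrA, hrp⟩ := h.twoA p
  haveI : Fact r.Prime := ⟨hr⟩
  set S : Sylow r G := (part_isPGroup r A).toSylow (h.not_dvd_index_part hrA) with hS
  have hSc : (S : Subgroup G) = part r A := IsPGroup.toSylow_coe _ _
  have h1 : (S : Subgroup G) ≤ centralizer ({x} : Set G) := by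
    rw [hSc]
    intro t ht
    rw [Subgroup.mem_centralizer_singleton_iff]
    exact (Subgroup.mem_centralizer_iff.mp
      (part_le_centralizer_part (p := p) (q := r) (Ne.symm hrp) ht) x hx).symm
  have h2 : ((g • S : Sylow r G) : Subgroup G) ≤ centralizer ({x} : Set G) := by
    intro t ht
    have ht' : t ∈ MulAut.conj g • (S : Subgroup G) := ht
    rw [hSc, mem_conj_smul] at ht'
    rw [mem_conj_smul] at hg
    have h3 := Subgroup.mem_centralizer_iff.mp
      (part_le_centralizer_part (p := p) (q := r) (Ne.symm hrp) ht') _ hg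
    rw [Subgroup.mem_centralizer_singleton_iff]
    calc t * x = g * ((g⁻¹ * t * g) * (g⁻¹ * x * g)) * g⁻¹ := by group
      _ = g * ((g⁻¹ * x * g) * (g⁻¹ * t * g)) * g⁻¹ := by rw [h3]
      _ = x * t := by group
  obtain ⟨c, hc, hcS⟩ := H2.exists_conj_eq_of_sylow_le (g • S) S h2 h1
  refine ⟨c, hc, h.normalizer_part_le hrA ?_⟩
  rw [mem_normalizer_iff_conj_smul, ← conj_smul_smul, ← hSc]
  exact congrArg (fun Z : Sylow r G => (Z : Subgroup G)) hcS

/-- `C_{A_p}(x)` is a Sylow `p`-subgroup of `C_G(x)` for `x ∈ A_p`. -/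
theorem not_dvd_relIndex_centralizer (h : WSetup A B) {p : ℕ} [hp : Fact p.Prime] (hpA : p ∣ Nat.card A)
    {x : G} (hx : x ∈ part p A) :
    ¬ p ∣ (part p A ⊓ centralizer ({x} : Set G)).relIndex (centralizer ({x} : Set G)) := by
  set C := centralizer ({x} : Set G) with hC
  obtain ⟨S⟩ : Nonempty (Sylow p C) := inferInstance
  set S' := (S : Subgroup C).map C.subtype with hS'
  have hS'C : S' ≤ C := Subgroup.map_subtype_le _
  have hxC : x ∈ C := by rw [hC, Subgroup.mem_centralizer_singleton_iff]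
  -- `x ∈ S'`
  have hxS : x ∈ S' := by
    have hz : IsPGroup p (zpowers (⟨x, hxC⟩ : C)) := by
      have h1 : zpowers (⟨x, hxC⟩ : C) ≤ (part p A).subgroupOf C := by
        rw [Subgroup.zpowers_le]; exact Subgroup.mem_subgroupOf.mpr hx
      exact (part_isPGroup p A).comap_subtype.to_le h1
    have hn : zpowers (⟨x, hxC⟩ : C) ≤ normalizer ((S : Subgroup C) : Set C) := by
      refine le_trans ?_ (Subgroup.centralizer_le_normalizer _)
      rw [Subgroup.zpowers_le, Subgroup.mem_centralizer_iff]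
      intro y hy
      apply Subtype.ext
      have := (Subgroup.mem_centralizer_singleton_iff.mp y.2)
      exact this
    have h2 : IsPGroup p (zpowers (⟨x, hxC⟩ : C) ⊔ (S : Subgroup C) : Subgroup C) :=
      hz.to_sup_of_normal_right' S.isPGroup' hn
    have h3 := S.is_maximal' h2 le_sup_right
    have h4 : (⟨x, hxC⟩ : C) ∈ (S : Subgroup C) := by
      rw [← h3]; exact Subgroup.mem_sup_left (mem_zpowers _)
    exact ⟨_, h4, rfl⟩
  obtain ⟨g, hg⟩ := exists_conj_le_of_not_dvd_index (S.isPGroup'.map C.subtype)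
    (h.not_dvd_index_part hpA)
  have hg' : S' ≤ MulAut.conj g⁻¹ • part p A := by
    rw [map_inv]; exact Subgroup.pointwise_smul_subset_iff.mp hg
  obtain ⟨c, hc, hcN⟩ := h.fusion hx g⁻¹ (hg' hxS)
  have h1 : MulAut.conj c • S' ≤ part p A := by
    have h2 := conj_smul_le_conj_smul_iff (g := c) |>.mpr hg'
    rw [conj_smul_smul, mem_normalizer_iff_conj_smul.mp
      (normalizer_le_normalizer_part p A hcN)] at h2
    exact h2
  have h2 : MulAut.conj c • S' ≤ C := by
    have h3 := conj_smul_le_conj_smul_iff (g := c) |>.mpr hS'C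
    rwa [conj_smul_self_of_mem hc] at h3
  intro hd
  have h3 : (part p A ⊓ C).relIndex C ∣ (MulAut.conj c • S').relIndex C :=
    Subgroup.relIndex_dvd_of_le_left C (le_inf h1 h2)
  have h4 : (MulAut.conj c • S').relIndex C = S'.relIndex C := by
    have h5 : MulAut.conj c • C = C := conj_smul_self_of_mem hc
    have e1 := card_mul_relIndex_aux h2
    have e2 := card_mul_relIndex_aux hS'C
    rw [card_conj_smul, ← e2] at e1
    exact Nat.eq_of_mul_eq_mul_left Nat.card_pos e1
  have h5 : S'.relIndex C = (S : Subgroup C).index := by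
    rw [hS', Subgroup.relIndex, Subgroup.subgroupOf,
      Subgroup.comap_map_eq_self_of_injective C.subtype_injective]
  rw [h4, h5] at h3
  exact S.not_dvd_index (hd.trans h3)

end WSetup

end Cfsg.Agent.H1
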