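import Cfsg.Agent.H1.Wielandt

/-!
# Products of nilpotent groups of coprime orders II (helper1)
-/

set_option autoImplicit false
set_option linter.all false

open Cfsg

namespace Cfsg.Agent.H1

open Subgroup
open scoped Pointwise commutatorElement

universe u v

namespace WSetup

variable {G : Type*} [Group G] [Finite G] {A B : Subgroup G}

theorem part_le_part_inf (h : WSetup A B) {U : Subgroup G} {t : ℕ} [ht : Fact t.Prime]
    (hHall : ¬ t ∣ (part t A ⊓ U).relIndex U) : part t U ≤ part t A ⊓ U := by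
  set E := part t A ⊓ U with hE
  have h1 : IsPGroup t (E.subgroupOf U) :=
    ((part_isPGroup t A).to_le inf_le_left).of_equiv (Subgroup.subgroupOfEquivOfLe inf_le_right).symm
  set S : Sylow t U := h1.toSylow hHall with hS
  have hSc : (S : Subgroup U) = E.subgroupOf U := IsPGroup.toSylow_coe _ _
  rintro _ ⟨x, hx, rfl⟩
  have h2 : x ∈ (S : Subgroup U) := pCore_le_sylow S hx
  rw [hSc] at h2
  exact Subgroup.mem_subgroupOf.mp h2

/-- Key lemma on solvable subgroups `U` containing a Sylow subgroup `A_r`. -/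
theorem le_normalizer_of_solvable (h : WSetup A B) {U : Subgroup G} (hUs : Group.IsSolvable U)
    {r : ℕ} [hr : Fact r.Prime] (hrA : r ∣ Nat.card A) (hrU : part r A ≤ U)
    (hHall : ∀ (t : ℕ) [Fact t.Prime], t ∣ Nat.card A → ¬ t ∣ (part t A ⊓ U).relIndex U)
    (hN : ∀ (t : ℕ) [Fact t.Prime], t ∣ Nat.card A →
      U ⊓ normalizer ((part t A ⊓ U : Subgroup G) : Set G) ≤ normalizer (A : Set G)) :
    U ≤ normalizer (A : Set G) := by
  -- (a)
  have ha : ∀ (q : ℕ) [Fact q.Prime], q ∣ Nat.card B → part q U = ⊥ := by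
    intro q hq hqB
    exact h.no_norm hqB hrA (part_isPGroup q U) 1 (by
      rw [conj_one_smul]; exact hrU.trans (le_normalizer_part q U))
  -- (b)
  have hb : ∀ (t : ℕ) [Fact t.Prime], t ∣ Nat.card A → part t U ≤ part t A ⊓ U := by
    intro t ht htA
    exact h.part_le_part_inf (hHall t htA)
  set C : ℕ → Subgroup G := fun t => centralizer (part t U : Set G) ⊓ U with hC
  have hCU : ∀ t, C t ≤ U := fun t => inf_le_right
  -- (c)
  have hc : ∀ t : ℕ, ∀ u ∈ U, MulAut.conj u • C t = C t := by
    intro t u hu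
    rw [hC]
    simp only
    rw [conj_smul_inf, conj_smul_self_of_mem hu, conj_smul_centralizer,
      mem_normalizer_iff_conj_smul.mp (le_normalizer_part t U hu)]
  -- (d)
  have hd : ∀ (s t : ℕ) [Fact s.Prime] [Fact t.Prime], s ∣ Nat.card A → t ∣ Nat.card A → s ≠ t →
      part s A ⊓ U ≤ C t := by
    intro s t hs ht hsA htA hst
    refine le_inf (inf_le_left.trans ?_) inf_le_right
    refine (part_le_centralizer_part (p := t) (q := s) (Ne.symm hst)).trans ?_
    exact Subgroup.centralizer_le ((hb t htA).trans inf_le_left)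
  -- (e)
  have he : ∀ (t : ℕ) [Fact t.Prime], t ∣ Nat.card A → ∀ u ∈ U, ∃ c ∈ C t,
      ∃ n ∈ U ⊓ normalizer (A : Set G), u = c * n := by
    intro t ht htA u hu
    obtain ⟨s, hs, hsA, hst⟩ := h.twoA t
    haveI : Fact s.Prime := ⟨hs⟩
    have h1 := hd s t hsA htA hst
    have h2 : MulAut.conj u • (part s A ⊓ U) ≤ C t := by
      rw [← hc t u hu]; exact conj_smul_le_conj_smul_iff.mpr h1
    have h3 : ¬ s ∣ ((part s A ⊓ U).subgroupOf (C t)).index := by
      intro hd'
      apply hHall s hsA
      have h4 := Subgroup.relIndex_mul_relIndex _ _ _ h1 (hCU t)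
      rw [← h4]
      exact Dvd.dvd.mul_right hd' _
    have h5 : IsPGroup s ((MulAut.conj u • (part s A ⊓ U)).subgroupOf (C t)) := by
      have h6 : IsPGroup s (MulAut.conj u • (part s A ⊓ U) : Subgroup G) :=
        ((part_isPGroup s A).to_le inf_le_left).map (MulAut.conj u).toMonoidHom
      exact h6.of_equiv (Subgroup.subgroupOfEquivOfLe h2).symm
    obtain ⟨c, hc'⟩ := exists_conj_le_of_not_dvd_index h5 h3
    have h7 : MulAut.conj ((c : G) * u) • (part s A ⊓ U) = part s A ⊓ U := by
      apply Subgroup.eq_of_le_of_card_ge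
      · have h8 := Subgroup.map_mono (f := (C t).subtype) hc'
        rw [map_conj_smul, Subgroup.map_subgroupOf_eq_of_le h2,
          Subgroup.map_subgroupOf_eq_of_le h1] at h8
        rw [← conj_smul_smul]
        exact h8
      · rw [card_conj_smul]
    have hcU : (c : G) * u ∈ U := mul_mem (hCU t c.2) hu
    refine ⟨(c : G)⁻¹, inv_mem c.2, (c : G) * u, ⟨hcU, ?_⟩, by group⟩
    exact hN s hsA ⟨hcU, mem_normalizer_iff_conj_smul.mpr h7⟩
  set E := A ⊓ U with hE
  -- (f)
  have hf : ∀ (t : ℕ) [Fact t.Prime], t ∣ Nat.card A → ∀ u ∈ U,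
      MulAut.conj u • (E ⊔ C t) = E ⊔ C t := by
    intro t ht htA u hu
    obtain ⟨c, hcC, n, hn, rfl⟩ := he t htA u hu
    rw [← conj_smul_smul, conj_smul_sup n, hc t n hn.1, hE, conj_smul_inf,
      mem_normalizer_iff_conj_smul.mp hn.2, conj_smul_self_of_mem hn.1]
    exact conj_smul_self_of_mem (Subgroup.mem_sup_right hcC)
  set W : Subgroup G := U ⊓ ⨅ (t : ℕ) (_ : t.Prime ∧ t ∣ Nat.card A), (E ⊔ C t) with hW
  have hWU : W ≤ U := inf_le_left
  have hEW : E ≤ W := le_inf inf_le_right (le_iInf₂ fun t _ => le_sup_left)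
  have hWt : ∀ (t : ℕ) [Fact t.Prime], t ∣ Nat.card A → W ≤ E ⊔ C t := by
    intro t ht htA
    exact inf_le_right.trans (iInf₂_le t ⟨ht.out, htA⟩)
  -- (g)
  have hg : ∀ u ∈ U, MulAut.conj u • W ≤ W := by
    intro u hu
    refine le_inf ?_ (le_iInf₂ fun t ht => ?_)
    · have h1 := conj_smul_le_conj_smul_iff (g := u) |>.mpr hWU
      rwa [conj_smul_self_of_mem hu] at h1
    · haveI : Fact t.Prime := ⟨ht.1⟩
      rw [← hf t ht.2 u hu]
      exact conj_smul_le_conj_smul_iff.mpr (hWt t ht.2)
  -- (h)
  have hh : ∀ q : ℕ, q.Prime → q ∣ Nat.card B → ¬ q ∣ Nat.card W := by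
    intro q hq hqB hqW
    haveI : Fact q.Prime := ⟨hq⟩
    have hqA : ¬ q ∣ Nat.card A := h.symm.not_dvd_B hq hqB
    obtain ⟨w, hw, hwo⟩ := exists_mem_orderOf_prime hq hqW
    have hwU : w ∈ U := hWU hw
    have hwC : ∀ (t : ℕ) [Fact t.Prime], t ∣ Nat.card A → w ∈ C t := by
      intro t ht htA
      have hle : E ⊔ C t ≤ U := sup_le inf_le_right (hCU t)
      have hnorm : E ⊔ C t ≤ normalizer (C t : Set G) := by
        intro x hx
        exact mem_normalizer_iff_conj_smul.mpr (hc t x (hle hx))
      haveI : ((C t).subgroupOf (E ⊔ C t)).Normal :=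
        Subgroup.normal_subgroupOf_of_le_normalizer hnorm
      have hwE : zpowers w ≤ E ⊔ C t := by
        rw [Subgroup.zpowers_le]; exact hWt t htA hw
      have h1 : ((C t).subgroupOf (E ⊔ C t)).index ∣ Nat.card E := by
        have h2 : (C t).relIndex (E ⊔ C t) = (C t).relIndex E := by
          have h3 := card_sup_mul_card_inf_of_le_normalizer (H := C t) (K := E)
            (le_sup_left.trans hnorm)
          have h4 := card_mul_relIndex_aux (H := C t ⊔ E) (K := C t) le_sup_left
          have h5 := card_mul_relIndex_aux (H := E) (K := C t ⊓ E) inf_le_right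
          rw [Subgroup.inf_relIndex_right] at h5
          rw [sup_comm E, ]
          rw [← h4, ← h5] at h3
          have h6 : (Nat.card (C t) * Nat.card (C t ⊓ E : Subgroup G)) * (C t).relIndex (C t ⊔ E) =
              (Nat.card (C t) * Nat.card (C t ⊓ E : Subgroup G)) * (C t).relIndex E := by
            rw [← mul_assoc] at h3
            rw [← h3]; ring
          exact Nat.eq_of_mul_eq_mul_left (Nat.mul_pos Nat.card_pos Nat.card_pos) h6
        change (C t).relIndex (E ⊔ C t) ∣ _
        rw [h2]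
        exact Subgroup.relIndex_dvd_card _ _
      have h3 : (zpowers w).subgroupOf (E ⊔ C t) ≤ (C t).subgroupOf (E ⊔ C t) := by
        apply le_of_coprime_index
        rw [card_subgroupOf hwE, Nat.card_zpowers, hwo, Nat.Prime.coprime_iff_not_dvd hq]
        intro h4
        exact hqA ((h4.trans h1).trans (card_dvd_of_le' inf_le_left))
      exact Subgroup.mem_subgroupOf.mp (h3 (Subgroup.mem_subgroupOf.mpr
        (mem_zpowers w) : (⟨w, hWt t htA hw⟩ : (E ⊔ C t : Subgroup G)) ∈ _))
    -- `w` centralizes the Fitting subgroup of `U`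
    have hcases : ∀ (t : ℕ) [Fact t.Prime], t ∣ Nat.card A ∨ part t U = ⊥ := by
      intro t ht
      by_cases htG : t ∣ Nat.card G
      · rcases h.dvd_or ht.out htG with h1 | h1
        · exact Or.inl h1
        · exact Or.inr (ha t h1)
      · right
        obtain ⟨k, hk⟩ := IsPGroup.iff_card.mp (part_isPGroup t U)
        cases k with
        | zero => exact Subgroup.card_eq_one.mp (by rw [hk, pow_zero])
        | succ k =>
          exfalso
          apply htG
          exact (Dvd.intro_left (t ^ k) (by rw [hk, pow_succ])).trans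
            (Subgroup.card_subgroup_dvd_card (part t U))
    have hFA : fittingSubgroup U ≤ A.subgroupOf U := by
      rw [fitting_eq_iSup_pCore]
      refine iSup_le fun t => ?_
      haveI : Fact (t : ℕ).Prime := ⟨t.2⟩
      intro x hx
      rw [Subgroup.mem_subgroupOf]
      have hx' : (x : G) ∈ part (t : ℕ) U := ⟨x, hx, rfl⟩
      rcases hcases (t : ℕ) with h1 | h1
      · exact part_le _ _ (((hb (t : ℕ) h1) hx').1)
      · rw [h1, Subgroup.mem_bot] at hx'
        rw [hx']; exact one_mem _
    have hFC : fittingSubgroup U ≤ centralizer ({(⟨w, hwU⟩ : U)} : Set U) := by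
      rw [fitting_eq_iSup_pCore]
      refine iSup_le fun t => ?_
      haveI : Fact (t : ℕ).Prime := ⟨t.2⟩
      intro x hx
      rw [Subgroup.mem_centralizer_singleton_iff]
      have hx' : (x : G) ∈ part (t : ℕ) U := ⟨x, hx, rfl⟩
      rcases hcases (t : ℕ) with h1 | h1
      · have h2 := Subgroup.mem_centralizer_iff.mp (hwC (t : ℕ) h1).1 _ hx'
        exact Subtype.ext h2
      · rw [h1, Subgroup.mem_bot] at hx'
        have : x = 1 := Subtype.ext hx'
        rw [this]; simp
    have hwF : (⟨w, hwU⟩ : U) ∈ fittingSubgroup U := by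
      apply centralizer_fitting_le hUs
      rw [Subgroup.mem_centralizer_iff]
      intro y hy
      exact Subgroup.mem_centralizer_singleton_iff.mp (hFC hy)
    have hwA : w ∈ A := Subgroup.mem_subgroupOf.mp (hFA hwF)
    apply hqA
    rw [← hwo]
    exact Subgroup.orderOf_dvd_natCard A hwA
  -- (i)
  have hi : W = E := by
    apply le_antisymm _ hEW
    rw [← Subgroup.relIndex_eq_one]
    by_contra hne
    obtain ⟨t, ht, htd⟩ := Nat.exists_prime_and_dvd hne
    haveI : Fact t.Prime := ⟨ht⟩
    have htW : t ∣ Nat.card W := htd.trans (Subgroup.relIndex_dvd_card _ _)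
    rcases h.dvd_or ht (htW.trans (Subgroup.card_subgroup_dvd_card W)) with h1 | h1
    · apply hHall t h1
      have h2 := Subgroup.relIndex_mul_relIndex _ _ _ hEW hWU
      have h3 : t ∣ E.relIndex U := by rw [← h2]; exact Dvd.dvd.mul_right htd _
      exact h3.trans (Subgroup.relIndex_dvd_of_le_left U (inf_le_inf_right U (part_le t A)))
    · exact hh t ht h1 htW
  -- (j)
  intro u hu
  apply hN r hrA
  refine Subgroup.mem_inf.mpr ⟨hu, ?_⟩
  rw [mem_normalizer_iff_conj_smul]
  apply Subgroup.eq_of_le_of_card_ge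
  · have h1 : MulAut.conj u • (part r A ⊓ U) ≤ E := by
      rw [← hi]
      refine le_trans ?_ (hg u hu)
      rw [hi]
      exact conj_smul_le_conj_smul_iff.mpr (inf_le_inf_right U (part_le r A))
    exact le_inf (conj_part_le h.nilA inf_le_left (h1.trans inf_le_left)) (h1.trans inf_le_right)
  · rw [card_conj_smul]

end WSetup

end Cfsg.Agent.H1
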