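import Cfsg.Agent.H1.Wielandt2

/-!
# Products of nilpotent groups of coprime orders III (helper1)
-/

set_option autoImplicit false
set_option linter.all false

open Cfsg

namespace Cfsg.Agent.H1

open Subgroup
open scoped Pointwise commutatorElement

universe u v

section
variable {G : Type*} [Group G] [Finite G]

theorem card_mul_card_le (H K : Subgroup G) :
    Nat.card H * Nat.card K ≤ Nat.card G * Nat.card (H ⊓ K : Subgroup G) := by
  have h1 : H.relIndex K ≤ H.index := by
    rw [← Subgroup.relIndex_top_right H]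
    exact Subgroup.relIndex_le_of_le_right le_top (by
      rw [Subgroup.relIndex_top_right]; exact Subgroup.index_ne_zero_of_finite)
  have h2 := card_mul_relIndex_aux (H := K) (K := H ⊓ K) inf_le_right
  rw [Subgroup.inf_relIndex_right] at h2
  have h3 := H.card_mul_index
  rw [← h2, ← h3]
  calc Nat.card H * (Nat.card (H ⊓ K : Subgroup G) * H.relIndex K)
      ≤ Nat.card H * (Nat.card (H ⊓ K : Subgroup G) * H.index) := by
        apply Nat.mul_le_mul_left; apply Nat.mul_le_mul_left; exact h1
    _ = _ := by ring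

theorem sylow_map_eq_part {H : Subgroup G} (hH : Group.IsNilpotent H) {p : ℕ} [hp : Fact p.Prime]
    (P : Sylow p H) : (P : Subgroup H).map H.subtype = part p H := by
  rw [part]
  congr 1
  exact (P.is_maximal' (pCore_isPGroup p H) (by
    haveI := isNilpotent_iff_sylow_normal.mp hH p hp P
    exact le_pCore ‹_› P.isPGroup')).symm

theorem part_subgroupOf_map {E C : Subgroup G} (hE : Group.IsNilpotent E) (hEC : E ≤ C) {p : ℕ}
    [hp : Fact p.Prime] : (part p (E.subgroupOf C)).map C.subtype = part p E := by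
  apply le_antisymm
  · apply le_part hE
    · exact (Subgroup.map_mono (part_le _ _)).trans (Subgroup.map_subgroupOf_eq_of_le hEC).le
    · exact (part_isPGroup _ _).map _
  · have h1 : part p E ≤ C := (part_le _ _).trans hEC
    have h2 : (part p E).subgroupOf C ≤ part p (E.subgroupOf C) := by
      apply le_part (isNilpotent_subgroupOf hEC hE)
      · exact Subgroup.comap_mono (part_le _ _)
      · exact (part_isPGroup p E).of_equiv (Subgroup.subgroupOfEquivOfLe h1).symm
    have h3 := Subgroup.map_mono (f := C.subtype) h2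
    rwa [Subgroup.map_subgroupOf_eq_of_le h1] at h3

theorem normalizer_part_subgroupOf {E C : Subgroup G} (hE : Group.IsNilpotent E) (hEC : E ≤ C)
    {p : ℕ} [hp : Fact p.Prime] (h : C ⊓ normalizer (part p E : Set G) ≤ E) :
    normalizer (part p (E.subgroupOf C) : Set C) ≤ E.subgroupOf C := by
  intro c hc
  rw [Subgroup.mem_subgroupOf]
  apply h
  refine Subgroup.mem_inf.mpr ⟨c.2, ?_⟩
  rw [mem_normalizer_iff_conj_smul] at hc ⊢
  have h1 := congrArg (Subgroup.map C.subtype) hc
  rw [map_conj_smul, part_subgroupOf_map hE hEC] at h1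
  exact h1

theorem hasNormalPComplement_rel {E C : Subgroup G} (hE : Group.IsNilpotent E) (hEC : E ≤ C)
    {p q : ℕ} [hp : Fact p.Prime] [hq : Fact q.Prime] (hne : p ≠ q)
    (h1 : C ⊓ normalizer (part p E : Set G) ≤ E) (h2 : C ⊓ normalizer (part q E : Set G) ≤ E) :
    HasNormalPComplement p C := by
  have hH := isNilpotent_subgroupOf hEC hE
  obtain ⟨P⟩ : Nonempty (Sylow p (E.subgroupOf C)) := inferInstance
  obtain ⟨Q⟩ : Nonempty (Sylow q (E.subgroupOf C)) := inferInstance
  refine hasNormalPComplement_of_normalizers hne hH P Q ?_ ?_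
  · rw [sylow_map_eq_part hH P]; exact normalizer_part_subgroupOf hE hEC h1
  · rw [sylow_map_eq_part hH Q]; exact normalizer_part_subgroupOf hE hEC h2

end

namespace WSetup

variable {G : Type*} [Group G] [Finite G] {A B : Subgroup G}

theorem not_normal (h : WSetup A B) : ¬ A.Normal := by
  intro hn
  rcases h.simp A hn with h1 | h1
  · obtain ⟨r, hr, hrA, -⟩ := h.twoA 0
    rw [h1, Subgroup.card_bot] at hrA
    exact hr.not_dvd_one hrA
  · obtain ⟨r, hr, hrB, -⟩ := h.twoB 0
    rw [← h.indexA, h1, Subgroup.index_top] at hrB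
    exact hr.not_dvd_one hrB

theorem normalizer_ne_top (h : WSetup A B) : normalizer (A : Set G) ≠ ⊤ := fun h1 =>
  h.not_normal (normalizer_eq_top_iff.mp h1)

theorem centralizer_ne_top (h : WSetup A B) {z : G} (hz : z ≠ 1) :
    centralizer ({z} : Set G) ≠ ⊤ := by
  intro h1
  have h2 : z ∈ Subgroup.center G := by
    rw [Subgroup.mem_center_iff]
    intro g
    have : g ∈ centralizer ({z} : Set G) := h1 ▸ Subgroup.mem_top g
    exact Subgroup.mem_centralizer_singleton_iff.mp this
  rcases h.simp _ (inferInstance : (Subgroup.center G).Normal) with h3 | h3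
  · rw [h3, Subgroup.mem_bot] at h2; exact hz h2
  · apply h.not_normal
    constructor
    intro a ha g
    have h4 : a ∈ Subgroup.center G := h3 ▸ Subgroup.mem_top a
    have h5 := Subgroup.mem_center_iff.mp h4 g
    rw [h5, mul_inv_cancel_right]
    exact ha

theorem le_normalizer_of_le (h : WSetup A B) {U : Subgroup G} (hAU : A ≤ U) (hU : U ≠ ⊤) :
    U ≤ normalizer (A : Set G) := by
  have hs : Group.IsSolvable U := by
    refine h.minS U hU ?_
    intro g hg
    obtain ⟨a, ha, b, hb, rfl⟩ := h.fac g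
    have hbU : b ∈ U := by
      have := mul_mem (inv_mem (hAU ha)) hg
      rwa [inv_mul_cancel_left] at this
    exact ⟨a, ⟨ha, hAU ha⟩, b, ⟨hb, hbU⟩, rfl⟩
  obtain ⟨r, hr, hrA, -⟩ := h.twoA 0
  haveI : Fact r.Prime := ⟨hr⟩
  have hle : ∀ t : ℕ, part t A ≤ U := fun t => (part_le t A).trans hAU
  refine h.le_normalizer_of_solvable hs hrA (hle r) ?_ ?_
  · intro t ht htA
    rw [inf_eq_left.mpr (hle t)]
    intro hd
    exact h.not_dvd_index_part htA (hd.trans (Subgroup.relIndex_dvd_index_of_le (hle t)))
  · intro t ht htA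
    rw [inf_eq_left.mpr (hle t)]
    exact inf_le_right.trans (h.normalizer_part_le htA)

theorem centralizer_central_le (h : WSetup A B) {z : G} (hz : z ≠ 1)
    (hzA : A ≤ centralizer ({z} : Set G)) : centralizer ({z} : Set G) ≤ normalizer (A : Set G) :=
  h.le_normalizer_of_le hzA (h.centralizer_ne_top hz)

theorem normalizer_le_of_central_mem (h : WSetup A B) {t : ℕ} [ht : Fact t.Prime] {E : Subgroup G}
    (hE : E ≤ part t A) {z : G} (hz : z ∈ E) (hz1 : z ≠ 1) (hzA : A ≤ centralizer ({z} : Set G)) :
    normalizer (E : Set G) ≤ normalizer (A : Set G) := by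
  intro g hg
  have h1 : z ∈ MulAut.conj g • part t A := by
    have h2 : MulAut.conj g • E ≤ MulAut.conj g • part t A := conj_smul_le_conj_smul_iff.mpr hE
    rw [mem_normalizer_iff_conj_smul.mp hg] at h2
    exact h2 hz
  obtain ⟨c, hc, hcN⟩ := h.fusion (hE hz) g h1
  have h3 := h.centralizer_central_le hz1 hzA hc
  have := mul_mem (inv_mem h3) hcN
  rwa [inv_mul_cancel_left] at this

/-- Hall property of `A ∩ C_G(x)` in `C_G(x)`. -/
theorem not_dvd_relIndex_centralizer' (h : WSetup A B) {p : ℕ} [hp : Fact p.Prime]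
    (hpA : p ∣ Nat.card A) {x : G} (hx : x ∈ part p A) {t : ℕ} [ht : Fact t.Prime]
    (htA : t ∣ Nat.card A) :
    ¬ t ∣ (part t A ⊓ centralizer ({x} : Set G)).relIndex (centralizer ({x} : Set G)) := by
  by_cases htp : t = p
  · subst htp
    exact h.not_dvd_relIndex_centralizer hpA hx
  · have hle : part t A ≤ centralizer ({x} : Set G) := by
      intro a ha
      rw [Subgroup.mem_centralizer_singleton_iff]
      exact (Subgroup.mem_centralizer_iff.mp
        (part_le_centralizer_part (p := p) (q := t) (Ne.symm htp) ha) x hx).symm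
    rw [inf_eq_left.mpr hle]
    intro hd
    exact h.not_dvd_index_part htA (hd.trans (Subgroup.relIndex_dvd_index_of_le hle))

theorem centralizer_le_of_mem_normalizer (h : WSetup A B) {q : ℕ} [hq : Fact q.Prime]
    (hqB : q ∣ Nat.card B) {y : G} (hy : y ∈ part q B) (hy1 : y ≠ 1)
    (hyN : y ∈ normalizer (A : Set G)) : centralizer ({y} : Set G) ≤ normalizer (B : Set G) := by
  set U := centralizer ({y} : Set G) with hU
  have hs : Group.IsSolvable U := by
    refine h.minS U (h.centralizer_ne_top hy1) ?_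
    intro g hg
    obtain ⟨a, ha, b, hb, rfl⟩ := h.fac g
    have hg' : a * b * y = y * (a * b) := Subgroup.mem_centralizer_singleton_iff.mp hg
    have hyB : y ∈ B := part_le q B hy
    have h1 : y⁻¹ * a⁻¹ * y * a ∈ A := by
      have h2 := (Subgroup.mem_normalizer_iff.mp (inv_mem hyN) a⁻¹).mp (inv_mem ha)
      rw [inv_inv] at h2
      exact mul_mem h2 ha
    have h2 : y⁻¹ * a⁻¹ * y * a = y⁻¹ * (b * y * b⁻¹) := by
      have h3 : y * a = a * b * y * b⁻¹ := by
        rw [hg']; group
      calc y⁻¹ * a⁻¹ * y * a = y⁻¹ * a⁻¹ * (y * a) := by group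
        _ = y⁻¹ * a⁻¹ * (a * b * y * b⁻¹) := by rw [h3]
        _ = _ := by group
    have h3 : y⁻¹ * a⁻¹ * y * a ∈ B := by
      rw [h2]
      exact mul_mem (inv_mem hyB) (mul_mem (mul_mem hb hyB) (inv_mem hb))
    have h4 : y⁻¹ * a⁻¹ * y * a = 1 := by
      have : y⁻¹ * a⁻¹ * y * a ∈ A ⊓ B := ⟨h1, h3⟩
      rwa [h.inf_eq_bot, Subgroup.mem_bot] at this
    have h5 : a ∈ U := by
      rw [hU, Subgroup.mem_centralizer_singleton_iff]
      calc a * y = a * y * (y⁻¹ * a⁻¹ * y * a) := by rw [h4, mul_one]
        _ = y * a := by group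
    have h6 : b ∈ U := by
      have := mul_mem (inv_mem h5) hg
      rwa [inv_mul_cancel_left] at this
    exact ⟨a, ⟨ha, h5⟩, b, ⟨hb, h6⟩, rfl⟩
  obtain ⟨s, hs', hsB, hsq⟩ := h.twoB q
  haveI : Fact s.Prime := ⟨hs'⟩
  have hsU : part s B ≤ U := by
    intro b hb
    rw [hU, Subgroup.mem_centralizer_singleton_iff]
    exact (Subgroup.mem_centralizer_iff.mp
      (part_le_centralizer_part (p := q) (q := s) (Ne.symm hsq) hb) y hy).symm
  refine h.symm.le_normalizer_of_solvable hs hsB hsU ?_ ?_
  · intro t ht htB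
    exact h.symm.not_dvd_relIndex_centralizer' hqB hy htB
  · intro t ht htB
    obtain ⟨z, hz, hz1, hzB⟩ := exists_central_part h.nilB htB
    refine inf_le_right.trans (h.symm.normalizer_le_of_central_mem (t := t) inf_le_left (z := z)
      ⟨hz, ?_⟩ hz1 hzB)
    have h7 := Subgroup.mem_centralizer_singleton_iff.mp (hzB (part_le q B hy))
    change z ∈ centralizer ({y} : Set G)
    rw [Subgroup.mem_centralizer_singleton_iff]
    exact h7.symm

theorem centralizer_le_normalizer (h : WSetup A B) {p : ℕ} [hp : Fact p.Prime]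
    (hpA : p ∣ Nat.card A) {x : G} (hx : x ∈ part p A) (hx1 : x ≠ 1) :
    centralizer ({x} : Set G) ≤ normalizer (A : Set G) := by
  set C := centralizer ({x} : Set G) with hC
  set N := normalizer (A : Set G) with hN
  by_cases hcase : ∃ q : ℕ, q.Prime ∧ q ∣ Nat.card B ∧ q ∣ Nat.card (C ⊓ N : Subgroup G)
  · obtain ⟨q, hq, hqB, hqC⟩ := hcase
    haveI : Fact q.Prime := ⟨hq⟩
    obtain ⟨y', hy', hyo⟩ := exists_mem_orderOf_prime hq hqC
    obtain ⟨hy'C, hy'N⟩ := Subgroup.mem_inf.mp hy'
    have hAN : A ≤ N := le_normalizer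
    -- conjugate `y'` into `B` inside `N`
    have hfacN : ∀ g : N, ∃ b ∈ B.subgroupOf N, ∃ a ∈ A.subgroupOf N, g = b * a := by
      rintro ⟨g, hg⟩
      obtain ⟨b, hb, a, ha, rfl⟩ := h.symm.fac g
      have hbN : b ∈ N := by
        have := mul_mem hg (inv_mem (hAN ha))
        rwa [mul_inv_cancel_right] at this
      exact ⟨⟨b, hbN⟩, Subgroup.mem_subgroupOf.mpr hb, ⟨a, hAN ha⟩,
        Subgroup.mem_subgroupOf.mpr ha, rfl⟩
    have hidx : ¬ q ∣ (B.subgroupOf N).index := by
      rw [← relIndex_eq_index_of_factor hfacN]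
      intro hd
      have h1 : q ∣ Nat.card A := by
        rw [← card_subgroupOf hAN]
        exact hd.trans (Subgroup.relIndex_dvd_card _ _)
      exact h.not_dvd_B hq h1 hqB
    have hzN : IsPGroup q (zpowers (⟨y', hy'N⟩ : N)) := by
      apply isPGroup_zpowers_of_orderOf (k := 1)
      rw [pow_one, ← hyo]
      exact (Subgroup.orderOf_mk _ _)
    obtain ⟨n, hn⟩ := exists_conj_le_of_not_dvd_index hzN hidx
    set y : G := n * y' * (n : G)⁻¹ with hy
    have hyB : y ∈ B := by
      have := hn (conj_mem_conj_smul (mem_zpowers _))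
      exact Subgroup.mem_subgroupOf.mp this
    have hyord : orderOf y = q := by
      rw [hy, ← hyo]
      have : (n : G) * y' * (n : G)⁻¹ = MulAut.conj (n : G) y' := rfl
      rw [this]
      exact orderOf_injective (MulAut.conj (n : G)).toMonoidHom (MulAut.conj (n : G)).injective y'
    have hy1 : y ≠ 1 := by
      intro h1
      rw [h1, orderOf_one] at hyord
      exact hq.one_lt.ne hyord
    have hyp : y ∈ part q B := by
      have h1 : zpowers y ≤ part q B := by
        apply le_part h.nilB
        · rw [Subgroup.zpowers_le]; exact hyB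
        · exact isPGroup_zpowers_of_orderOf (k := 1) (by rw [pow_one]; exact hyord)
      exact h1 (mem_zpowers y)
    have hyN : y ∈ N := mul_mem (mul_mem n.2 hy'N) (inv_mem n.2)
    set x' : G := n * x * (n : G)⁻¹ with hx'
    have hx'p : x' ∈ part p A := by
      have h1 := normalizer_le_normalizer_part p A n.2
      exact (Subgroup.mem_normalizer_iff.mp h1 x).mp hx
    have hx'1 : x' ≠ 1 := by
      intro h1
      exact hx1 (conj_eq_one_iff.mp h1)
    have hcomm : y' * x = x * y' := Subgroup.mem_centralizer_singleton_iff.mp hy'C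
    have hx'y : x' ∈ centralizer ({y} : Set G) := by
      rw [Subgroup.mem_centralizer_singleton_iff, hx', hy]
      calc (n : G) * x * (n : G)⁻¹ * (n * y' * (n : G)⁻¹) = n * (x * y') * (n : G)⁻¹ := by group
        _ = n * (y' * x) * (n : G)⁻¹ := by rw [hcomm]
        _ = _ := by group
    have h1 := h.centralizer_le_of_mem_normalizer hqB hyp hy1 hyN
    have h2 := h.symm.centralizer_le_of_mem_normalizer hpA hx'p hx'1 (h1 hx'y)
    intro c hc
    have h3 : (n : G) * c * (n : G)⁻¹ ∈ N := by
      apply h2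
      rw [Subgroup.mem_centralizer_singleton_iff, hx']
      have h4 := Subgroup.mem_centralizer_singleton_iff.mp hc
      calc (n : G) * c * (n : G)⁻¹ * (n * x * (n : G)⁻¹) = n * (c * x) * (n : G)⁻¹ := by group
        _ = n * (x * c) * (n : G)⁻¹ := by rw [h4]
        _ = _ := by group
    have h4 := mul_mem (mul_mem (inv_mem n.2) h3) n.2
    have h5 : (n : G)⁻¹ * ((n : G) * c * (n : G)⁻¹) * n = c := by group
    rwa [h5] at h4
  · push Not at hcase
    set E := A ⊓ C with hE
    have hEC : E ≤ C := inf_le_right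
    have hEn : Group.IsNilpotent E := isNilpotent_of_le inf_le_left h.nilA
    have hHall : ∀ (t : ℕ) [Fact t.Prime], t ∣ Nat.card A → ¬ t ∣ E.relIndex C := by
      intro t ht htA hd
      exact h.not_dvd_relIndex_centralizer' hpA hx htA (hd.trans
        (Subgroup.relIndex_dvd_of_le_left C (inf_le_inf_right C (part_le t A))))
    have hpart : ∀ (t : ℕ) [Fact t.Prime], part t E = part t A ⊓ C := by
      intro t ht
      apply le_antisymm
      · refine le_inf ?_ ((part_le t E).trans hEC)
        exact le_part h.nilA ((part_le t E).trans inf_le_left) (part_isPGroup t E)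
      · apply le_part hEn
        · exact inf_le_inf_right C (part_le t A)
        · exact (part_isPGroup t A).to_le inf_le_left
    have hCN : C ⊓ N ≤ E := by
      have hEN : E ≤ C ⊓ N := le_inf inf_le_right (inf_le_left.trans le_normalizer)
      rw [← Subgroup.relIndex_eq_one]
      by_contra hne
      obtain ⟨t, ht, htd⟩ := Nat.exists_prime_and_dvd hne
      haveI : Fact t.Prime := ⟨ht⟩
      have h1 : t ∣ Nat.card (C ⊓ N : Subgroup G) := htd.trans (Subgroup.relIndex_dvd_card _ _)
      rcases h.dvd_or ht (h1.trans (Subgroup.card_subgroup_dvd_card _)) with h2 | h2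
      · apply hHall t h2
        rw [← Subgroup.relIndex_mul_relIndex _ _ _ hEN inf_le_left]
        exact Dvd.dvd.mul_right htd _
      · exact hcase t ht h2 h1
    have hNE : ∀ (t : ℕ) [Fact t.Prime], t ∣ Nat.card A → C ⊓ normalizer (part t E : Set G) ≤ E := by
      intro t ht htA
      obtain ⟨z, hz, hz1, hzA⟩ := exists_central_part h.nilA htA
      have hzE : z ∈ part t E := by
        rw [hpart t]
        refine ⟨hz, ?_⟩
        have h7 := Subgroup.mem_centralizer_singleton_iff.mp (hzA (part_le p A hx))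
        change z ∈ centralizer ({x} : Set G)
        rw [Subgroup.mem_centralizer_singleton_iff]
        exact h7.symm
      refine le_trans (inf_le_inf_left C ?_) hCN
      exact h.normalizer_le_of_central_mem (t := t) (by rw [hpart t]; exact inf_le_left) hzE hz1 hzA
    obtain ⟨r, hr, hrA, hrp⟩ := h.twoA p
    haveI : Fact r.Prime := ⟨hr⟩
    have hrC : part r A ≤ C := by
      intro a ha
      rw [hC, Subgroup.mem_centralizer_singleton_iff]
      exact (Subgroup.mem_centralizer_iff.mp
        (part_le_centralizer_part (p := p) (q := r) (Ne.symm hrp) ha) x hx).symm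
    have hcompl := hasNormalPComplement_rel hEn hEC hrp (hNE r hrA) (hNE p hpA)
    rw [H2.hasNormalPComplement_iff] at hcompl
    obtain ⟨K, hK, hKc, k, hKi⟩ := hcompl
    -- no prime of `|B|` divides `|C|`
    have hCB : ∀ q : ℕ, q.Prime → q ∣ Nat.card B → ¬ q ∣ Nat.card C := by
      intro q hq hqB hqC
      have h1 : ¬ q ∣ Nat.card (K.map C.subtype) := by
        refine h.no_norm' hrA ?_ ?_ hq hqB
        · rw [card_map_subtype]
          exact hKc
        · intro a ha
          rw [mem_normalizer_iff_conj_smul]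
          have h1 : MulAut.conj (⟨a, hrC ha⟩ : C) • K = K := conj_smul_normal _
          have h2 := map_conj_smul C.subtype ⟨a, hrC ha⟩ K
          rw [h1] at h2
          exact h2.symm
      rw [card_map_subtype] at h1
      rw [← K.card_mul_index, hKi] at hqC
      rcases hq.dvd_mul.mp hqC with h2 | h2
      · exact h1 h2
      · have h3 : q = r := (Nat.prime_dvd_prime_iff_eq hq hr).mp (hq.dvd_of_dvd_pow h2)
        rw [h3] at hqB
        exact h.not_dvd_B hr hrA hqB
    have hCE : C ≤ E := by
      rw [← Subgroup.relIndex_eq_one]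
      by_contra hne
      obtain ⟨t, ht, htd⟩ := Nat.exists_prime_and_dvd hne
      haveI : Fact t.Prime := ⟨ht⟩
      have h1 : t ∣ Nat.card C := htd.trans (Subgroup.relIndex_dvd_card _ _)
      rcases h.dvd_or ht (h1.trans (Subgroup.card_subgroup_dvd_card _)) with h2 | h2
      · exact hHall t h2 htd
      · exact hCB t ht h2 h1
    exact hCE.trans (inf_le_left.trans le_normalizer)

theorem false_of_lt (h : WSetup A B) (hlt : Nat.card B < Nat.card A) : False := by
  obtain ⟨g, -, hg⟩ := SetLike.exists_of_lt (lt_top_iff_ne_top.mpr h.normalizer_ne_top)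
  have h1 := card_mul_card_le A (MulAut.conj g • A)
  rw [card_conj_smul, h.card_eq, mul_assoc] at h1
  have h2 : Nat.card A ≤ Nat.card B * Nat.card (A ⊓ MulAut.conj g • A : Subgroup G) :=
    Nat.le_of_mul_le_mul_left h1 Nat.card_pos
  have h3 : Nat.card (A ⊓ MulAut.conj g • A : Subgroup G) ≠ 1 := by
    intro h4
    rw [h4, mul_one] at h2
    omega
  obtain ⟨p, hp, hpd⟩ := Nat.exists_prime_and_dvd h3
  haveI : Fact p.Prime := ⟨hp⟩
  obtain ⟨x, hx, hxo⟩ := exists_mem_orderOf_prime hp hpd
  obtain ⟨hxA, hxg⟩ := Subgroup.mem_inf.mp hx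
  have hpA : p ∣ Nat.card A := by rw [← hxo]; exact Subgroup.orderOf_dvd_natCard A hxA
  have hx1 : x ≠ 1 := by
    intro h1
    rw [h1, orderOf_one] at hxo
    exact hp.one_lt.ne hxo
  have hmem : ∀ y ∈ A, orderOf y = p → y ∈ part p A := by
    intro y hy hyo
    have h1 : zpowers y ≤ part p A := by
      apply le_part h.nilA
      · rw [Subgroup.zpowers_le]; exact hy
      · exact isPGroup_zpowers_of_orderOf (k := 1) (by rw [pow_one]; exact hyo)
    exact h1 (mem_zpowers y)
  have hxp : x ∈ part p A := hmem x hxA hxo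
  rw [mem_conj_smul] at hxg
  have hxo' : orderOf (g⁻¹ * x * g) = p := by
    rw [← hxo]
    have : g⁻¹ * x * g = MulAut.conj g⁻¹ x := by rw [MulAut.conj_apply, inv_inv]
    rw [this]
    exact orderOf_injective (MulAut.conj g⁻¹).toMonoidHom (MulAut.conj g⁻¹).injective x
  have hxgp : x ∈ MulAut.conj g • part p A := mem_conj_smul.mpr (hmem _ hxg hxo')
  obtain ⟨c, hc, hcN⟩ := h.fusion hxp g hxgp
  have h4 := h.centralizer_le_normalizer hpA hxp hx1 hc
  apply hg
  have := mul_mem (inv_mem h4) hcN
  rwa [inv_mul_cancel_left] at this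

theorem false (h : WSetup A B) : False := by
  rcases lt_trichotomy (Nat.card A) (Nat.card B) with h1 | h1 | h1
  · exact h.symm.false_of_lt h1
  · obtain ⟨r, hr, hrA, -⟩ := h.twoA 0
    exact h.not_dvd_B hr hrA (h1 ▸ hrA)
  · exact h.false_of_lt h1

end WSetup

end Cfsg.Agent.H1
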