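import Cfsg.Agent.H23.Subnormal2
import Cfsg.Agent.H1.Coprime2

/-!
# Zipper-type lemmas for subnormal subgroups (helper1)
-/

set_option autoImplicit false
set_option linter.all false

open Cfsg

namespace Cfsg.Agent.H1

open Subgroup
open scoped Pointwise commutatorElement

universe u v

theorem exists_conj_le_normalizer_aux {G : Type*} [Group G] {H : Subgroup G}
    (hn : normalizer (H : Set G) ≠ ⊤) {K : Subgroup G} (hK : K.IsSubnormal) :
    H ≤ K → K ≤ normalizer (H : Set G) →
      ∃ g : G, MulAut.conj g • H ≠ H ∧ MulAut.conj g • H ≤ normalizer (H : Set G) := by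
  induction hK with
  | top => intro _ h; exact absurd (top_le_iff.mp h) hn
  | step K K' hle hK' hN ih =>
    intro h1 h2
    by_cases h3 : K' ≤ normalizer (H : Set G)
    · exact ih (h1.trans hle) h3
    · obtain ⟨g, hg, hg'⟩ := SetLike.not_le_iff_exists.mp h3
      refine ⟨g, fun h => hg' (mem_normalizer_iff_conj_smul.mpr h), ?_⟩
      have h4 : K' ≤ normalizer (K : Set G) := (normal_subgroupOf_iff_le_normalizer hle).mp hN
      have h5 : MulAut.conj g • K = K := mem_normalizer_iff_conj_smul.mp (h4 hg)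
      have h6 : MulAut.conj g • H ≤ MulAut.conj g • K := conj_smul_le_conj_smul_iff.mpr h1
      rw [h5] at h6
      exact h6.trans h2

theorem exists_conj_le_normalizer {G : Type*} [Group G] {H : Subgroup G}
    (hH : H.IsSubnormal) (hn : ¬ H.Normal) :
    ∃ g : G, MulAut.conj g • H ≠ H ∧ MulAut.conj g • H ≤ normalizer (H : Set G) :=
  exists_conj_le_normalizer_aux (fun h => hn (normalizer_eq_top_iff.mp h)) hH le_rfl le_normalizer

theorem zipper {G : Type*} [Group G] [Finite G] (S S₀ : Set (Subgroup G))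
    (hS : ∀ U ∈ S, U.IsSubnormal) (hconj : ∀ U ∈ S, ∀ g : G, MulAut.conj g • U ∈ S)
    (h₀ : S₀ ⊂ S) : ∃ X ∈ S, X ∉ S₀ ∧ X ≤ normalizer ((sSup S₀ : Subgroup G) : Set G) := by
  by_cases h1 : ∃ X ∈ S, X ∉ S₀ ∧ X ≤ sSup S₀
  · obtain ⟨X, h1, h2, h3⟩ := h1
    exact ⟨X, h1, h2, h3.trans le_normalizer⟩
  push Not at h1
  have hsub : (sSup S₀).IsSubnormal := H23.isSubnormal_sSup _ (fun U hU => hS U (h₀.1 hU))
  by_cases hn : (sSup S₀).Normal
  · obtain ⟨X, hX, hX'⟩ := Set.exists_of_ssubset h₀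
    refine ⟨X, hX, hX', ?_⟩
    rw [normalizer_eq_top_iff.mpr hn]; exact le_top
  · obtain ⟨g, hg, hg'⟩ := exists_conj_le_normalizer hsub hn
    have h2 : ∃ U ∈ S₀, ¬ MulAut.conj g • U ≤ sSup S₀ := by
      by_contra hcon
      push Not at hcon
      apply hg
      apply Subgroup.eq_of_le_of_card_ge
      · rw [Subgroup.pointwise_smul_subset_iff]
        apply sSup_le
        intro U hU
        rw [← Subgroup.pointwise_smul_subset_iff]
        exact hcon U hU
      · rw [card_conj_smul]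
    obtain ⟨U, hU, hU'⟩ := h2
    refine ⟨MulAut.conj g • U, hconj U (h₀.1 hU) g, fun h => hU' (le_sSup h), ?_⟩
    exact (conj_smul_le_conj_smul_iff.mpr (le_sSup hU)).trans hg'

theorem zipper_rel {G : Type*} [Group G] [Finite G] (V : Subgroup G) (S S₀ : Set (Subgroup G))
    (hV : ∀ U ∈ S, U ≤ V) (hS : ∀ U ∈ S, (U.subgroupOf V).IsSubnormal)
    (hconj : ∀ U ∈ S, ∀ g ∈ V, MulAut.conj g • U ∈ S)
    (h₀ : S₀ ⊂ S) : ∃ X ∈ S, X ∉ S₀ ∧ X ≤ normalizer ((sSup S₀ : Subgroup G) : Set G) := by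
  set S' : Set (Subgroup V) := {C | C.map V.subtype ∈ S} with hS'
  set S₀' : Set (Subgroup V) := {C | C.map V.subtype ∈ S₀} with hS₀'
  have hsup : (sSup S₀').map V.subtype = sSup S₀ := by
    apply le_antisymm
    · rw [Subgroup.map_le_iff_le_comap]
      apply sSup_le
      intro C hC
      rw [← Subgroup.map_le_iff_le_comap]
      exact le_sSup hC
    · apply sSup_le
      intro B hB
      have h1 : (B.subgroupOf V).map V.subtype = B := Subgroup.map_subgroupOf_eq_of_le (hV B (h₀.1 hB))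
      have h2 : B.subgroupOf V ∈ S₀' := by
        change (B.subgroupOf V).map V.subtype ∈ S₀
        rw [h1]; exact hB
      rw [← h1]
      exact Subgroup.map_mono (le_sSup h2)
  obtain ⟨X, hX, hX', hXn⟩ := zipper S' S₀' (by
      intro C hC
      have h1 := hS _ hC
      have h2 : (C.map V.subtype).subgroupOf V = C :=
        Subgroup.comap_map_eq_self_of_injective V.subtype_injective C
      rwa [h2] at h1
      ) (by
      intro C hC g
      change (MulAut.conj g • C).map V.subtype ∈ S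
      rw [map_conj_smul]
      exact hconj _ hC _ g.2) (by
      refine ⟨fun C hC => h₀.1 hC, fun h => ?_⟩
      apply h₀.2
      intro B hB
      have h1 : (B.subgroupOf V).map V.subtype = B := Subgroup.map_subgroupOf_eq_of_le (hV B hB)
      have h2 : B.subgroupOf V ∈ S' := by
        change (B.subgroupOf V).map V.subtype ∈ S
        rw [h1]; exact hB
      have h3 := h h2
      change (B.subgroupOf V).map V.subtype ∈ S₀ at h3
      rwa [h1] at h3)
  refine ⟨X.map V.subtype, hX, hX', ?_⟩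
  rw [← hsup]
  exact (Subgroup.map_mono hXn).trans (Subgroup.le_normalizer_map _)

theorem zipper_uniqueness {G : Type*} [Group G] [Finite G] (A : Subgroup G) (U : Set (Subgroup G))
    (hU : U.Nonempty) (S : Subgroup G → Set (Subgroup G))
    (hS : ∀ V B : Subgroup G, B ∈ S V ↔
      (∃ g : G, B = MulAut.conj g • A) ∧ B ≤ V ∧ (B.subgroupOf V).IsSubnormal)
    (h1 : ∀ V ∈ U, A ∈ S V) (h2 : ∀ V ∈ U, ∀ W ∈ U, ∀ B ∈ S W, B ≤ V → B ∈ S V)
    (h3 : ∀ V ∈ U, ∀ W ∈ U, ∃ X ∈ U,
      Subgroup.normalizer ((sSup (S V ∩ S W) : Subgroup G) : Set G) ≤ X) :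
    ∃ M ∈ U, ∀ V ∈ U, V ≤ M := by
  have hconj : ∀ V : Subgroup G, ∀ B ∈ S V, ∀ g ∈ V, MulAut.conj g • B ∈ S V := by
    intro V B hB g hg
    rw [hS] at hB ⊢
    obtain ⟨⟨x, rfl⟩, hB1, hB2⟩ := hB
    refine ⟨⟨g * x, by rw [conj_smul_smul]⟩, ?_, ?_⟩
    · rw [← conj_smul_self_of_mem hg]
      exact conj_smul_le_conj_smul_iff.mpr hB1
    · have h4 : (MulAut.conj g • MulAut.conj x • A).subgroupOf V =
          MulAut.conj (⟨g, hg⟩ : V) • ((MulAut.conj x • A).subgroupOf V) := by
        ext y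
        rw [Subgroup.mem_subgroupOf, mem_conj_smul (g := g), mem_conj_smul (g := (⟨g, hg⟩ : V)), Subgroup.mem_subgroupOf]
        rfl
      rw [h4]
      exact hB2.smul _
  -- uniqueness of maximal members
  have key : ∀ V W : Subgroup G, Maximal (· ∈ U) V → Maximal (· ∈ U) W → V = W := by
    by_contra hcon
    push Not at hcon
    set P : Set (Subgroup G × Subgroup G) :=
      {q | Maximal (· ∈ U) q.1 ∧ Maximal (· ∈ U) q.2 ∧ q.1 ≠ q.2} with hP
    have hPne : P.Nonempty := by
      obtain ⟨V, W, hV, hW, hne⟩ := hcon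
      exact ⟨(V, W), hV, hW, hne⟩
    obtain ⟨⟨V, W⟩, ⟨hV, hW, hne⟩, hmax⟩ :=
      Set.exists_max_image P (fun q => (S q.1 ∩ S q.2).ncard) (Set.toFinite _) hPne
    simp only at hV hW hne
    have claim : ∀ V W : Subgroup G, Maximal (· ∈ U) V → Maximal (· ∈ U) W →
        (∀ q ∈ P, (S q.1 ∩ S q.2).ncard ≤ (S V ∩ S W).ncard) → ∀ X : Subgroup G,
          Maximal (· ∈ U) X → normalizer ((sSup (S V ∩ S W) : Subgroup G) : Set G) ≤ X → V = X := by
      intro V W hV hW hmax X hX hle
      by_cases heq : S V ∩ S W = S V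
      · have h4 : V ≤ X := by
          refine le_trans ?_ hle
          intro g hg
          rw [mem_normalizer_iff_conj_smul, heq]
          apply Subgroup.eq_of_le_of_card_ge
          · rw [Subgroup.pointwise_smul_subset_iff]
            apply sSup_le
            intro B hB
            rw [← Subgroup.pointwise_smul_subset_iff]
            exact le_sSup (hconj V B hB g hg)
          · rw [card_conj_smul]
        exact le_antisymm h4 (hV.2 hX.1 h4)
      · by_contra hVX
        obtain ⟨B, hB, hB', hBn⟩ := zipper_rel V (S V) (S V ∩ S W)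
          (fun B hB => ((hS V B).mp hB).2.1) (fun B hB => ((hS V B).mp hB).2.2)
          (hconj V) (Set.inter_subset_left.ssubset_of_ne heq)
        have h4 := hmax (V, X) ⟨hV, hX, hVX⟩
        simp only at h4
        have h5 : insert B (S V ∩ S W) ⊆ S V ∩ S X := by
          intro C hC
          rcases Set.mem_insert_iff.mp hC with rfl | hC
          · exact ⟨hB, h2 X hX.1 V hV.1 C hB (hBn.trans hle)⟩
          · refine ⟨hC.1, h2 X hX.1 V hV.1 C hC.1 ?_⟩
            exact ((le_sSup hC).trans le_normalizer).trans hle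
        have h6 := Set.ncard_le_ncard h5 (Set.toFinite _)
        rw [Set.ncard_insert_of_notMem hB' (Set.toFinite _)] at h6
        omega
    obtain ⟨X₀, hX₀, hle₀⟩ := h3 V hV.1 W hW.1
    obtain ⟨X, hle, hX⟩ := (Set.toFinite U).exists_le_maximal hX₀
    have e1 := claim V W hV hW hmax X hX (hle₀.trans hle)
    have e2 := claim W V hW hV (by
      intro q hq
      rw [Set.inter_comm (S W)]
      exact hmax q hq) X hX (by
      rw [Set.inter_comm (S W)]
      exact hle₀.trans hle)
    exact hne (e1.trans e2.symm)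
  obtain ⟨V, hV⟩ := hU
  obtain ⟨M, -, hM⟩ := (Set.toFinite U).exists_le_maximal hV
  refine ⟨M, hM.1, ?_⟩
  intro W hW
  obtain ⟨M', hle, hM'⟩ := (Set.toFinite U).exists_le_maximal hW
  rw [key M M' hM hM']
  exact hle

theorem exists_sylow_normalized {G : Type*} [Group G] [Finite G] (p : ℕ) [Fact p.Prime]
    (Z Y : Subgroup G) (h : ∀ g : G, IsPGroup p ↥(⨆ y ∈ Y, MulAut.conj (y * g) • Z)) :
    ∃ P : Sylow p G, Y ≤ Subgroup.normalizer
      ((⨆ g ∈ {g : G | MulAut.conj g • Z ≤ (P : Subgroup G)}, MulAut.conj g • Z : Subgroup G) : Set G) := by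
  set T : Set (Set (Subgroup G)) := {Sg | (∀ B ∈ Sg, ∃ g : G, B = MulAut.conj g • Z) ∧
    (∀ B ∈ Sg, ∀ y ∈ Y, MulAut.conj y • B ∈ Sg) ∧ IsPGroup p (sSup Sg : Subgroup G)} with hT
  have hne : (∅ : Set (Subgroup G)) ∈ T := by
    refine ⟨fun B hB => absurd hB (Set.notMem_empty _), fun B hB => absurd hB (Set.notMem_empty _), ?_⟩
    rw [sSup_empty]; exact IsPGroup.of_bot
  obtain ⟨Sg, -, hmax⟩ := (Set.toFinite T).exists_le_maximal hne
  obtain ⟨⟨hs1, hs2, hs3⟩, hs4⟩ := hmax
  have hYn : Y ≤ normalizer ((sSup Sg : Subgroup G) : Set G) := by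
    intro y hy
    rw [mem_normalizer_iff_conj_smul]
    apply Subgroup.eq_of_le_of_card_ge
    · rw [Subgroup.pointwise_smul_subset_iff]
      apply sSup_le
      intro B hB
      rw [← Subgroup.pointwise_smul_subset_iff]
      exact le_sSup (hs2 B hB y hy)
    · rw [card_conj_smul]
  obtain ⟨P, hP⟩ := hs3.exists_le_sylow
  refine ⟨P, ?_⟩
  set S : Set (Subgroup G) := {B | (∃ g : G, B = MulAut.conj g • Z) ∧ B ≤ (P : Subgroup G)} with hS
  have hsub : Sg ⊆ S := fun B hB => ⟨hs1 B hB, (le_sSup hB).trans hP⟩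
  have hSsup : (⨆ g ∈ {g : G | MulAut.conj g • Z ≤ (P : Subgroup G)}, MulAut.conj g • Z : Subgroup G) =
      sSup S := by
    apply le_antisymm
    · refine iSup₂_le ?_
      intro g hg
      exact le_sSup ⟨⟨g, rfl⟩, hg⟩
    · apply sSup_le
      rintro B ⟨⟨g, rfl⟩, hB⟩
      exact le_iSup₂ (f := fun (g : G) (_ : g ∈ {g : G | MulAut.conj g • Z ≤ (P : Subgroup G)}) =>
        MulAut.conj g • Z) g hB
  rw [hSsup]
  by_cases heq : Sg = S
  · rw [← heq]; exact hYn
  · exfalso
    obtain ⟨B, ⟨⟨g, rfl⟩, hBP⟩, hB', hBn⟩ := zipper_rel (P : Subgroup G) S Sg (fun B hB => hB.2)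
      (fun B hB => H23.isSubnormal_of_isNilpotent P.isPGroup'.isNilpotent _) (by
        rintro B ⟨⟨g, rfl⟩, hB⟩ x hx
        refine ⟨⟨x * g, by rw [conj_smul_smul]⟩, ?_⟩
        rw [← conj_smul_self_of_mem hx]
        exact conj_smul_le_conj_smul_iff.mpr hB) (hsub.ssubset_of_ne heq)
    set Sh : Set (Subgroup G) := Sg ∪ {C | ∃ y ∈ Y, C = MulAut.conj (y * g) • Z} with hSh
    have hsup : sSup Sh = sSup Sg ⊔ ⨆ y ∈ Y, MulAut.conj (y * g) • Z := by
      rw [hSh, sSup_union]
      congr 1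
      apply le_antisymm
      · apply sSup_le
        rintro C ⟨y, hy, rfl⟩
        exact le_iSup₂ (f := fun (y : G) (_ : y ∈ Y) => MulAut.conj (y * g) • Z) y hy
      · refine iSup₂_le ?_
        intro y hy
        exact le_sSup ⟨y, hy, rfl⟩
    have hmem : Sh ∈ T := by
      refine ⟨?_, ?_, ?_⟩
      · rintro C (hC | ⟨y, hy, rfl⟩)
        · exact hs1 C hC
        · exact ⟨_, rfl⟩
      · rintro C (hC | ⟨y, hy, rfl⟩) z hz
        · exact Or.inl (hs2 C hC z hz)
        · right
          exact ⟨z * y, mul_mem hz hy, by rw [conj_smul_smul, mul_assoc]⟩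
      · rw [hsup, sup_comm]
        refine IsPGroup.to_sup_of_normal_right' (h g) hs3 ?_
        refine iSup₂_le ?_
        intro y hy
        rw [← conj_smul_smul]
        have h4 : MulAut.conj y • MulAut.conj g • Z ≤
            MulAut.conj y • normalizer ((sSup Sg : Subgroup G) : Set G) :=
          conj_smul_le_conj_smul_iff.mpr hBn
        rwa [conj_smul_normalizer, mem_normalizer_iff_conj_smul.mp (hYn hy)] at h4
    have h5 : Sh ≤ Sg := hs4 hmem (Set.subset_union_left)
    exact hB' (h5 (Or.inr ⟨1, one_mem _, by rw [one_mul]⟩))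

end Cfsg.Agent.H1
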